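import Cfsg.Agent.H34.PDeg2
import Cfsg.Agent.H41.TorusSylow
import Cfsg.Agent.Char.BrauerInduction

/-!
Cuspidal characters of `SL₂(q)`, `q` odd: the nonsplit torus and the induced character.
-/

set_option autoImplicit false
set_option linter.unusedSectionVars false

namespace Cfsg.Agent.H34.Deg

open Cfsg Cfsg.Agent.Char Cfsg.Agent.CharBase Cfsg.Agent.H39 Matrix
open Cfsg.Agent.H41 (tr NoEig tr_conj tr_inv tr_neg det_eq eq_or_inv_of_commute centralizer_of_noEig centralizer_of_eig
  torus_exists_inverting torus_norm_cases pow_char_of_tr cayley_sl2 sl2_ext inv_00 inv_01 inv_10 inv_11)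
open scoped ComplexConjugate

section torus

variable {F : Type*} [Field F]

theorem sl2_sq_one (h2 : (2 : F) ≠ 0) {s : SpecialLinearGroup (Fin 2) F} (hs : s * s = 1) : s = 1 ∨ s = -1 := by
  have h1 : s = s⁻¹ := eq_inv_of_mul_eq_one_left hs
  have e01 := congrArg (fun A : SpecialLinearGroup (Fin 2) F => A 0 1) h1
  have e10 := congrArg (fun A : SpecialLinearGroup (Fin 2) F => A 1 0) h1
  have e00 := congrArg (fun A : SpecialLinearGroup (Fin 2) F => A 0 0) h1
  rw [inv_01] at e01
  rw [inv_10] at e10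
  rw [inv_00] at e00
  have f01 : s 0 1 = 0 := by
    have : (2 : F) * s 0 1 = 0 := by linear_combination e01
    exact (mul_eq_zero.1 this).resolve_left h2
  have f10 : s 1 0 = 0 := by
    have : (2 : F) * s 1 0 = 0 := by linear_combination e10
    exact (mul_eq_zero.1 this).resolve_left h2
  have hd := det_eq s
  rw [f01, zero_mul, sub_zero, ← e00] at hd
  rcases mul_self_eq_one_iff.1 hd with h | h
  · left
    apply sl2_ext
    · rw [h]; rfl
    · rw [f01]; rfl
    · rw [f10]; rfl
    · rw [← e00, h]; rfl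
  · right
    apply sl2_ext
    · rw [h, H41.neg_00, H41.one_00]
    · rw [f01, H41.neg_01, H41.one_01, neg_zero]
    · rw [f10, H41.neg_10, H41.one_10, neg_zero]
    · rw [← e00, h, H41.neg_11, H41.one_11]

theorem tr_one2 : tr (1 : SpecialLinearGroup (Fin 2) F) = 2 := H41.tr_one'

/-- an element of trace `±2` of order prime to `p` is central -/
theorem central_of_tr {p : ℕ} [Fact p.Prime] [CharP F p] [Finite F] (h2 : (2 : F) ≠ 0) {c : SpecialLinearGroup (Fin 2) F}
    (hc : tr c ^ 2 = 4) (hp : ¬ p ∣ orderOf c) : c = 1 ∨ c = -1 := by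
  obtain ⟨δ, hδ, hδ'⟩ : ∃ δ : F, δ ^ 2 = 1 ∧ tr c = 2 * δ := by
    have h4 : (tr c - 2) * (tr c + 2) = 0 := by linear_combination hc
    rcases mul_eq_zero.mp h4 with h | h
    · exact ⟨1, by ring, by linear_combination h⟩
    · exact ⟨-1, by ring, by linear_combination h⟩
  have h3 := pow_char_of_tr (p := p) c δ hδ hδ'
  have h5 : c ^ (2 * p) = 1 := by
    apply H41.eq_of_coe
    rw [Matrix.SpecialLinearGroup.coe_pow, mul_comm, pow_mul, h3, _root_.smul_pow, one_pow, ← pow_mul, mul_comm, pow_mul, hδ]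
    simp
  have h6 := orderOf_dvd_of_pow_eq_one h5
  have h7 : Nat.Coprime (orderOf c) p := ((Nat.Prime.coprime_iff_not_dvd Fact.out).2 hp).symm
  have h8 := h7.dvd_of_dvd_mul_right h6
  apply sl2_sq_one h2
  rw [← pow_two]
  exact orderOf_dvd_iff_pow_eq_one.1 h8

/-- a nonsplit torus -/
structure NST (C : Subgroup (SpecialLinearGroup (Fin 2) F)) : Prop where
  card : Nat.card C = Nat.card F + 1
  reg : ∀ c ∈ C, c = 1 ∨ c = -1 ∨ NoEig (tr c)
  neg : -1 ∈ C
  cen : ∀ c ∈ C, NoEig (tr c) → Subgroup.centralizer ({c} : Set (SpecialLinearGroup (Fin 2) F)) = C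

variable [Finite F]

theorem nst_of_comm (h2 : (2 : F) ≠ 0) {C : Subgroup (SpecialLinearGroup (Fin 2) F)} (hcomm : ∀ a ∈ C, ∀ b ∈ C, a * b = b * a)
    (hcard : Nat.card C = Nat.card F + 1) : NST C := by
  obtain ⟨p, hp⟩ := CharP.exists F
  haveI := hp
  haveI : Fact p.Prime := ⟨CharP.char_is_prime F p⟩
  haveI : Fintype F := Fintype.ofFinite F
  have hpq : p ∣ Nat.card F := by
    obtain ⟨n, hpp, hn⟩ := FiniteField.card F p
    rw [Nat.card_eq_fintype_card, hn]
    exact dvd_pow_self p n.ne_zero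
  have hpp : p.Prime := Fact.out
  have hpnot : ¬ p ∣ Nat.card F + 1 := by
    intro h
    exact hpp.one_lt.ne' (Nat.dvd_one.1 ((Nat.dvd_add_right hpq).1 h))
  have hF : 1 < Nat.card F := by rw [Nat.card_eq_fintype_card]; exact Fintype.one_lt_card
  have hcent : ∀ c ∈ C, tr c ^ 2 ≠ 4 → NoEig (tr c) ∧ Subgroup.centralizer ({c} : Set (SpecialLinearGroup (Fin 2) F)) = C := by
    intro c hc htr
    have hle : C ≤ Subgroup.centralizer ({c} : Set (SpecialLinearGroup (Fin 2) F)) := by
      intro x hx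
      rw [Subgroup.mem_centralizer_singleton_iff]
      exact hcomm x hx c hc
    have hdvd := Subgroup.card_dvd_of_le hle
    have hno : NoEig (tr c) := by
      intro a ha
      obtain ⟨-, h3⟩ := centralizer_of_eig c htr a ha
      rw [hcard, h3] at hdvd
      have := Nat.le_of_dvd (by omega) hdvd
      omega
    refine ⟨hno, ?_⟩
    symm
    apply Subgroup.eq_of_le_of_card_ge hle
    rw [(centralizer_of_noEig c hno).2, hcard]
  have hreg : ∀ c ∈ C, c = 1 ∨ c = -1 ∨ NoEig (tr c) := by
    intro c hc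
    by_cases htr : tr c ^ 2 = 4
    · have h3 : ¬ p ∣ orderOf c := by
        intro h4
        apply hpnot
        rw [← hcard]
        refine h4.trans ?_
        rw [← Subgroup.orderOf_mk c hc]
        exact orderOf_dvd_natCard _
      rcases central_of_tr h2 htr h3 with h5 | h5
      · exact Or.inl h5
      · exact Or.inr (Or.inl h5)
    · exact Or.inr (Or.inr (hcent c hc htr).1)
  have hcen : ∀ c ∈ C, NoEig (tr c) → Subgroup.centralizer ({c} : Set (SpecialLinearGroup (Fin 2) F)) = C :=
    fun c hc h => (hcent c hc h.sq_ne_four).2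
  refine ⟨hcard, hreg, ?_, hcen⟩
  -- there is a regular element
  obtain ⟨c, hc, hno⟩ : ∃ c ∈ C, NoEig (tr c) := by
    by_contra hcon
    push Not at hcon
    have h3 : (C : Set (SpecialLinearGroup (Fin 2) F)) ⊆ {1, -1} := by
      intro c hc
      rcases hreg c hc with h | h | h
      · exact Or.inl h
      · exact Or.inr h
      · exact absurd h (hcon c hc)
    have h4 : Nat.card C ≤ 2 := by
      have h5 := Set.ncard_le_ncard h3 (Set.toFinite _)
      have h6 := Set.ncard_insert_le (1 : SpecialLinearGroup (Fin 2) F) {-1}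
      rw [Set.ncard_singleton] at h6
      exact h5.trans h6
    omega
  rw [← hcen c hc hno, Subgroup.mem_centralizer_singleton_iff, neg_one_mul, mul_neg_one]

theorem NST.comm {C : Subgroup (SpecialLinearGroup (Fin 2) F)} (hC : NST C) {a b : SpecialLinearGroup (Fin 2) F} (ha : a ∈ C) (hb : b ∈ C) :
    a * b = b * a := by
  rcases hC.reg b hb with h | h | h
  · rw [h, mul_one, one_mul]
  · rw [h, neg_one_mul, mul_neg_one]
  · rw [← hC.cen b hb h, Subgroup.mem_centralizer_singleton_iff] at ha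
    exact ha

theorem nst_of_noEig (h2 : (2 : F) ≠ 0) {c : SpecialLinearGroup (Fin 2) F} (hc : NoEig (tr c)) :
    NST (Subgroup.centralizer ({c} : Set (SpecialLinearGroup (Fin 2) F))) := by
  obtain ⟨hcyc, hcard⟩ := centralizer_of_noEig c hc
  refine nst_of_comm h2 ?_ hcard
  intro a ha b hb
  have := (IsCyclic.isMulCommutative (α := Subgroup.centralizer ({c} : Set (SpecialLinearGroup (Fin 2) F)))).is_comm.comm ⟨a, ha⟩ ⟨b, hb⟩
  exact congrArg Subtype.val this

theorem noEig_conj {c g : SpecialLinearGroup (Fin 2) F} : NoEig (tr (g * c * g⁻¹)) ↔ NoEig (tr c) := by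
  rw [tr_conj]

theorem not_noEig_upper {b : SpecialLinearGroup (Fin 2) F} (hb : b 1 0 = 0) : ¬ NoEig (tr b) := by
  intro h
  apply h (b 0 0)
  have hd := det_eq b
  rw [hb, mul_zero, sub_zero] at hd
  simp only [tr]
  linear_combination -hd

end torus

section induced

variable {F : Type*} [Field F] [Fintype F] [DecidableEq F] {C : Subgroup (SpecialLinearGroup (Fin 2) F)} (hC : NST C)
  (θ : C →* ℂˣ)

/-- the complex-valued character of the torus -/
def th (θ : C →* ℂˣ) : C → ℂ := fun c => (θ c : ℂ)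

include hC in
theorem ind_zero {g : SpecialLinearGroup (Fin 2) F} (h1 : g ≠ 1) (h2 : g ≠ -1) (h : ¬ NoEig (tr g)) : indFun C (th θ) g = 0 := by
  rw [indFun, Finset.sum_eq_zero, mul_zero]
  intro x _
  apply extendByZero_of_notMem
  intro hx
  rcases hC.reg _ hx with h3 | h3 | h3
  · apply h1
    have : g = x * (x⁻¹ * g * x) * x⁻¹ := by group
    rw [this, h3]; group
  · apply h2
    have : g = x * (x⁻¹ * g * x) * x⁻¹ := by group
    rw [this, h3, mul_neg_one, neg_mul, mul_inv_cancel]
  · apply h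
    have h4 := tr_conj g x⁻¹
    rw [inv_inv] at h4
    rwa [h4] at h3

theorem ind_reg (h2 : (2 : F) ≠ 0) {c : SpecialLinearGroup (Fin 2) F} (hc : c ∈ C) (hno : NoEig (tr c)) (hC : NST C) :
    indFun C (th θ) c = (θ ⟨c, hc⟩ : ℂ) + ((θ ⟨c, hc⟩)⁻¹ : ℂˣ) := by
  classical
  have ht := hno.sq_ne_four
  obtain ⟨w, -, hw, hwC⟩ := torus_exists_inverting h2 C c ht (hC.cen c hc hno)
  have hcinv : θ ⟨c⁻¹, C.inv_mem hc⟩ = (θ ⟨c, hc⟩)⁻¹ := by
    rw [← map_inv]; rfl
  have hw1 : w⁻¹ * c = c⁻¹ * w⁻¹ := by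
    have h3 : w * c = c⁻¹ * w := by rw [← hw]; group
    have h4 : c * w = w * c⁻¹ := by
      calc c * w = c * (w * c) * c⁻¹ := by group
        _ = c * (c⁻¹ * w) * c⁻¹ := by rw [h3]
        _ = w * c⁻¹ := by group
    calc w⁻¹ * c = w⁻¹ * (c * w) * w⁻¹ := by group
      _ = w⁻¹ * (w * c⁻¹) * w⁻¹ := by rw [h4]
      _ = c⁻¹ * w⁻¹ := by group
  have hboth : ∀ x, x ∈ C → x * w⁻¹ ∉ C := by
    intro x hxC h6
    apply hwC
    have := C.mul_mem (C.inv_mem h6) hxC
    rwa [_root_.mul_inv_rev, inv_inv, mul_assoc, inv_mul_cancel, mul_one] at this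
  have key : ∀ x : SpecialLinearGroup (Fin 2) F, extendByZero C (th θ) (x⁻¹ * c * x) =
      (if x ∈ C then (θ ⟨c, hc⟩ : ℂ) else 0) + (if x * w⁻¹ ∈ C then (((θ ⟨c, hc⟩)⁻¹ : ℂˣ) : ℂ) else (0 : ℂ)) := by
    intro x
    by_cases hx : x ∈ C
    · rw [if_pos hx, if_neg (hboth x hx), add_zero]
      have h3 : x⁻¹ * c * x = c := by rw [mul_assoc, hC.comm hc hx]; group
      rw [h3, extendByZero_of_mem C (th θ) hc]
      rfl
    · rw [if_neg hx, zero_add]
      by_cases hxw : x * w⁻¹ ∈ C
      · rw [if_pos hxw]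
        have h3 : x⁻¹ * c * x = c⁻¹ := by
          have h4 : x * w⁻¹ * c = c * (x * w⁻¹) := hC.comm hxw hc
          have h5 : x * c⁻¹ = c * x := by
            calc x * c⁻¹ = x * (c⁻¹ * w⁻¹) * w := by group
              _ = x * (w⁻¹ * c) * w := by rw [hw1]
              _ = (x * w⁻¹ * c) * w := by group
              _ = c * (x * w⁻¹) * w := by rw [h4]
              _ = c * x := by group
          rw [mul_assoc, ← h5]; group
        rw [h3, extendByZero_of_mem C (th θ) (C.inv_mem hc), th, hcinv]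
      · rw [if_neg hxw]
        apply extendByZero_of_notMem
        intro h3
        have h4 : (x⁻¹ * c * x) * c = c * (x⁻¹ * c * x) := hC.comm h3 hc
        have h5 : tr (x⁻¹ * c * x) = tr c := by
          have h4 := tr_conj c x⁻¹
          rwa [inv_inv] at h4
        rcases eq_or_inv_of_commute h2 ht h4 h5 with h6 | h6
        · apply hx
          rw [← hC.cen c hc hno, Subgroup.mem_centralizer_singleton_iff]
          calc x * c = x * (x⁻¹ * c * x) := by rw [h6]
            _ = c * x := by group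
        · apply hxw
          rw [← hC.cen c hc hno, Subgroup.mem_centralizer_singleton_iff]
          calc x * w⁻¹ * c = x * (w⁻¹ * c) := by group
            _ = x * (c⁻¹ * w⁻¹) := by rw [hw1]
            _ = x * (x⁻¹ * c * x) * w⁻¹ := by rw [h6]; group
            _ = c * (x * w⁻¹) := by group
  have hsum : ∀ a : ℂ, ∑ x : SpecialLinearGroup (Fin 2) F, (if x ∈ C then a else 0) = Nat.card C * a := by
    intro a
    rw [← Finset.sum_filter, Finset.sum_const, nsmul_eq_mul]
    congr 2
    rw [Nat.card_eq_fintype_card, Fintype.card_subtype]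
  have hsum2 : ∀ a : ℂ, ∑ x : SpecialLinearGroup (Fin 2) F, (if x * w⁻¹ ∈ C then a else 0) = Nat.card C * a := by
    intro a
    rw [← hsum]
    exact Fintype.sum_equiv (Equiv.mulRight w⁻¹) _ _ fun x => rfl
  rw [indFun, Finset.sum_congr rfl fun x _ => key x, Finset.sum_add_distrib, hsum, hsum2]
  have hC0 : (Nat.card C : ℂ) ≠ 0 := card_ne_zero_complex C
  field_simp

theorem ind_center {z : SpecialLinearGroup (Fin 2) F} (hz : z = 1 ∨ z = -1) (hzC : z ∈ C) (hC : NST C) :
    indFun C (th θ) z = Fintype.card F * ((Fintype.card F : ℂ) - 1) * (θ ⟨z, hzC⟩ : ℂ) := by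
  have hcomm : ∀ x : SpecialLinearGroup (Fin 2) F, x⁻¹ * z * x = z := by
    intro x
    rcases hz with rfl | rfl
    · group
    · rw [mul_neg_one, neg_mul, inv_mul_cancel]
  have hidx : (C.index : ℂ) = Fintype.card F * ((Fintype.card F : ℂ) - 1) := by
    have h1 := C.card_mul_index
    have hq : 1 < Fintype.card F := Fintype.one_lt_card
    rw [hC.card, card_SL, Nat.card_eq_fintype_card] at h1
    have h2 : C.index = (Fintype.card F - 1) * Fintype.card F := Nat.eq_of_mul_eq_mul_left (by omega) h1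
    rw [h2, Nat.cast_mul, Nat.cast_sub hq.le]
    push_cast; ring
  have h1 : indFun C (th θ) z = (C.index : ℂ) * (θ ⟨z, hzC⟩ : ℂ) := by
    rw [indFun, Finset.sum_congr rfl fun x _ => by rw [hcomm x, extendByZero_of_mem C (th θ) hzC], Finset.sum_const,
      Finset.card_univ, nsmul_eq_mul, ← Nat.card_eq_fintype_card, ← C.card_mul_index]
    have hC0 : (Nat.card C : ℂ) ≠ 0 := card_ne_zero_complex C
    push_cast
    rw [mul_assoc, inv_mul_cancel_left₀ hC0]
    rfl
  rw [h1, hidx]

end induced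

end Cfsg.Agent.H34.Deg
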