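import Cfsg.Agent.H34.Cusp1
import Cfsg.Agent.Coh.Basic

/-!
Cuspidal characters of `SL₂(q)`, `q` odd: the virtual character.
-/

set_option autoImplicit false
set_option linter.unusedSectionVars false

namespace Cfsg.Agent.H34.Deg

open Cfsg Cfsg.Agent.Char Cfsg.Agent.CharBase Cfsg.Agent.H39 Matrix
open Cfsg.Agent.H41 (tr NoEig tr_conj tr_inv tr_neg det_eq)
open scoped ComplexConjugate

variable {F : Type*} [Field F] [Fintype F] [DecidableEq F]

theorem pSL_one_upper {b : SpecialLinearGroup (Fin 2) F} (h10 : b 1 0 = 0) (hne : b 0 0 ≠ b 1 1) : pSL (1 : MulChar F ℂ) b = 2 := by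
  have e10 : mt (inSL F) b 1 0 = 0 := h10
  have hd := det_eq b
  rw [h10, mul_zero, sub_zero] at hd
  have h00 : b 0 0 ≠ 0 := fun h => by rw [h, zero_mul] at hd; exact zero_ne_one hd
  have h11 : b 1 1 ≠ 0 := fun h => by rw [h, mul_zero] at hd; exact zero_ne_one hd
  have f00 : mt (inSL F) b 0 0 = b 0 0 := rfl
  have f11 : mt (inSL F) b 1 1 = b 1 1 := rfl
  have f01 : mt (inSL F) b 0 1 = b 0 1 := rfl
  rw [pSL, (frameSL F).prin_apply, if_pos e10, e10, f00, f11, MulChar.one_apply (IsUnit.mk0 _ h00), MulChar.one_apply (IsUnit.mk0 _ h11)]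
  have h3 : b 1 1 - b 0 0 ≠ 0 := sub_ne_zero.2 (Ne.symm hne)
  rw [Finset.sum_eq_single (b 0 1 / (b 1 1 - b 0 0))]
  · rw [if_pos]
    · rw [zero_mul, zero_add, sub_zero, MulChar.one_apply (IsUnit.mk0 _ h00), MulChar.one_apply (IsUnit.mk0 _ h11)]
      norm_num
    · simp only [qf2, e10, f00, f11, f01]
      field_simp
      ring
  · intro x _ hx
    rw [if_neg]
    intro h4
    apply hx
    simp only [qf2, e10, f00, f11, f01] at h4
    rw [eq_div_iff h3]
    linear_combination h4
  · simp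

theorem mt_neg_u (x : F) : mt (inSL F) (-uSL x) = !![-1, -x; 0, -1] := by
  have h1 : mt (inSL F) (-uSL x) = -!![1, x; 0, 1] := rfl
  rw [h1]
  ext i j
  fin_cases i <;> fin_cases j <;> simp

theorem mulChar_neg_one_sq (α : MulChar F ℂ) : α (-1) * α (-1) = 1 := by
  rw [← map_mul, neg_one_mul, neg_neg, map_one]

theorem mulChar_neg_one_cases (α : MulChar F ℂ) : α (-1) = 1 ∨ α (-1) = -1 :=
  mul_self_eq_one_iff.1 (mulChar_neg_one_sq α)

theorem pSL_neg_u (α : MulChar F ℂ) {x : F} (hx : x ≠ 0) : pSL α (-uSL x) = α (-1) := by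
  have h1 := mt_neg_u x
  rw [pSL, (frameSL F).prin_uni α 1 (-uSL x) (by rw [h1]; simp) (by rw [h1]; simpa using hx) (by rw [h1]; simp), h1]
  simp
  rw [MulChar.one_apply (IsUnit.neg isUnit_one), mul_one]

/-- the function `K = (St - 1) R(α)` -/
noncomputable def KK (α : MulChar F ℂ) : SpecialLinearGroup (Fin 2) F → ℂ := fun g => pSL α g * (pSL 1 g - 2)

theorem classFun_sub_two : IsClassFunction (SpecialLinearGroup (Fin 2) F) (fun g => pSL (1 : MulChar F ℂ) g - 2) := by
  intro g h
  show pSL (1 : MulChar F ℂ) (h * g * h⁻¹) - 2 = pSL (1 : MulChar F ℂ) g - 2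
  rw [isClassFunction_of_isCharacter (isCharacter_pSL (1 : MulChar F ℂ)) g h]

/-- `K` as an induced function -/
theorem KK_eq (α : MulChar F ℂ) : KK α = indFun (B2 (inSL F)) (fun b => lam (inSL F) α 1 b * (pSL 1 (b : SpecialLinearGroup (Fin 2) F) - 2)) := by
  rw [indFun_mul_restrict (B2 (inSL F)) (lam (inSL F) α 1) (fun g => pSL 1 g - 2) classFun_sub_two]
  rfl

/-- parametrization of `± U` -/
def eB (F : Type*) [Field F] [Fintype F] [DecidableEq F] : F ⊕ F → B2 (inSL F)
  | Sum.inl x => ⟨uSL x, (frameSL F).u_mem x⟩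
  | Sum.inr x => ⟨-uSL x, by
      rw [mem_B2, mt_neg_u]; rfl⟩

theorem eB_injective (h2 : (2 : F) ≠ 0) : Function.Injective (eB F) := by
  have h10 : (1 : F) ≠ -1 := by
    intro h; apply h2; linear_combination h
  rintro (x | x) (y | y) h
  · have := congrArg (fun b : B2 (inSL F) => (b : SpecialLinearGroup (Fin 2) F) 0 1) h
    have h3 : x = y := this
    rw [h3]
  · exfalso
    have := congrArg (fun b : B2 (inSL F) => (b : SpecialLinearGroup (Fin 2) F) 0 0) h
    exact h10 this
  · exfalso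
    have := congrArg (fun b : B2 (inSL F) => (b : SpecialLinearGroup (Fin 2) F) 0 0) h
    exact h10 this.symm
  · have := congrArg (fun b : B2 (inSL F) => (b : SpecialLinearGroup (Fin 2) F) 0 1) h
    have h3 : -x = -y := this
    rw [neg_injective h3]

theorem not_mem_range_eB {b : B2 (inSL F)} (hb : b ∉ Set.range (eB F)) :
    (b : SpecialLinearGroup (Fin 2) F) 0 0 ≠ (b : SpecialLinearGroup (Fin 2) F) 1 1 := by
  intro h
  apply hb
  obtain ⟨b, hbB⟩ := b
  have h10 : b 1 0 = 0 := by rw [mem_B2] at hbB; exact hbB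
  have h' : b 0 0 = b 1 1 := h
  have hd := det_eq b
  rw [h10, mul_zero, sub_zero, ← h'] at hd
  rcases mul_self_eq_one_iff.1 hd with h3 | h3
  · refine ⟨Sum.inl (b 0 1), ?_⟩
    apply Subtype.ext
    apply H41.sl2_ext
    · exact h3.symm
    · rfl
    · exact h10.symm
    · rw [← h']; exact h3.symm
  · refine ⟨Sum.inr (-b 0 1), ?_⟩
    apply Subtype.ext
    apply H41.sl2_ext
    · exact h3.symm
    · show -(-b 0 1) = b 0 1
      rw [neg_neg]
    · show -0 = b 1 0
      rw [h10, neg_zero]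
    · rw [← h']; exact h3.symm

theorem card_B : (Nat.card (B2 (inSL F)) : ℂ) = Fintype.card F * ((Fintype.card F : ℂ) - 1) := by
  have hq : 1 < Fintype.card F := Fintype.one_lt_card
  have h1 : Nat.card (B2 (inSL F)) = (Fintype.card F - 1) * Fintype.card F := card_bSL
  rw [h1, Nat.cast_mul, Nat.cast_sub hq.le]
  push_cast
  ring

theorem inner_KK (h2 : (2 : F) ≠ 0) (α : MulChar F ℂ) {χ : SpecialLinearGroup (Fin 2) F → ℂ} (hχ : IsClassFunction _ χ) :
    classInner χ (KK α) * (Fintype.card F * ((Fintype.card F : ℂ) - 1)) =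
      (Fintype.card F * χ 1 - ∑ x : F, χ (uSL x)) + α (-1) * (Fintype.card F * χ (-1) - ∑ x : F, χ (-uSL x)) := by
  haveI : Fintype (B2 (inSL F)) := Fintype.ofFinite _
  have hB := card_B (F := F)
  have hB0 : (Nat.card (B2 (inSL F)) : ℂ) ≠ 0 := card_ne_zero_complex _
  rw [KK_eq, frobenius_reciprocity' _ _ _ hχ, classInner, hB]
  rw [hB] at hB0
  rw [mul_comm ((Fintype.card F : ℂ) * ((Fintype.card F : ℂ) - 1))⁻¹, inv_mul_cancel_right₀ hB0]
  rw [← Fintype.sum_of_injective (eB F) (eB_injective h2) (fun i => χ (eB F i : SpecialLinearGroup (Fin 2) F) *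
    conj (lam (inSL F) α 1 (eB F i) * (pSL 1 (eB F i : SpecialLinearGroup (Fin 2) F) - 2)))]
  · rw [Fintype.sum_sum_type]
    have c2 : conj (2 : ℂ) = 2 := map_ofNat (starRingEnd ℂ) 2
    have hε : conj (α (-1)) = α (-1) := by
      rcases mulChar_neg_one_cases α with h | h <;> rw [h] <;> simp
    have k1 : ∀ x : F, χ (eB F (Sum.inl x) : SpecialLinearGroup (Fin 2) F) *
        conj (lam (inSL F) α 1 (eB F (Sum.inl x)) * (pSL 1 (eB F (Sum.inl x) : SpecialLinearGroup (Fin 2) F) - 2)) =
        (if x = 0 then Fintype.card F * χ 1 else 0) - χ (uSL x) := by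
      intro x
      have e1 : lam (inSL F) α 1 (eB F (Sum.inl x)) = 1 := by
        show α 1 * (1 : MulChar F ℂ) 1 = 1
        rw [map_one, map_one, one_mul]
      have e2 : ((eB F (Sum.inl x) : B2 (inSL F)) : SpecialLinearGroup (Fin 2) F) = uSL x := rfl
      rw [e1, one_mul, e2]
      by_cases hx : x = 0
      · subst hx
        have e3 : (uSL (0 : F)) = 1 := (frameSL F).u_zero
        rw [if_pos rfl, e3, pSL_one]
        simp [c2]
        ring
      · rw [if_neg hx, pSL_u 1 hx]
        norm_num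
    have k2 : ∀ x : F, χ (eB F (Sum.inr x) : SpecialLinearGroup (Fin 2) F) *
        conj (lam (inSL F) α 1 (eB F (Sum.inr x)) * (pSL 1 (eB F (Sum.inr x) : SpecialLinearGroup (Fin 2) F) - 2)) =
        α (-1) * ((if x = 0 then Fintype.card F * χ (-1) else 0) - χ (-uSL x)) := by
      intro x
      have e1 : lam (inSL F) α 1 (eB F (Sum.inr x)) = α (-1) := by
        show α (-1) * (1 : MulChar F ℂ) (-1) = α (-1)
        rw [MulChar.one_apply (IsUnit.neg isUnit_one), mul_one]
      have e2 : ((eB F (Sum.inr x) : B2 (inSL F)) : SpecialLinearGroup (Fin 2) F) = -uSL x := rfl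
      rw [e1, e2, map_mul, hε]
      by_cases hx : x = 0
      · subst hx
        have e3 : (uSL (0 : F)) = 1 := (frameSL F).u_zero
        rw [if_pos rfl, e3, pSL_neg_one, MulChar.one_apply (IsUnit.neg isUnit_one)]
        simp [c2]
        ring
      · rw [if_neg hx, pSL_neg_u 1 hx, MulChar.one_apply (IsUnit.neg isUnit_one)]
        norm_num
        ring
    rw [Finset.sum_congr rfl fun x _ => k1 x, Finset.sum_congr rfl fun x _ => k2 x, ← Finset.mul_sum, Finset.sum_sub_distrib,
      Finset.sum_sub_distrib, Finset.sum_ite_eq', Finset.sum_ite_eq', if_pos (Finset.mem_univ _), if_pos (Finset.mem_univ _)]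
  · intro b hb
    have h3 := not_mem_range_eB hb
    have h4 : (b : SpecialLinearGroup (Fin 2) F) 1 0 = 0 := by
      have := b.2
      rw [mem_B2] at this
      exact this
    rw [pSL_one_upper h4 h3, sub_self, mul_zero, map_zero, mul_zero]
  · intro i
    rfl

end Cfsg.Agent.H34.Deg
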