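import Cfsg.Agent.H34.Cusp2

/-!
Cuspidal characters of `SL₂(q)`, `q` odd: norm of the virtual character.
-/

set_option autoImplicit false
set_option linter.unusedSectionVars false

namespace Cfsg.Agent.H34.Deg

open Cfsg Cfsg.Agent.Char Cfsg.Agent.CharBase Cfsg.Agent.H39 Matrix
open Cfsg.Agent.H41 (tr NoEig tr_conj tr_inv tr_neg det_eq)
open Cfsg.Agent.Char.BI (isGeneralizedCharacter_add isGeneralizedCharacter_neg isGeneralizedCharacter_mul isGeneralizedCharacter_of_isCharacter)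
open scoped ComplexConjugate

variable {F : Type*} [Field F] [Fintype F] [DecidableEq F]

theorem no_eigenvector {g : SpecialLinearGroup (Fin 2) F} (hg : NoEig (tr g)) (c : F) (v : Fin 2 → F) (hv : v ≠ 0) :
    (g : Matrix (Fin 2) (Fin 2) F).mulVec v ≠ c • v := by
  intro h
  have h1 : ((g : Matrix (Fin 2) (Fin 2) F) - c • (1 : Matrix (Fin 2) (Fin 2) F)).det = 0 := by
    apply Matrix.exists_mulVec_eq_zero_iff.1
    refine ⟨v, hv, ?_⟩
    rw [Matrix.sub_mulVec, Matrix.smul_mulVec, Matrix.one_mulVec, h, sub_self]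
  have hd := det_eq g
  apply hg c
  rw [Matrix.det_fin_two] at h1
  simp only [Matrix.sub_apply, Matrix.smul_apply, Matrix.one_apply_eq, smul_eq_mul, mul_one, Matrix.one_apply, tr] at h1 ⊢
  simp at h1
  linear_combination h1 - hd

theorem pSL_elliptic (α : MulChar F ℂ) {g : SpecialLinearGroup (Fin 2) F} (hg : NoEig (tr g)) : pSL α g = 0 :=
  (frameSL F).prin_elliptic α 1 g (no_eigenvector hg)

theorem KK_elliptic (α : MulChar F ℂ) {g : SpecialLinearGroup (Fin 2) F} (hg : NoEig (tr g)) : KK α g = 0 := by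
  rw [KK, pSL_elliptic α hg, zero_mul]

theorem KK_one (α : MulChar F ℂ) : KK α 1 = ((Fintype.card F : ℂ) + 1) * ((Fintype.card F : ℂ) - 1) := by
  rw [KK, pSL_one, pSL_one]; ring

theorem KK_neg_one (α : MulChar F ℂ) : KK α (-1) = ((Fintype.card F : ℂ) + 1) * ((Fintype.card F : ℂ) - 1) * α (-1) := by
  rw [KK, pSL_neg_one, pSL_neg_one, MulChar.one_apply (IsUnit.neg isUnit_one)]; ring

theorem KK_u (α : MulChar F ℂ) {x : F} (hx : x ≠ 0) : KK α (uSL x) = -1 := by
  rw [KK, pSL_u α hx, pSL_u 1 hx]; ring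

theorem KK_neg_u (α : MulChar F ℂ) {x : F} (hx : x ≠ 0) : KK α (-uSL x) = -α (-1) := by
  rw [KK, pSL_neg_u α hx, pSL_neg_u 1 hx, MulChar.one_apply (IsUnit.neg isUnit_one)]; ring

theorem not_noEig_u (x : F) : ¬ NoEig (tr (uSL x)) := not_noEig_upper rfl
theorem not_noEig_neg_u (x : F) : ¬ NoEig (tr (-uSL x)) := not_noEig_upper (by
  show -(0 : F) = 0
  exact neg_zero)

theorem neg_u_ne_neg_one {x : F} (hx : x ≠ 0) : -uSL x ≠ (-1 : SpecialLinearGroup (Fin 2) F) := fun h =>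
  uSL_ne_one hx (neg_injective h)

theorem u_ne_neg_one (h2 : (2 : F) ≠ 0) (x : F) : uSL x ≠ (-1 : SpecialLinearGroup (Fin 2) F) := by
  intro h
  have h3 : (1 : F) = -1 := congrArg (fun A : SpecialLinearGroup (Fin 2) F => A 0 0) h
  apply h2; linear_combination h3

theorem neg_u_ne_one (h2 : (2 : F) ≠ 0) (x : F) : -uSL x ≠ (1 : SpecialLinearGroup (Fin 2) F) := by
  intro h
  apply u_ne_neg_one h2 x
  rw [← h, neg_neg]

variable {C : Subgroup (SpecialLinearGroup (Fin 2) F)}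

/-- the virtual character -/
noncomputable def PiC (θ : C →* ℂˣ) (α : MulChar F ℂ) : SpecialLinearGroup (Fin 2) F → ℂ := KK α - indFun C (th θ)

theorem th_isChar (θ : C →* ℂˣ) : IsCharacter C (th θ) := isCharacter_of_hom ((Units.coeHom ℂ).comp θ)

theorem KK_gen (α : MulChar F ℂ) : IsGeneralizedCharacter (SpecialLinearGroup (Fin 2) F) (KK α) := by
  have h1 : KK α = pSL α * (pSL 1 + -((fun _ => (1 : ℂ)) + (fun _ => (1 : ℂ)))) := by
    funext g
    show pSL α g * (pSL 1 g - 2) = pSL α g * (pSL 1 g + -(1 + 1))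
    ring
  rw [h1]
  refine isGeneralizedCharacter_mul (isGeneralizedCharacter_of_isCharacter (isCharacter_pSL α)) ?_
  refine isGeneralizedCharacter_add (isGeneralizedCharacter_of_isCharacter (isCharacter_pSL 1)) ?_
  refine isGeneralizedCharacter_neg (isGeneralizedCharacter_add ?_ ?_) <;>
    exact isGeneralizedCharacter_of_isCharacter Char.isCharacter_one

theorem PiC_gen (θ : C →* ℂˣ) (α : MulChar F ℂ) : IsGeneralizedCharacter (SpecialLinearGroup (Fin 2) F) (PiC θ α) := by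
  rw [PiC, sub_eq_add_neg]
  exact isGeneralizedCharacter_add (KK_gen α) (isGeneralizedCharacter_neg
    (isGeneralizedCharacter_of_isCharacter (indFun_isCharacter C (th θ) (th_isChar θ))))

theorem PiC_class (θ : C →* ℂˣ) (α : MulChar F ℂ) : IsClassFunction (SpecialLinearGroup (Fin 2) F) (PiC θ α) :=
  Coh.isGen_isClassFunction (PiC_gen θ α)

section values
variable (hC : NST C) (h2 : (2 : F) ≠ 0) (θ : C →* ℂˣ) (α : MulChar F ℂ) (hα : α (-1) = (θ ⟨-1, hC.neg⟩ : ℂ))

include hC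

theorem PiC_one : PiC θ α 1 = (Fintype.card F : ℂ) - 1 := by
  rw [PiC, Pi.sub_apply, KK_one, ind_center θ (Or.inl rfl) C.one_mem hC]
  have : θ ⟨1, C.one_mem⟩ = 1 := map_one θ
  rw [this, Units.val_one]
  ring

include hα in
theorem PiC_neg_one : PiC θ α (-1) = ((Fintype.card F : ℂ) - 1) * α (-1) := by
  rw [PiC, Pi.sub_apply, KK_neg_one, ind_center θ (Or.inr rfl) hC.neg hC, hα]
  ring

include h2 in
theorem PiC_u {x : F} (hx : x ≠ 0) : PiC θ α (uSL x) = -1 := by
  rw [PiC, Pi.sub_apply, KK_u α hx, ind_zero hC θ (uSL_ne_one hx) (u_ne_neg_one h2 x) (not_noEig_u x), sub_zero]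

include h2 in
theorem PiC_neg_u {x : F} (hx : x ≠ 0) : PiC θ α (-uSL x) = -α (-1) := by
  rw [PiC, Pi.sub_apply, KK_neg_u α hx, ind_zero hC θ (neg_u_ne_one h2 x) (neg_u_ne_neg_one hx) (not_noEig_neg_u x), sub_zero]

include h2 in
theorem PiC_reg {c : SpecialLinearGroup (Fin 2) F} (hc : c ∈ C) (hno : NoEig (tr c)) :
    PiC θ α c = -((θ ⟨c, hc⟩ : ℂ) + ((θ ⟨c, hc⟩)⁻¹ : ℂˣ)) := by
  rw [PiC, Pi.sub_apply, KK_elliptic α hno, ind_reg θ h2 hc hno hC, zero_sub]

omit hC in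
theorem PiC_split (h2 : (2 : F) ≠ 0) (hC : NST C) {b : SpecialLinearGroup (Fin 2) F} (h10 : b 1 0 = 0) (hne : b 0 0 ≠ b 1 1) : PiC θ α b = 0 := by
  have h1 : b ≠ 1 := by rintro rfl; exact hne rfl
  have h3 : b ≠ -1 := by rintro rfl; exact hne rfl
  rw [PiC, Pi.sub_apply, KK, pSL_one_upper h10 hne, sub_self, mul_zero, ind_zero hC θ h1 h3 (not_noEig_upper h10), sub_zero]

include h2 hα in
theorem inner_PiC_KK : classInner (PiC θ α) (KK α) = 2 := by
  have h1 := inner_KK h2 α (PiC_class θ α)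
  have hq : 1 < Fintype.card F := Fintype.one_lt_card
  have hq1 : ((Fintype.card F : ℂ) - 1) ≠ 0 := by
    rw [sub_ne_zero]; exact_mod_cast hq.ne'
  have hq0 := card_ne F
  have s1 : ∑ x : F, PiC θ α (uSL x) = 0 := by
    have e1 : ∀ x : F, PiC θ α (uSL x) = (if x = 0 then (Fintype.card F : ℂ) else 0) - 1 := by
      intro x
      by_cases hx : x = 0
      · subst hx
        have e3 : (uSL (0 : F)) = 1 := (frameSL F).u_zero
        rw [e3, PiC_one hC, if_pos rfl]
      · rw [PiC_u hC h2 θ α hx, if_neg hx, zero_sub]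
    rw [Finset.sum_congr rfl fun x _ => e1 x, Finset.sum_sub_distrib, Finset.sum_ite_eq', if_pos (Finset.mem_univ _)]
    simp
  have s2 : ∑ x : F, PiC θ α (-uSL x) = 0 := by
    have e1 : ∀ x : F, PiC θ α (-uSL x) = ((if x = 0 then (Fintype.card F : ℂ) else 0) - 1) * α (-1) := by
      intro x
      by_cases hx : x = 0
      · subst hx
        have e3 : (uSL (0 : F)) = 1 := (frameSL F).u_zero
        rw [e3, PiC_neg_one hC θ α hα, if_pos rfl]
      · rw [PiC_neg_u hC h2 θ α hx, if_neg hx]; ring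
    rw [Finset.sum_congr rfl fun x _ => e1 x, ← Finset.sum_mul, Finset.sum_sub_distrib, Finset.sum_ite_eq', if_pos (Finset.mem_univ _)]
    simp
  rw [s1, s2, PiC_one hC, PiC_neg_one hC θ α hα] at h1
  have h3 := mulChar_neg_one_sq α
  apply mul_right_cancel₀ (mul_ne_zero hq0 hq1)
  rw [h1]
  linear_combination (Fintype.card F : ℂ) * ((Fintype.card F : ℂ) - 1) * h3

omit hC in
theorem conj_th [Finite C] (c : C) : conj (θ c : ℂ) = (((θ c)⁻¹ : ℂˣ) : ℂ) := by
  have h1 := linChar_conj (th_isChar θ) (by show ((θ 1 : ℂˣ) : ℂ) = 1; rw [map_one]; rfl) c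
  have h2 : conj (θ c : ℂ) = ((θ c⁻¹ : ℂˣ) : ℂ) := h1
  rw [h2, map_inv]

omit hC in
theorem sum_inv_sq [Fintype C] [Decidable (θ ^ 2 = 1)] : ∑ c : C, ((((θ ^ 2)⁻¹ : C →* ℂˣ) c : ℂˣ) : ℂ) = if θ ^ 2 = 1 then (Nat.card C : ℂ) else 0 := by
  split_ifs with h
  · rw [h]
    simp [Nat.card_eq_fintype_card]
  · have h3 : (Units.coeHom ℂ).comp ((θ ^ 2)⁻¹ : C →* ℂˣ) ≠ 1 := by
      intro h4
      apply h
      ext c
      have h5 : ((((θ ^ 2) c)⁻¹ : ℂˣ) : ℂ) = 1 := DFunLike.congr_fun h4 c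
      have h6 : ((θ ^ 2) c)⁻¹ = 1 := Units.ext h5
      rw [_root_.inv_eq_one] at h6
      rw [h6]
      rfl
    exact sum_hom_units_eq_zero _ h3

include h2 hα in
theorem inner_PiC_ind [Decidable (θ ^ 2 = 1)] : classInner (PiC θ α) (indFun C (th θ)) = if θ ^ 2 = 1 then 0 else 1 := by
  classical
  haveI : Fintype C := Fintype.ofFinite _
  have hne : (⟨-1, hC.neg⟩ : C) ≠ 1 := by
    intro h
    exact neg_one_ne_one h2 (congrArg Subtype.val h)
  rw [frobenius_reciprocity' C (th θ) _ (PiC_class θ α), classInner]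
  have key : ∀ c : C, PiC θ α (c : SpecialLinearGroup (Fin 2) F) * conj (th θ c) =
      -(1 + ((((θ ^ 2)⁻¹ : C →* ℂˣ) c : ℂˣ) : ℂ)) + (if c = 1 then ((Fintype.card F : ℂ) + 1) else 0) +
        (if c = ⟨-1, hC.neg⟩ then ((Fintype.card F : ℂ) + 1) else 0) := by
    intro c
    have e0 : conj (th θ c) = (((θ c)⁻¹ : ℂˣ) : ℂ) := conj_th θ c
    have e1 : ((((θ ^ 2)⁻¹ : C →* ℂˣ) c : ℂˣ) : ℂ) = (((θ c)⁻¹ : ℂˣ) : ℂ) * (((θ c)⁻¹ : ℂˣ) : ℂ) := by
      rw [MonoidHom.inv_apply, MonoidHom.pow_apply, sq, _root_.mul_inv, Units.val_mul]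
    rw [e0, e1]
    rcases hC.reg c c.2 with h | h | h
    · have hc : c = 1 := Subtype.ext h
      subst hc
      have e2 : PiC θ α ((1 : C) : SpecialLinearGroup (Fin 2) F) = (Fintype.card F : ℂ) - 1 := PiC_one hC θ α
      rw [e2, map_one, if_pos rfl, if_neg (Ne.symm hne)]
      simp
      ring
    · have hc : c = ⟨-1, hC.neg⟩ := Subtype.ext h
      subst hc
      have e2 : PiC θ α (((⟨-1, hC.neg⟩ : C)) : SpecialLinearGroup (Fin 2) F) = ((Fintype.card F : ℂ) - 1) * α (-1) := PiC_neg_one hC θ α hα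
      have e3 : α (-1) * (((θ ⟨-1, hC.neg⟩)⁻¹ : ℂˣ) : ℂ) = 1 := by rw [hα, Units.mul_inv]
      have e4 : (((θ ⟨-1, hC.neg⟩)⁻¹ : ℂˣ) : ℂ) = α (-1) := by
        rcases mulChar_neg_one_cases α with h5 | h5
        · rw [h5, one_mul] at e3; rw [e3, h5]
        · rw [h5] at e3 ⊢; linear_combination -e3
      rw [e2, if_neg hne, if_pos rfl, e4]
      linear_combination ((Fintype.card F : ℂ)) * mulChar_neg_one_sq α
    · have hc1 : c ≠ 1 := by
        rintro rfl
        exact not_noEig_u (0 : F) (by rw [(frameSL F).u_zero]; exact h)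
      have hc2 : c ≠ ⟨-1, hC.neg⟩ := by
        rintro rfl
        exact not_noEig_neg_u (0 : F) (by rw [(frameSL F).u_zero]; exact h)
      rw [PiC_reg hC h2 θ α c.2 h, if_neg hc1, if_neg hc2]
      have e5 : ((θ c : ℂˣ) : ℂ) * (((θ c)⁻¹ : ℂˣ) : ℂ) = 1 := Units.mul_inv _
      linear_combination -e5
  rw [Finset.sum_congr rfl fun c _ => key c, Finset.sum_add_distrib, Finset.sum_add_distrib, Finset.sum_ite_eq', Finset.sum_ite_eq',
    if_pos (Finset.mem_univ _), if_pos (Finset.mem_univ _), Finset.sum_neg_distrib, Finset.sum_add_distrib, sum_inv_sq]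
  have hcard : (Nat.card C : ℂ) = (Fintype.card F : ℂ) + 1 := by
    rw [hC.card, Nat.card_eq_fintype_card]; push_cast; rfl
  have hC0 : (Nat.card C : ℂ) ≠ 0 := card_ne_zero_complex C
  have hone : ∑ c : C, (1 : ℂ) = Nat.card C := by
    rw [Finset.sum_const, Finset.card_univ, nsmul_eq_mul, mul_one, Nat.card_eq_fintype_card]
  rw [hone]
  split_ifs
  · rw [← hcard]
    ring
  · rw [← hcard]
    field_simp
    ring

include h2 hα in
theorem norm_PiC [Decidable (θ ^ 2 = 1)] : classInner (PiC θ α) (PiC θ α) = if θ ^ 2 = 1 then 2 else 1 := by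
  have h1 : classInner (PiC θ α) (PiC θ α) = classInner (PiC θ α) (KK α) - classInner (PiC θ α) (indFun C (th θ)) := by
    conv_lhs => rw [show PiC θ α = KK α - indFun C (th θ) from rfl]
    rw [classInner_sub_right]
    rfl
  rw [h1, inner_PiC_KK hC h2 θ α hα, inner_PiC_ind hC h2 θ α hα]
  split_ifs <;> norm_num

include h2 hα in
/-- irreducibility -/
theorem PiC_irr (hθ : θ ^ 2 ≠ 1) : IsIrrCharacter (SpecialLinearGroup (Fin 2) F) (PiC θ α) := by
  classical
  have h1 := norm_PiC hC h2 θ α hα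
  rw [if_neg hθ] at h1
  rcases Coh.irr_or_neg_of_norm_one (PiC_gen θ α) h1 with h3 | h3
  · exact h3
  · exfalso
    obtain ⟨n, hn⟩ := exists_nat_degree (isCharacter_of_isIrr h3)
    rw [Pi.neg_apply, PiC_one hC] at hn
    have hq : 1 < Fintype.card F := Fintype.one_lt_card
    have h4 : ((n + Fintype.card F : ℕ) : ℂ) = ((1 : ℕ) : ℂ) := by
      push_cast
      linear_combination -hn
    have h5 : n + Fintype.card F = 1 := by exact_mod_cast h4
    omega

end values

end Cfsg.Agent.H34.Deg
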