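import Cfsg.Agent.H34.Cusp3
import Cfsg.Agent.Char.CentralChar

/-!
Cuspidal characters of `SL₂(q)`, `q` odd: completeness.
-/

set_option autoImplicit false
set_option linter.unusedSectionVars false

namespace Cfsg.Agent.H34.Deg

open Cfsg Cfsg.Agent.Char Cfsg.Agent.CharBase Cfsg.Agent.H39 Matrix
open Cfsg.Agent.H41 (tr NoEig tr_conj tr_inv tr_neg det_eq)
open Cfsg.Agent.Char.BI (isGeneralizedCharacter_add isGeneralizedCharacter_neg isGeneralizedCharacter_mul isGeneralizedCharacter_of_isCharacter)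
open scoped ComplexConjugate

universe u

/-- generalized characters of norm two -/
theorem norm_two_split {G : Type u} [Group G] [Fintype G] {f : G → ℂ} (hf : IsGeneralizedCharacter G f) (h2 : classInner f f = 2)
    (χ : IrrCharacter G) (hne : classInner f (χ : G → ℂ) ≠ 0) :
    ∃ (n : ℤ) (χ' : IrrCharacter G) (m : ℤ), (n = 1 ∨ n = -1) ∧ (m = 1 ∨ m = -1) ∧ classInner f (χ : G → ℂ) = n ∧
      ∀ g, f g = n * (χ : G → ℂ) g + m * (χ' : G → ℂ) g := by
  have hχ : IsGeneralizedCharacter G (χ : G → ℂ) := Coh.isGen_of_isIrr χ.2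
  obtain ⟨n, hn⟩ := classInner_intCast hf hχ
  have hn0 : n ≠ 0 := by
    rintro rfl
    apply hne
    rw [hn]; simp
  have hn' : classInner (χ : G → ℂ) f = n := by rw [Coh.classInner_comm hχ hf, hn]
  have hg : IsGeneralizedCharacter G (f - n • (χ : G → ℂ)) := Coh.isGen_sub hf (Coh.isGen_zsmul hχ n)
  have hsm : (n • (χ : G → ℂ)) = ((n : ℂ) • (χ : G → ℂ)) := by
    funext x; simp
  have hgg : classInner (f - n • (χ : G → ℂ)) (f - n • (χ : G → ℂ)) = ((2 - n ^ 2 : ℤ) : ℂ) := by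
    rw [hsm, classInner_sub_left, classInner_sub_right, classInner_sub_right, classInner_smul_left, classInner_smul_right,
      classInner_smul_left, classInner_smul_right, classInner_irr_self, h2, hn, hn']
    rw [map_intCast (starRingEnd ℂ)]
    push_cast
    ring
  have hnn := Coh.classInner_self_re_nonneg (f - n • (χ : G → ℂ))
  rw [hgg, Complex.intCast_re] at hnn
  have hnn' : (0 : ℤ) ≤ 2 - n ^ 2 := by exact_mod_cast hnn
  have hn1 : n = 1 ∨ n = -1 := by
    have h3 : -1 ≤ n := by nlinarith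
    have h4 : n ≤ 1 := by nlinarith
    omega
  have hsq : n ^ 2 = 1 := by rcases hn1 with rfl | rfl <;> norm_num
  rw [hsq] at hgg
  rcases Coh.irr_or_neg_of_norm_one hg (by rw [hgg]; norm_num) with h5 | h5
  · refine ⟨n, ⟨_, h5⟩, 1, hn1, Or.inl rfl, hn, fun g => ?_⟩
    simp
  · refine ⟨n, ⟨_, h5⟩, -1, hn1, Or.inr rfl, hn, fun g => ?_⟩
    simp

/-- irreducible characters of a commutative group -/
theorem linear_of_comm {A : Type u} [Group A] [Finite A] (hA : ∀ a b : A, a * b = b * a) {χ : A → ℂ} (hχ : IsIrrCharacter A χ) :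
    χ 1 = 1 := by
  haveI := Fintype.ofFinite A
  refine Cfsg.Agent.Char.CC.degree_one_of_commutator hχ ?_
  intro x y
  rw [commutatorElement_def, hA x y, mul_inv_cancel_right, mul_inv_cancel]

variable {F : Type*} [Field F] [Fintype F] [DecidableEq F]

theorem exists_mulChar_neg_one (h2 : (2 : F) ≠ 0) {ε : ℂ} (hε : ε = 1 ∨ ε = -1) : ∃ α : MulChar F ℂ, α (-1) = ε := by
  rcases hε with rfl | rfl
  · exact ⟨1, MulChar.one_apply (IsUnit.neg isUnit_one)⟩
  · have h3 : (-1 : F) ≠ 1 := by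
      intro h; apply h2; linear_combination -h
    obtain ⟨α, hα⟩ := MulChar.exists_apply_ne_one_of_hasEnoughRootsOfUnity F ℂ h3
    exact ⟨α, (mulChar_neg_one_cases α).resolve_left hα⟩

variable {C : Subgroup (SpecialLinearGroup (Fin 2) F)}

theorem lam_one (hC : NST C) (l : IrrCharacter C) : (l : C → ℂ) 1 = 1 :=
  linear_of_comm (fun a b => Subtype.ext (hC.comm a.2 b.2)) l.2

/-- the homomorphism of an irreducible character of the torus -/
noncomputable def lamU (hC : NST C) (l : IrrCharacter C) : C →* ℂˣ :=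
  (linHom (isCharacter_of_isIrr l.2) (lam_one hC l)).toHomUnits

theorem lamU_val (hC : NST C) (l : IrrCharacter C) (c : C) : ((lamU hC l c : ℂˣ) : ℂ) = (l : C → ℂ) c := rfl

theorem th_lamU (hC : NST C) (l : IrrCharacter C) : th (lamU hC l) = (l : C → ℂ) := rfl

theorem lamU_neg_one (hC : NST C) (l : IrrCharacter C) : ((l : C → ℂ) ⟨-1, hC.neg⟩ = 1 ∨ (l : C → ℂ) ⟨-1, hC.neg⟩ = -1) := by
  have h1 : (l : C → ℂ) ⟨-1, hC.neg⟩ * (l : C → ℂ) ⟨-1, hC.neg⟩ = 1 := by
    rw [← lamU_val hC, ← Units.val_mul, ← map_mul]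
    have : (⟨-1, hC.neg⟩ : C) * ⟨-1, hC.neg⟩ = 1 := by
      apply Subtype.ext
      show (-1 : SpecialLinearGroup (Fin 2) F) * (-1) = 1
      rw [neg_one_mul, neg_neg]
    rw [this, map_one, Units.val_one]
  exact mul_self_eq_one_iff.1 h1

/-- the chosen `α` -/
noncomputable def alC (h2 : (2 : F) ≠ 0) (hC : NST C) (l : IrrCharacter C) : MulChar F ℂ :=
  (exists_mulChar_neg_one h2 (lamU_neg_one hC l)).choose

theorem alC_spec (h2 : (2 : F) ≠ 0) (hC : NST C) (l : IrrCharacter C) : alC h2 hC l (-1) = ((lamU hC l ⟨-1, hC.neg⟩ : ℂˣ) : ℂ) :=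
  (exists_mulChar_neg_one h2 (lamU_neg_one hC l)).choose_spec

theorem card_sub_one_ne : ((Fintype.card F : ℂ) - 1) ≠ 0 := by
  have hq : 1 < Fintype.card F := Fintype.one_lt_card
  rw [sub_ne_zero]; exact_mod_cast hq.ne'

/-- inner product of a cuspidal character with `K` -/
theorem cusp_inner_KK (h2 : (2 : F) ≠ 0) (α : MulChar F ℂ) (χ : IrrCharacter (SpecialLinearGroup (Fin 2) F))
    (h0 : ∑ x : F, (χ : SpecialLinearGroup (Fin 2) F → ℂ) (uSL x) = 0) :
    classInner (χ : SpecialLinearGroup (Fin 2) F → ℂ) (KK α) =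
      ((χ : SpecialLinearGroup (Fin 2) F → ℂ) 1 + α (-1) * (χ : SpecialLinearGroup (Fin 2) F → ℂ) (-1)) / ((Fintype.card F : ℂ) - 1) := by
  have h1 := inner_KK h2 α (irr_isClassFunction χ)
  have h3 : ∑ x : F, (χ : SpecialLinearGroup (Fin 2) F → ℂ) (-uSL x) = 0 := by
    have h4 : (χ : SpecialLinearGroup (Fin 2) F → ℂ) 1 ≠ 0 := irr_one_ne_zero χ.2
    apply mul_right_cancel₀ h4
    rw [Finset.sum_mul, Finset.sum_congr rfl fun x _ => neg_mul_irr χ.2 (uSL x), ← Finset.mul_sum, h0, mul_zero, zero_mul]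
  rw [h0, h3, sub_zero, sub_zero] at h1
  rw [eq_div_iff card_sub_one_ne]
  apply mul_left_cancel₀ (card_ne F)
  linear_combination h1

theorem cusp_inner_PiC (h2 : (2 : F) ≠ 0) (hC : NST C) [Fintype C] (θ : C →* ℂˣ) (α : MulChar F ℂ) (χ : IrrCharacter (SpecialLinearGroup (Fin 2) F))
    (h0 : ∑ x : F, (χ : SpecialLinearGroup (Fin 2) F → ℂ) (uSL x) = 0) :
    classInner (χ : SpecialLinearGroup (Fin 2) F → ℂ) (PiC θ α) =
      ((χ : SpecialLinearGroup (Fin 2) F → ℂ) 1 + α (-1) * (χ : SpecialLinearGroup (Fin 2) F → ℂ) (-1)) / ((Fintype.card F : ℂ) - 1) -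
        classInner (fun c : C => (χ : SpecialLinearGroup (Fin 2) F → ℂ) c) (th θ) := by
  rw [PiC, classInner_sub_right, cusp_inner_KK h2 α χ h0, frobenius_reciprocity' C (th θ) _ (irr_isClassFunction χ)]

theorem resC_class (χ : IrrCharacter (SpecialLinearGroup (Fin 2) F)) :
    IsClassFunction C (fun c : C => (χ : SpecialLinearGroup (Fin 2) F → ℂ) c) := fun g h => irr_isClassFunction χ g h

/-- the sum over the characters of the torus, weighted by values -/
theorem cusp_value (h2 : (2 : F) ≠ 0) (hC : NST C) [Fintype (IrrCharacter C)] (χ : IrrCharacter (SpecialLinearGroup (Fin 2) F))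
    (h0 : ∑ x : F, (χ : SpecialLinearGroup (Fin 2) F → ℂ) (uSL x) = 0) (c : C) :
    ∑ l : IrrCharacter C, classInner (χ : SpecialLinearGroup (Fin 2) F → ℂ) (PiC (lamU hC l) (alC h2 hC l)) * (l : C → ℂ) c =
      ((χ : SpecialLinearGroup (Fin 2) F → ℂ) 1 * (∑ l : IrrCharacter C, (l : C → ℂ) c) +
        (χ : SpecialLinearGroup (Fin 2) F → ℂ) (-1) * (∑ l : IrrCharacter C, (l : C → ℂ) (⟨-1, hC.neg⟩ * c))) / ((Fintype.card F : ℂ) - 1) -
        (χ : SpecialLinearGroup (Fin 2) F → ℂ) c := by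
  haveI : Fintype C := Fintype.ofFinite _
  have h1 : ∀ l : IrrCharacter C, classInner (χ : SpecialLinearGroup (Fin 2) F → ℂ) (PiC (lamU hC l) (alC h2 hC l)) * (l : C → ℂ) c =
      ((χ : SpecialLinearGroup (Fin 2) F → ℂ) 1 * (l : C → ℂ) c + (χ : SpecialLinearGroup (Fin 2) F → ℂ) (-1) * (l : C → ℂ) (⟨-1, hC.neg⟩ * c)) *
        (((Fintype.card F : ℂ) - 1))⁻¹ -
        classInner (fun c : C => (χ : SpecialLinearGroup (Fin 2) F → ℂ) c) (l : C → ℂ) * (l : C → ℂ) c := by
    intro l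
    rw [cusp_inner_PiC h2 hC _ _ χ h0, alC_spec, th_lamU]
    have h3 : (l : C → ℂ) (⟨-1, hC.neg⟩ * c) = (l : C → ℂ) ⟨-1, hC.neg⟩ * (l : C → ℂ) c := by
      rw [← lamU_val hC, map_mul, Units.val_mul]
      rfl
    rw [h3, lamU_val]
    ring
  rw [Finset.sum_congr rfl fun l _ => h1 l, Finset.sum_sub_distrib, ← classFun_apply_eq_sum (resC_class χ) c, ← Finset.sum_mul,
    Finset.sum_add_distrib, ← Finset.mul_sum, ← Finset.mul_sum]
  ring

theorem sum_lam (hC : NST C) [Fintype (IrrCharacter C)] [DecidableEq C] (c : C) : ∑ l : IrrCharacter C, (l : C → ℂ) c = if c = 1 then (Fintype.card F : ℂ) + 1 else 0 := by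
  have h1 := sum_degree_mul c
  rw [Finset.sum_congr rfl fun l _ => by rw [lam_one hC l, one_mul]] at h1
  rw [h1, hC.card, Nat.card_eq_fintype_card]
  push_cast
  rfl

theorem cusp_sum (h2 : (2 : F) ≠ 0) (hC : NST C) [Fintype (IrrCharacter C)] (χ : IrrCharacter (SpecialLinearGroup (Fin 2) F))
    (h0 : ∑ x : F, (χ : SpecialLinearGroup (Fin 2) F → ℂ) (uSL x) = 0) :
    ∑ l : IrrCharacter C, classInner (χ : SpecialLinearGroup (Fin 2) F → ℂ) (PiC (lamU hC l) (alC h2 hC l)) =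
      2 * (χ : SpecialLinearGroup (Fin 2) F → ℂ) 1 / ((Fintype.card F : ℂ) - 1) := by
  classical
  have h1 := cusp_value h2 hC χ h0 1
  rw [sum_lam hC, sum_lam hC, if_pos rfl, if_neg, mul_zero, add_zero, Finset.sum_congr rfl fun l _ => by rw [lam_one hC l, mul_one]] at h1
  · rw [h1]
    have := card_sub_one_ne (F := F)
    have e : ((1 : C) : SpecialLinearGroup (Fin 2) F) = 1 := rfl
    rw [e]
    field_simp
    ring
  · intro h
    rw [mul_one] at h
    exact neg_one_ne_one h2 (congrArg Subtype.val h)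

end Cfsg.Agent.H34.Deg
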