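import Cfsg.Agent.H34.Cusp4
import Cfsg.Agent.S2322

/-!
Cuspidal characters of `SL₂(q)`, `q` odd: the main theorems.
-/

set_option autoImplicit false
set_option linter.unusedSectionVars false

namespace Cfsg.Agent.H34.Deg

open Cfsg Cfsg.Agent.Char Cfsg.Agent.CharBase Cfsg.Agent.H39 Matrix
open Cfsg.Agent.H41 (tr NoEig tr_conj tr_inv tr_neg det_eq)
open scoped ComplexConjugate

variable {F : Type*} [Field F] [Fintype F] [DecidableEq F] {C : Subgroup (SpecialLinearGroup (Fin 2) F)}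

theorem theta_neg_cases (hC : NST C) (θ : C →* ℂˣ) : ((θ ⟨-1, hC.neg⟩ : ℂˣ) : ℂ) = 1 ∨ ((θ ⟨-1, hC.neg⟩ : ℂˣ) : ℂ) = -1 := by
  have h1 : ((θ ⟨-1, hC.neg⟩ : ℂˣ) : ℂ) * ((θ ⟨-1, hC.neg⟩ : ℂˣ) : ℂ) = 1 := by
    rw [← Units.val_mul, ← map_mul]
    have : (⟨-1, hC.neg⟩ : C) * ⟨-1, hC.neg⟩ = 1 := by
      apply Subtype.ext
      show (-1 : SpecialLinearGroup (Fin 2) F) * (-1) = 1
      rw [neg_one_mul, neg_neg]
    rw [this, map_one, Units.val_one]
  exact mul_self_eq_one_iff.1 h1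

theorem nst_noncentral (hC : NST C) {c : SpecialLinearGroup (Fin 2) F} (hc : c ∈ C)
    (hz : c ∉ Subgroup.center (SpecialLinearGroup (Fin 2) F)) : NoEig (tr c) := by
  rcases hC.reg c hc with h | h | h
  · exact absurd (h ▸ Subgroup.one_mem _) hz
  · exact absurd (h ▸ neg_one_mem_center) hz
  · exact h

theorem PiC_props (h2 : (2 : F) ≠ 0) (hC : NST C) (θ : C →* ℂˣ) (hθ : θ ^ 2 ≠ 1) (α : MulChar F ℂ)
    (hα : α (-1) = (θ ⟨-1, hC.neg⟩ : ℂ)) :
    IsIrrCharacter (SpecialLinearGroup (Fin 2) F) (PiC θ α) ∧ PiC θ α 1 = (Fintype.card F : ℂ) - 1 ∧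
        (∀ c : C, (c : SpecialLinearGroup (Fin 2) F) ∉ Subgroup.center (SpecialLinearGroup (Fin 2) F) → PiC θ α c = -((θ c).val + (θ c)⁻¹.val)) ∧
        (∀ c : C, (c : SpecialLinearGroup (Fin 2) F) ∈ Subgroup.center (SpecialLinearGroup (Fin 2) F) → ∀ g : SpecialLinearGroup (Fin 2) F, PiC θ α ((c : SpecialLinearGroup (Fin 2) F) * g) = (θ c).val * PiC θ α g) ∧
        (∀ g : SpecialLinearGroup (Fin 2) F, (g : Matrix (Fin 2) (Fin 2) F) 0 1 = 0 → (g : Matrix (Fin 2) (Fin 2) F) 1 0 = 0 → (g : Matrix (Fin 2) (Fin 2) F) 0 0 ^ 2 ≠ 1 → PiC θ α g = 0) ∧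
        (∀ g : SpecialLinearGroup (Fin 2) F, (g : Matrix (Fin 2) (Fin 2) F) 1 0 = 0 → (g : Matrix (Fin 2) (Fin 2) F) 0 0 = 1 → (g : Matrix (Fin 2) (Fin 2) F) 1 1 = 1 → (g : Matrix (Fin 2) (Fin 2) F) 0 1 ≠ 0 → PiC θ α g = -1) := by
  have hirr := PiC_irr hC h2 θ α hα hθ
  refine ⟨hirr, PiC_one hC θ α, ?_, ?_, ?_, ?_⟩
  · intro c hc
    exact PiC_reg hC h2 θ α c.2 (nst_noncentral hC c.2 hc)
  · intro c hc g
    rcases center_sl hc with h | h
    · have hc1 : c = 1 := Subtype.ext h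
      rw [h, one_mul, hc1, map_one, Units.val_one, one_mul]
    · have hc1 : c = ⟨-1, hC.neg⟩ := Subtype.ext h
      rw [h, hc1, neg_one_mul, ← hα]
      have h3 := neg_mul_irr hirr g
      rw [PiC_one hC, PiC_neg_one hC θ α hα] at h3
      apply mul_right_cancel₀ (card_sub_one_ne (F := F))
      linear_combination h3
  · intro g h01 h10 h00
    apply PiC_split θ α h2 hC h10
    intro h
    apply h00
    have hd := det_eq g
    have e1 : g 1 0 = 0 := h10
    rw [e1, mul_zero, sub_zero, ← h] at hd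
    rw [sq]; exact hd
  · intro g h10 h00 h11 h01
    have hg : g = uSL ((g : Matrix (Fin 2) (Fin 2) F) 0 1) := by
      apply H41.sl2_ext
      · exact h00
      · rfl
      · exact h10
      · exact h11
    rw [hg]
    exact PiC_u hC h2 θ α h01

variable {k : ℕ} (D : OddData F k)

include D in
theorem OddData.two_ne : (2 : F) ≠ 0 := two_ne_zero_of (ringChar_ne_two_of_odd ⟨k, D.hk⟩)

theorem OddData.sum_zero (χ : IrrCharacter (SpecialLinearGroup (Fin 2) F)) (ha : D.a χ = 0) :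
    ∑ x : F, (χ : SpecialLinearGroup (Fin 2) F → ℂ) (uSL x) = 0 := by
  rw [(D.hu χ).sum, ha]
  simp

include D in
theorem irr_eq_of_inner {χ : IrrCharacter (SpecialLinearGroup (Fin 2) F)} {f : SpecialLinearGroup (Fin 2) F → ℂ} (hf : IsIrrCharacter _ f)
    (h : classInner (χ : SpecialLinearGroup (Fin 2) F → ℂ) f ≠ 0) : (χ : SpecialLinearGroup (Fin 2) F → ℂ) = f := by
  by_contra hne
  apply h
  have h1 : χ ≠ ⟨f, hf⟩ := fun h => hne (congrArg Subtype.val h)
  exact classInner_irr_of_ne h1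

include D in
/-- every cuspidal character of degree `q - 1` arises -/
theorem OddData.exists_theta (hC : NST C) (χ : IrrCharacter (SpecialLinearGroup (Fin 2) F)) (ha : D.a χ = 0) (hbc : D.b χ + D.c χ = 2) :
    ∃ l : IrrCharacter C, (lamU hC l) ^ 2 ≠ 1 ∧ (χ : SpecialLinearGroup (Fin 2) F → ℂ) = PiC (lamU hC l) (alC D.two_ne hC l) := by
  classical
  haveI : Fintype (IrrCharacter C) := Fintype.ofFinite _
  have h0 := D.sum_zero χ ha
  have h2 := D.two_ne
  have hs := cusp_sum h2 hC χ h0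
  have hdeg : (χ : SpecialLinearGroup (Fin 2) F → ℂ) 1 = (Fintype.card F : ℂ) - 1 := by
    rw [D.deg, ha, hbc, D.hk]; push_cast; ring
  rw [hdeg, mul_div_assoc, div_self card_sub_one_ne, mul_one] at hs
  obtain ⟨l, hl⟩ : ∃ l : IrrCharacter C, classInner (χ : SpecialLinearGroup (Fin 2) F → ℂ) (PiC (lamU hC l) (alC h2 hC l)) ≠ 0 := by
    by_contra hcon
    push Not at hcon
    rw [Finset.sum_eq_zero fun l _ => hcon l] at hs
    norm_num at hs
  have hα := alC_spec h2 hC l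
  have hsq' : (lamU hC l) ^ 2 ≠ 1 := by
    intro hsq
    have hn := norm_PiC hC h2 (lamU hC l) (alC h2 hC l) hα
    rw [if_pos hsq] at hn
    have hl' : classInner (PiC (lamU hC l) (alC h2 hC l)) (χ : SpecialLinearGroup (Fin 2) F → ℂ) ≠ 0 := by
      rw [Coh.classInner_comm (PiC_gen _ _) (Coh.isGen_of_isIrr χ.2)]
      exact hl
    obtain ⟨n, χ', m, hn1, hm1, -, hval⟩ := norm_two_split (PiC_gen _ _) hn χ hl'
    have h4 := hval 1
    rw [PiC_one hC, hdeg] at h4
    have hk0 := D.k_pos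
    have hd' := D.deg χ'
    have h5 : χ'.1 1 ≠ 0 := irr_one_ne_zero χ'.2
    rcases hn1 with rfl | rfl
    · apply h5
      have h6 : (m : ℂ) * χ'.1 1 = 0 := by
        push_cast at h4
        linear_combination -h4
      rcases hm1 with rfl | rfl
      · simpa using h6
      · simpa using h6
    · have h6 : (m : ℂ) * χ'.1 1 = ((4 * k : ℕ) : ℂ) := by
        rw [D.hk] at h4
        push_cast at h4 ⊢
        linear_combination -h4
      rw [hd'] at h6
      rcases hm1 with rfl | rfl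
      · have h7 : D.a χ' + (D.b χ' + D.c χ') * k = 4 * k := by
          rw [Int.cast_one, one_mul] at h6
          exact_mod_cast h6
        have h8 := D.n3
        rcases D.six χ' with ⟨e1, e2⟩ | ⟨e1, e2⟩ | ⟨e1, e2⟩ | ⟨e1, e2⟩ | ⟨e1, e2⟩ | ⟨e1, e2⟩
        · rw [e1, e2] at h7; omega
        · rw [e1, e2] at h7; omega
        · have hk1 : k = 1 := by rw [e1, e2] at h7; omega
          haveI : Nonempty {χ : IrrCharacter (SpecialLinearGroup (Fin 2) F) // D.a χ = 2} := ⟨⟨χ', e1⟩⟩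
          have h9 : 0 < Nat.card {χ : IrrCharacter (SpecialLinearGroup (Fin 2) F) // D.a χ = 2} := Nat.card_pos
          omega
        · rw [e1, e2] at h7; omega
        · rw [e1, e2] at h7; omega
        · rw [e1, e2] at h7; omega
      · have h7 : ((D.a χ' + (D.b χ' + D.c χ') * k + 4 * k : ℕ) : ℂ) = 0 := by
          push_cast at h6 ⊢
          linear_combination -h6
        have h8 : D.a χ' + (D.b χ' + D.c χ') * k + 4 * k = 0 := by exact_mod_cast h7
        omega
  exact ⟨l, hsq', irr_eq_of_inner D (PiC_irr hC h2 _ _ hα hsq') hl⟩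

include D in
/-- the trivial character of the torus gives `St - 1` -/
theorem PiC_trivial (hC : NST C) (θ : C →* ℂˣ) (hθ : θ = 1) (α : MulChar F ℂ)
    (hα : α (-1) = (θ ⟨-1, hC.neg⟩ : ℂ)) (g : SpecialLinearGroup (Fin 2) F) : PiC θ α g = (pSL 1 g - 1) - 1 := by
  classical
  haveI : Fintype C := Fintype.ofFinite _
  have h2 := D.two_ne
  have hn := norm_PiC hC h2 θ α hα
  have hsq : θ ^ 2 = 1 := by
    ext x
    rw [MonoidHom.pow_apply, hθ, MonoidHom.one_apply, _root_.one_pow]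
  rw [if_pos hsq] at hn
  have hone : IsIrrCharacter (SpecialLinearGroup (Fin 2) F) (fun _ => (1 : ℂ)) := Char.isIrrCharacter_one
  have hin : classInner (PiC θ α) (fun _ => (1 : ℂ)) = -1 := by
    rw [Coh.classInner_comm (PiC_gen _ _) (Coh.isGen_of_isIrr hone), PiC, classInner_sub_right]
    have e1 : classInner (fun _ => (1 : ℂ)) (KK α) = 0 := by
      have h3 := inner_KK h2 α (χ := fun _ => (1 : ℂ)) (fun _ _ => rfl)
      simp only [mul_one, Finset.sum_const, Finset.card_univ, nsmul_eq_mul, sub_self, mul_zero, add_zero] at h3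
      exact (mul_eq_zero.1 h3).resolve_right (mul_ne_zero (card_ne F) card_sub_one_ne)
    have e2 : classInner (fun _ => (1 : ℂ)) (indFun C (th θ)) = 1 := by
      rw [frobenius_reciprocity' C (th θ) _ (fun _ _ => rfl)]
      have e3 : th θ = fun _ => (1 : ℂ) := by
        funext c
        show ((θ c : ℂˣ) : ℂ) = 1
        rw [hθ]; rfl
      rw [e3]
      exact classInner_irr_self (⟨_, Char.isIrrCharacter_one⟩ : IrrCharacter C)
    rw [e1, e2, zero_sub]
  obtain ⟨n, χ', m, hn1, hm1, hnn, hval⟩ := norm_two_split (PiC_gen _ _) hn ⟨_, hone⟩ (by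
    show classInner (PiC θ α) (fun _ => (1 : ℂ)) ≠ 0
    rw [hin]; norm_num)
  have hn2 : (n : ℂ) = -1 := by rw [← hnn]; exact hin
  have h4 := hval 1
  rw [PiC_one hC, hn2] at h4
  have h6 : (m : ℂ) * χ'.1 1 = (Fintype.card F : ℂ) := by
    linear_combination -h4
  have hm : m = 1 := by
    rcases hm1 with rfl | rfl
    · rfl
    · exfalso
      rw [D.deg, D.hk] at h6
      have h7 : ((D.a χ' + (D.b χ' + D.c χ') * k + (2 * k + 1) : ℕ) : ℂ) = 0 := by
        push_cast at h6 ⊢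
        linear_combination -h6
      have h8 : D.a χ' + (D.b χ' + D.c χ') * k + (2 * k + 1) = 0 := by exact_mod_cast h7
      omega
  rw [hm, Int.cast_one, one_mul] at h6
  have h7 := (D.deg_eq_card_iff χ').1 h6
  rw [hval g, hn2, hm, Int.cast_one, one_mul]
  have h8 : χ'.1 g = pSL 1 g - 1 := congrFun h7 g
  rw [h8]
  ring

/-- orthogonality of a half cuspidal character to the other virtual characters -/
theorem OddData.half_orth (h3 : 2 ≤ k) (hC : NST C) (χ : IrrCharacter (SpecialLinearGroup (Fin 2) F)) (ha : D.a χ = 0) (hbc : D.b χ + D.c χ = 1)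
    (l : IrrCharacter C) (hl : classInner (χ : SpecialLinearGroup (Fin 2) F → ℂ) (PiC (lamU hC l) (alC D.two_ne hC l)) ≠ 0) :
    (lamU hC l) ^ 2 = 1 ∧ lamU hC l ≠ 1 := by
  classical
  have h2 := D.two_ne
  have hα := alC_spec h2 hC l
  have hk0 := D.k_pos
  constructor
  · by_contra hsq
    have h4 := irr_eq_of_inner D (PiC_irr hC h2 _ _ hα hsq) hl
    have h5 : (χ : SpecialLinearGroup (Fin 2) F → ℂ) 1 = ((2 * k : ℕ) : ℂ) := by
      rw [h4, PiC_one hC, D.hk]; push_cast; ring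
    rw [D.deg_eq_iff, ha, hbc] at h5
    omega
  · intro hone
    apply hl
    have h4 : PiC (lamU hC l) (alC h2 hC l) = (pSL 1 - (fun _ => (1 : ℂ)) : SpecialLinearGroup (Fin 2) F → ℂ) - (fun _ => (1 : ℂ)) := by
      funext g
      exact PiC_trivial D hC _ hone _ hα g
    have hst : χ ≠ ⟨_, isIrr_stSL⟩ := by
      intro h
      have h5 := (D.deg_eq_card_iff χ).2 (congrArg Subtype.val h)
      rw [D.hk, D.deg_eq_iff, ha, hbc] at h5
      omega
    have h1 : χ ≠ ⟨_, Char.isIrrCharacter_one⟩ := by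
      intro h
      have h5 : (χ : SpecialLinearGroup (Fin 2) F → ℂ) 1 = ((1 : ℕ) : ℂ) := by
        rw [h]; norm_num
      rw [D.deg_eq_iff, ha, hbc] at h5
      omega
    have e1 := classInner_irr_of_ne hst
    have e2 := classInner_irr_of_ne h1
    rw [h4, classInner_sub_right]
    have e1' : classInner (χ : SpecialLinearGroup (Fin 2) F → ℂ) (pSL 1 - (fun _ => (1 : ℂ))) = 0 := e1
    have e2' : classInner (χ : SpecialLinearGroup (Fin 2) F → ℂ) (fun _ => (1 : ℂ)) = 0 := e2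
    rw [e1', e2', sub_zero]

/-- quadratic characters of a cyclic group -/
theorem quad_value {A : Type*} [Group A] {γ : A} (hγ : ∀ x : A, x ∈ Subgroup.zpowers γ) {m : ℕ} (hm : orderOf γ = 2 * m) (hm0 : 0 < m)
    (l : A →* ℂˣ) (hl : l ^ 2 = 1) (hl1 : l ≠ 1) (c : A) : (c ^ m = 1 → l c = 1) ∧ (c ^ m ≠ 1 → l c = -1) := by
  have hg2 : l γ * l γ = 1 := by
    have := DFunLike.congr_fun hl γ
    rw [MonoidHom.pow_apply, sq] at this
    exact this
  have hg : l γ = -1 := by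
    rcases mul_self_eq_one_iff.1 (show ((l γ : ℂˣ) : ℂ) * (l γ : ℂˣ) = 1 by rw [← Units.val_mul, hg2, Units.val_one]) with h | h
    · exfalso
      apply hl1
      ext x
      obtain ⟨j, rfl⟩ := hγ x
      have h3 : l γ = 1 := Units.ext h
      show ((l (γ ^ j) : ℂˣ) : ℂ) = 1
      rw [map_zpow, h3, _root_.one_zpow, Units.val_one]
    · exact Units.ext h
  obtain ⟨j, rfl⟩ := hγ c
  show ((γ ^ j) ^ m = 1 → l (γ ^ j) = 1) ∧ ((γ ^ j) ^ m ≠ 1 → l (γ ^ j) = -1)
  rw [map_zpow, hg]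
  rcases Int.even_or_odd j with h | h
  · obtain ⟨i, rfl⟩ := h
    have h5 : (γ ^ (i + i)) ^ m = 1 := by
      rw [← _root_.zpow_natCast, ← _root_.zpow_mul]
      have h6 : (i + i) * (m : ℤ) = ((2 * m : ℕ) : ℤ) * i := by push_cast; ring
      rw [h6, _root_.zpow_mul, _root_.zpow_natCast, ← hm, pow_orderOf_eq_one, _root_.one_zpow]
    refine ⟨fun _ => ?_, fun h => absurd h5 h⟩
    rw [Even.neg_one_zpow ⟨i, rfl⟩]
  · obtain ⟨i, rfl⟩ := h
    have h5 : (γ ^ (2 * i + 1)) ^ m ≠ 1 := by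
      rw [← _root_.zpow_natCast, ← _root_.zpow_mul]
      have h6 : (2 * i + 1) * (m : ℤ) = ((2 * m : ℕ) : ℤ) * i + m := by push_cast; ring
      rw [h6, _root_.zpow_add, _root_.zpow_mul, _root_.zpow_natCast, ← hm, pow_orderOf_eq_one, _root_.one_zpow, one_mul, _root_.zpow_natCast]
      intro h7
      have h8 := orderOf_dvd_of_pow_eq_one h7
      rw [hm] at h8
      have := Nat.le_of_dvd hm0 h8
      omega
    refine ⟨fun h => absurd h h5, fun _ => ?_⟩
    rw [Odd.neg_one_zpow ⟨i, rfl⟩]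

/-- values of the half cuspidal characters -/
theorem OddData.half_value (h3 : 2 ≤ k) (χ : IrrCharacter (SpecialLinearGroup (Fin 2) F)) (ha : D.a χ = 0) (hbc : D.b χ + D.c χ = 1)
    {g : SpecialLinearGroup (Fin 2) F} (hg : NoEig (tr g)) :
    (g ^ (k + 1) = 1 → (χ : SpecialLinearGroup (Fin 2) F → ℂ) g = -1) ∧ (g ^ (k + 1) ≠ 1 → (χ : SpecialLinearGroup (Fin 2) F → ℂ) g = 1) := by
  classical
  have h2 := D.two_ne
  set C := Subgroup.centralizer ({g} : Set (SpecialLinearGroup (Fin 2) F)) with hCdef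
  have hC : NST C := nst_of_noEig h2 hg
  haveI : Fintype (IrrCharacter C) := Fintype.ofFinite _
  obtain ⟨hcyc, hcard⟩ := H41.centralizer_of_noEig g hg
  obtain ⟨γ, hγ⟩ := hcyc.exists_generator
  have hord : orderOf γ = 2 * (k + 1) := by
    rw [orderOf_eq_card_of_forall_mem_zpowers hγ, hC.card, Nat.card_eq_fintype_card, D.hk]
    ring
  have hgC : g ∈ C := by rw [hCdef, Subgroup.mem_centralizer_singleton_iff]
  have h0 := D.sum_zero χ ha
  have hv := cusp_value h2 hC χ h0 ⟨g, hgC⟩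
  have hs := cusp_sum h2 hC χ h0
  have hdeg : 2 * (χ : SpecialLinearGroup (Fin 2) F → ℂ) 1 = (Fintype.card F : ℂ) - 1 := by
    rw [D.deg, ha, hbc, D.hk]; push_cast; ring
  rw [hdeg, div_self card_sub_one_ne] at hs
  have hg1 : (⟨g, hgC⟩ : C) ≠ 1 := by
    intro h
    have h4 : g = 1 := congrArg Subtype.val h
    exact not_noEig_u (0 : F) (by rw [(frameSL F).u_zero, ← h4]; exact hg)
  have hg2 : (⟨-1, hC.neg⟩ : C) * ⟨g, hgC⟩ ≠ 1 := by
    intro h
    have h4 : -1 * g = 1 := congrArg Subtype.val h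
    rw [neg_one_mul] at h4
    have h5 : g = -1 := by rw [← h4, neg_neg]
    exact not_noEig_neg_u (0 : F) (by rw [(frameSL F).u_zero, ← h5]; exact hg)
  rw [sum_lam hC, sum_lam hC, if_neg hg1, if_neg hg2, mul_zero, mul_zero, add_zero, zero_div, zero_sub] at hv
  have hpow : ((⟨g, hgC⟩ : C) ^ (k + 1) = 1) ↔ g ^ (k + 1) = 1 := by
    constructor
    · intro h; exact congrArg Subtype.val h
    · intro h; exact Subtype.ext h
  have hkey : ∀ s : ℂ, (∀ l : C →* ℂˣ, l ^ 2 = 1 → l ≠ 1 → ((l ⟨g, hgC⟩ : ℂˣ) : ℂ) = s) →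
      (χ : SpecialLinearGroup (Fin 2) F → ℂ) g = -s := by
    intro s hs'
    have h4 : ∀ l : IrrCharacter C, classInner (χ : SpecialLinearGroup (Fin 2) F → ℂ) (PiC (lamU hC l) (alC h2 hC l)) * (l : C → ℂ) ⟨g, hgC⟩ =
        classInner (χ : SpecialLinearGroup (Fin 2) F → ℂ) (PiC (lamU hC l) (alC h2 hC l)) * s := by
      intro l
      by_cases h5 : classInner (χ : SpecialLinearGroup (Fin 2) F → ℂ) (PiC (lamU hC l) (alC h2 hC l)) = 0
      · rw [h5, zero_mul, zero_mul]
      · obtain ⟨h6, h7⟩ := D.half_orth h3 hC χ ha hbc l h5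
        rw [← lamU_val hC, hs' _ h6 h7]
    rw [Finset.sum_congr rfl fun l _ => h4 l, ← Finset.sum_mul, hs, one_mul] at hv
    rw [hv, neg_neg]
  constructor
  · intro h
    apply hkey 1
    intro l hl hl1
    rw [(quad_value hγ hord (by omega) l hl hl1 ⟨g, hgC⟩).1 (hpow.2 h), Units.val_one]
  · intro h
    have h5 := hkey (-1) (by
      intro l hl hl1
      rw [(quad_value hγ hord (by omega) l hl hl1 ⟨g, hgC⟩).2 (fun h' => h (hpow.1 h'))]
      rfl)
    rw [h5, neg_neg]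

/-- values of the half principal series characters on the split torus -/
theorem OddData.half_split (χ : IrrCharacter (SpecialLinearGroup (Fin 2) F)) (ha : D.a χ = 1) (hbc : D.b χ + D.c χ = 1)
    {g : SpecialLinearGroup (Fin 2) F} (h01 : g 0 1 = 0) (h10 : g 1 0 = 0) (h00 : g 0 0 ^ 2 ≠ 1) :
    (χ : SpecialLinearGroup (Fin 2) F → ℂ) g = eta F (g 0 0) := by
  classical
  have h0 : ∑ x : F, (χ : SpecialLinearGroup (Fin 2) F → ℂ) (uSL x) ≠ 0 := by
    rw [(D.hu χ).sum, ha, Nat.cast_one, mul_one]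
    exact card_ne F
  have hk0 := D.k_pos
  have hd := det_eq g
  rw [h01, zero_mul, sub_zero] at hd
  have hne : g 0 0 ≠ g 1 1 := by
    intro h
    apply h00
    rw [← h] at hd
    rw [sq]; exact hd
  have hg00 : g 0 0 ≠ 0 := fun h => by rw [h, zero_mul] at hd; exact zero_ne_one hd
  rcases prinSL_cases χ.2 h0 with ⟨α, h⟩ | h | h | ⟨α, χ₁, χ₂, hα, hα1, hne', hadd, hχ⟩
  · exfalso
    have h4 : (χ : SpecialLinearGroup (Fin 2) F → ℂ) 1 = ((2 * k + 2 : ℕ) : ℂ) := by
      rw [h, pSL_one, D.hk]; push_cast; ring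
    rw [D.deg_eq_iff, ha, hbc] at h4
    omega
  · exfalso
    have h4 : (χ : SpecialLinearGroup (Fin 2) F → ℂ) 1 = ((1 : ℕ) : ℂ) := by
      rw [h]; norm_num
    rw [D.deg_eq_iff, ha, hbc] at h4
    omega
  · exfalso
    have h4 : (χ : SpecialLinearGroup (Fin 2) F → ℂ) 1 = ((2 * k + 1 : ℕ) : ℂ) := by
      rw [h, Pi.sub_apply, pSL_one, D.hk]; push_cast; ring
    rw [D.deg_eq_iff, ha, hbc] at h4
    omega
  · have hF := ringChar_ne_two_of_odd ⟨k, D.hk⟩
    have hαe := eta_unique hF hα hα1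
    subst hαe
    obtain ⟨c, hc⟩ := halves hα1 hne' hadd
    have h4 : sgm c g = g := by
      apply H41.sl2_ext
      · rfl
      · show (c : F) * g 0 1 = g 0 1
        rw [h01, mul_zero]
      · show ((c⁻¹ : Fˣ) : F) * g 1 0 = g 1 0
        rw [h10, mul_zero]
      · rfl
    have h5 := hc g
    rw [h4] at h5
    have h6 : pSL (eta F) g = eta F (g 0 0) + eta F (g 1 1) := by
      rw [pSL, (frameSL F).prin_split (eta F) 1 g h01 h10 hne]
      have hg11 : g 1 1 ≠ 0 := fun h => by rw [h, mul_zero] at hd; exact zero_ne_one hd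
      have f00 : mt (inSL F) g 0 0 = g 0 0 := rfl
      have f11 : mt (inSL F) g 1 1 = g 1 1 := rfl
      rw [f00, f11, MulChar.one_apply (IsUnit.mk0 _ hg00), MulChar.one_apply (IsUnit.mk0 _ hg11), mul_one, mul_one]
    have h7 : eta F (g 1 1) = eta F (g 0 0) := by
      have h8 : eta F (g 0 0) * eta F (g 1 1) = 1 := by rw [← map_mul, hd, map_one]
      have h9 := eta_sq_one hg00
      have h10 : eta F (g 0 0) ≠ 0 := fun h => by rw [h, zero_mul] at h9; exact zero_ne_one h9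
      exact mul_left_cancel₀ h10 (h8.trans h9.symm)
    rw [hadd, Pi.add_apply, h5, h7] at h6
    rw [hχ]
    linear_combination h6 / 2

end Cfsg.Agent.H34.Deg
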