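import Cfsg.Agent.H34.WordGroup

/-!
Orders and regularity of explicit subgroups of `GL(2,p)`.
-/

set_option autoImplicit false

namespace Cfsg.Agent.H34

/-- membership test -/
def memB (x : ℕ) : List ℕ → Bool
  | [] => false
  | y :: l => Nat.beq x y || memB x l

theorem memB_iff (x : ℕ) (l : List ℕ) : memB x l = true ↔ x ∈ l := by
  induction l with
  | nil => simp [memB]
  | cons y l ih => rw [memB, Bool.or_eq_true, ih, List.mem_cons, Nat.beq_eq]

/-- no duplicates -/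
def nodupB : List ℕ → Bool
  | [] => true
  | y :: l => !memB y l && nodupB l

theorem nodupB_iff (l : List ℕ) : nodupB l = true → l.Nodup := by
  induction l with
  | nil => simp
  | cons y l ih =>
    intro h
    rw [nodupB, Bool.and_eq_true] at h
    rw [List.nodup_cons]
    refine ⟨?_, ih h.2⟩
    intro hy
    rw [← memB_iff] at hy
    rw [hy] at h
    simp at h

/-- multiplication of codes of 2 × 2 matrices mod `p` -/
def mul2 (p x y : ℕ) : ℕ :=
  ((x % p) * (y % p) + (x / p % p) * (y / p ^ 2 % p)) % p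
    + p * (((x % p) * (y / p % p) + (x / p % p) * (y / p ^ 3 % p)) % p)
    + p ^ 2 * (((x / p ^ 2 % p) * (y % p) + (x / p ^ 3 % p) * (y / p ^ 2 % p)) % p)
    + p ^ 3 * (((x / p ^ 2 % p) * (y / p % p) + (x / p ^ 3 % p) * (y / p ^ 3 % p)) % p)

/-- decoding -/
def dec2 (p x : ℕ) : Matrix (Fin 2) (Fin 2) (ZMod p) :=
  !![((x % p : ℕ) : ZMod p), ((x / p % p : ℕ) : ZMod p); ((x / p ^ 2 % p : ℕ) : ZMod p), ((x / p ^ 3 % p : ℕ) : ZMod p)]

theorem digits_aux (p a b c d : ℕ) (hp : 0 < p) (ha : a < p) (hb : b < p) (hc : c < p) (hd : d < p) :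
    (a + p * b + p ^ 2 * c + p ^ 3 * d) % p = a ∧ (a + p * b + p ^ 2 * c + p ^ 3 * d) / p % p = b ∧
    (a + p * b + p ^ 2 * c + p ^ 3 * d) / p ^ 2 % p = c ∧ (a + p * b + p ^ 2 * c + p ^ 3 * d) / p ^ 3 % p = d := by
  have h1 : a + p * b + p ^ 2 * c + p ^ 3 * d = a + p * (b + p * (c + p * d)) := by ring
  rw [h1]
  have e1 : (a + p * (b + p * (c + p * d))) % p = a := by
    rw [Nat.add_mul_mod_self_left, Nat.mod_eq_of_lt ha]
  have e2 : (a + p * (b + p * (c + p * d))) / p = b + p * (c + p * d) := by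
    rw [Nat.add_mul_div_left _ _ hp, Nat.div_eq_of_lt ha, zero_add]
  have e3 : (b + p * (c + p * d)) / p = c + p * d := by
    rw [Nat.add_mul_div_left _ _ hp, Nat.div_eq_of_lt hb, zero_add]
  have e4 : (c + p * d) / p = d := by
    rw [Nat.add_mul_div_left _ _ hp, Nat.div_eq_of_lt hc, zero_add]
  refine ⟨e1, ?_, ?_, ?_⟩
  · rw [e2, Nat.add_mul_mod_self_left, Nat.mod_eq_of_lt hb]
  · rw [pow_two, ← Nat.div_div_eq_div_mul, e2, e3, Nat.add_mul_mod_self_left, Nat.mod_eq_of_lt hc]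
  · rw [pow_succ, pow_two, ← Nat.div_div_eq_div_mul, ← Nat.div_div_eq_div_mul, e2, e3, e4, Nat.mod_eq_of_lt hd]

theorem dec2_mul (p : ℕ) (hp : 0 < p) (x y : ℕ) : dec2 p (mul2 p x y) = dec2 p x * dec2 p y := by
  unfold mul2
  obtain ⟨h1, h2, h3, h4⟩ := digits_aux p
    (((x % p) * (y % p) + (x / p % p) * (y / p ^ 2 % p)) % p)
    (((x % p) * (y / p % p) + (x / p % p) * (y / p ^ 3 % p)) % p)
    (((x / p ^ 2 % p) * (y % p) + (x / p ^ 3 % p) * (y / p ^ 2 % p)) % p)
    (((x / p ^ 2 % p) * (y / p % p) + (x / p ^ 3 % p) * (y / p ^ 3 % p)) % p)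
    hp (Nat.mod_lt _ hp) (Nat.mod_lt _ hp) (Nat.mod_lt _ hp) (Nat.mod_lt _ hp)
  unfold dec2
  rw [h1, h2, h3, h4, Matrix.mul_fin_two]
  simp only [ZMod.natCast_mod, Nat.cast_add, Nat.cast_mul]

theorem dec2_inj (p : ℕ) (hp : 0 < p) (x y : ℕ) (hx : x < p ^ 4) (hy : y < p ^ 4) (h : dec2 p x = dec2 p y) :
    x = y := by
  have : NeZero p := ⟨hp.ne'⟩
  have key : ∀ a b : ℕ, a < p → b < p → ((a : ℕ) : ZMod p) = b → a = b := by
    intro a b ha hb hab
    rw [ZMod.natCast_eq_natCast_iff'] at hab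
    rwa [Nat.mod_eq_of_lt ha, Nat.mod_eq_of_lt hb] at hab
  have h00 := congrFun (congrFun h 0) 0
  have h01 := congrFun (congrFun h 0) 1
  have h10 := congrFun (congrFun h 1) 0
  have h11 := congrFun (congrFun h 1) 1
  have e00 := key _ _ (Nat.mod_lt x hp) (Nat.mod_lt y hp) h00
  have e01 := key _ _ (Nat.mod_lt (x / p) hp) (Nat.mod_lt (y / p) hp) h01
  have e10 := key _ _ (Nat.mod_lt (x / p ^ 2) hp) (Nat.mod_lt (y / p ^ 2) hp) h10
  have e11 := key _ _ (Nat.mod_lt (x / p ^ 3) hp) (Nat.mod_lt (y / p ^ 3) hp) h11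
  have hexp : ∀ z : ℕ, z < p ^ 4 → z = z % p + p * (z / p % p) + p ^ 2 * (z / p ^ 2 % p) + p ^ 3 * (z / p ^ 3 % p) := by
    intro z hz
    have h3 : z / p ^ 3 < p := by
      rw [Nat.div_lt_iff_lt_mul (by positivity)]
      calc z < p ^ 4 := hz
        _ = p * p ^ 3 := by ring
    rw [Nat.mod_eq_of_lt h3]
    have a1 := Nat.mod_add_div z p
    have a2 := Nat.mod_add_div (z / p) p
    have a3 := Nat.mod_add_div (z / p ^ 2) p
    have b1 : z / p / p = z / p ^ 2 := by rw [Nat.div_div_eq_div_mul, pow_two]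
    have b2 : z / p ^ 2 / p = z / p ^ 3 := by rw [Nat.div_div_eq_div_mul, ← pow_succ]
    rw [b1] at a2
    rw [b2] at a3
    calc z = z % p + p * (z / p % p + p * (z / p ^ 2 % p + p * (z / p ^ 3))) := by rw [a3, a2, a1]
      _ = _ := by ring
  rw [hexp x hx, hexp y hy, e00, e01, e10, e11]

/-- the check -/
def check2 (p : ℕ) {k : ℕ} (gc : Fin k → ℕ) (W : List (List (Fin k))) : Bool :=
  let L := W.map (wcode (mul2 p) gc (1 + p ^ 3))
  L.all (fun x => decide (x < p ^ 4)) && nodupB L && memB (1 + p ^ 3) L &&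
    L.all (fun x => (List.finRange k).all (fun i => memB (mul2 p x (gc i)) L))

theorem card_closure_gl2 (p : ℕ) [Fact p.Prime] {k : ℕ} (g : Fin k → Matrix.GeneralLinearGroup (Fin 2) (ZMod p))
    (gc : Fin k → ℕ) (hg : ∀ i, (g i : Matrix (Fin 2) (Fin 2) (ZMod p)) = dec2 p (gc i)) (W : List (List (Fin k)))
    (h : check2 p gc W = true) : Nat.card (Subgroup.closure (Set.range g)) = W.length := by
  have hp : 1 < p := (Fact.out : p.Prime).one_lt
  have hp0 : 0 < p := by omega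
  unfold check2 at h
  simp only [Bool.and_eq_true, List.all_eq_true, decide_eq_true_eq] at h
  obtain ⟨⟨⟨h1, h2⟩, h3⟩, h4⟩ := h
  have h5 : 1 % p = 1 := Nat.mod_eq_of_lt hp
  have hone : dec2 p (1 + p ^ 3) = 1 := by
    have := digits_aux p 1 0 0 1 hp0 hp hp0 hp0 hp
    simp only [mul_zero, add_zero, mul_one] at this
    obtain ⟨e1, e2, e3, e4⟩ := this
    unfold dec2
    rw [e1, e2, e3, e4]
    ext i j
    fin_cases i <;> fin_cases j <;> simp
  apply card_closure_of_words (Units.coeHom (Matrix (Fin 2) (Fin 2) (ZMod p))) g (dec2 p) (mul2 p) gc (1 + p ^ 3)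
    Units.val_injective (dec2_mul p hp0) hg hone (p ^ 4) (dec2_inj p hp0) W h1 (nodupB_iff _ h2)
    ((memB_iff _ _).mp h3)
  intro x hx i
  exact (memB_iff _ _).mp (h4 x hx i (List.mem_finRange i))

/-- An element of `SL₂(p)` of order prime to `p` fixing a nonzero vector is trivial. -/
theorem sl2_fix_eq_one (p : ℕ) [Fact p.Prime] (s : Matrix (Fin 2) (Fin 2) (ZMod p)) (hdet : s.det = 1)
    (n : ℕ) (hn : Nat.Coprime n p) (hs : s ^ n = 1) (v : Fin 2 → ZMod p) (hv : v ≠ 0) (h : s.mulVec v = v) :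
    s = 1 := by
  have hp : p.Prime := Fact.out
  have h1 : (s - 1).det = 0 := by
    rw [← Matrix.exists_mulVec_eq_zero_iff]
    exact ⟨v, hv, by rw [Matrix.sub_mulVec, h, Matrix.one_mulVec, sub_self]⟩
  have h2 : (s - 1) * (s - 1) = 0 := by
    rw [Matrix.det_fin_two] at h1 hdet
    simp only [Matrix.sub_apply, Matrix.one_apply_eq, ne_eq, zero_ne_one, not_false_eq_true, Matrix.one_apply_ne,
      one_ne_zero] at h1
    ext i j
    rw [Matrix.mul_apply, Fin.sum_univ_two]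
    fin_cases i <;> fin_cases j <;>
      simp only [Fin.zero_eta, Fin.mk_one, Fin.isValue, Matrix.sub_apply, Matrix.one_apply_eq, ne_eq,
        zero_ne_one, not_false_eq_true, Matrix.one_apply_ne, one_ne_zero, Matrix.zero_apply]
    · linear_combination (-s 0 0) * h1 + (s 0 0 - 1) * hdet
    · linear_combination (-s 0 1) * h1 + (s 0 1) * hdet
    · linear_combination (-s 1 0) * h1 + (s 1 0) * hdet
    · linear_combination (-s 1 1) * h1 + (s 1 1 - 1) * hdet
  have h3 : s ^ p = 1 := by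
    have h4 : (s - 1) ^ p = 0 := by
      have h7 : (s - 1) ^ p = (s - 1) ^ 2 * (s - 1) ^ (p - 2) := by
        rw [← pow_add]
        congr 1
        have := hp.two_le
        omega
      rw [h7, pow_two, h2, zero_mul]
    have h5 := sub_pow_char_of_commute (p := p) (Commute.one_right s)
    rw [h4, one_pow] at h5
    exact (sub_eq_zero.mp h5.symm)
  have h6 : orderOf s ∣ 1 := by
    rw [← hn]
    exact Nat.dvd_gcd (orderOf_dvd_of_pow_eq_one hs) (orderOf_dvd_of_pow_eq_one h3)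
  rwa [Nat.dvd_one, orderOf_eq_one_iff] at h6

/-- From semiregularity and the order to regularity on nonzero vectors. -/
theorem regular_of_semiregular (p : ℕ) [Fact p.Prime] (H : Subgroup (Matrix.GeneralLinearGroup (Fin 2) (ZMod p)))
    (hcard : p ^ 2 - 1 ≤ Nat.card H)
    (hsr : ∀ h ∈ H, ∀ v : Fin 2 → ZMod p, v ≠ 0 →
      Matrix.mulVec (h : Matrix (Fin 2) (Fin 2) (ZMod p)) v = v → h = 1) :
    Nat.card H = p ^ 2 - 1 ∧ ∀ v w : Fin 2 → ZMod p, v ≠ 0 → w ≠ 0 →
      ∃! h : H, Matrix.mulVec ((h : Matrix.GeneralLinearGroup (Fin 2) (ZMod p)) : Matrix (Fin 2) (Fin 2) (ZMod p)) v = w := by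
  classical
  have hne : ∀ (h : Matrix.GeneralLinearGroup (Fin 2) (ZMod p)) (v : Fin 2 → ZMod p), v ≠ 0 →
      Matrix.mulVec (h : Matrix (Fin 2) (Fin 2) (ZMod p)) v ≠ 0 := by
    intro h v hv h0
    apply hv
    have h1 : Matrix.mulVec ((h⁻¹ : Matrix.GeneralLinearGroup (Fin 2) (ZMod p)) : Matrix (Fin 2) (Fin 2) (ZMod p))
      (Matrix.mulVec (h : Matrix (Fin 2) (Fin 2) (ZMod p)) v) = v := by
      rw [Matrix.mulVec_mulVec, ← Units.val_mul, inv_mul_cancel, Units.val_one, Matrix.one_mulVec]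
    rw [← h1, h0, Matrix.mulVec_zero]
  have hX : Nat.card {w : Fin 2 → ZMod p // w ≠ 0} = p ^ 2 - 1 := by
    rw [Nat.card_eq_fintype_card, Fintype.card_subtype_compl, Fintype.card_subtype_eq]
    simp [ZMod.card]
  have hinj : ∀ (v : Fin 2 → ZMod p) (hv : v ≠ 0), Function.Injective (fun h : H =>
      (⟨Matrix.mulVec ((h : Matrix.GeneralLinearGroup (Fin 2) (ZMod p)) : Matrix (Fin 2) (Fin 2) (ZMod p)) v,
        hne _ v hv⟩ : {w : Fin 2 → ZMod p // w ≠ 0})) := by
    intro v hv h k hhk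
    have h1 : Matrix.mulVec ((h : Matrix.GeneralLinearGroup (Fin 2) (ZMod p)) : Matrix (Fin 2) (Fin 2) (ZMod p)) v =
      Matrix.mulVec ((k : Matrix.GeneralLinearGroup (Fin 2) (ZMod p)) : Matrix (Fin 2) (Fin 2) (ZMod p)) v :=
      congrArg Subtype.val hhk
    have h2 := hsr _ (k⁻¹ * h).2 v hv (by
      rw [Subgroup.coe_mul, Subgroup.coe_inv, Units.val_mul, ← Matrix.mulVec_mulVec, h1, Matrix.mulVec_mulVec,
        ← Units.val_mul, inv_mul_cancel, Units.val_one, Matrix.one_mulVec])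
    exact (inv_mul_eq_one.mp (Subtype.ext h2)).symm
  have hle : Nat.card H ≤ p ^ 2 - 1 := by
    rw [← hX]
    exact Nat.card_le_card_of_injective _ (hinj (fun _ => 1) (by
      intro h0
      have := congrFun h0 0
      exact one_ne_zero this))
  have heq : Nat.card H = p ^ 2 - 1 := le_antisymm hle hcard
  refine ⟨heq, ?_⟩
  intro v w hv hw
  have hfin : Finite H := inferInstance
  have : Fintype H := Fintype.ofFinite H
  have hbij : Function.Bijective (fun h : H =>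
      (⟨Matrix.mulVec ((h : Matrix.GeneralLinearGroup (Fin 2) (ZMod p)) : Matrix (Fin 2) (Fin 2) (ZMod p)) v,
        hne _ v hv⟩ : {w : Fin 2 → ZMod p // w ≠ 0})) := by
    rw [Fintype.bijective_iff_injective_and_card]
    refine ⟨hinj v hv, ?_⟩
    rw [← Nat.card_eq_fintype_card, ← Nat.card_eq_fintype_card, hX, heq]
  obtain ⟨h, hh⟩ := hbij.2 ⟨w, hw⟩
  refine ⟨h, congrArg Subtype.val hh, ?_⟩
  intro k hk
  exact hbij.1 (Subtype.ext (hk.trans (congrArg Subtype.val hh).symm))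

/-- Semiregularity of subgroups of `SL(2,p)` of order prime to `p`. -/
theorem semiregular_sl2 (p : ℕ) [Fact p.Prime] (H : Subgroup (Matrix.GeneralLinearGroup (Fin 2) (ZMod p)))
    (hdet : ∀ h ∈ H, (h : Matrix (Fin 2) (Fin 2) (ZMod p)).det = 1) (hcop : Nat.Coprime (Nat.card H) p) :
    ∀ h ∈ H, ∀ v : Fin 2 → ZMod p, v ≠ 0 →
      Matrix.mulVec (h : Matrix (Fin 2) (Fin 2) (ZMod p)) v = v → h = 1 := by
  intro h hh v hv hv1
  have h1 : h ^ Nat.card H = 1 := by
    have := pow_card_eq_one' (x := (⟨h, hh⟩ : H))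
    exact congrArg Subtype.val this
  have h2 : (h : Matrix (Fin 2) (Fin 2) (ZMod p)) ^ Nat.card H = 1 := by
    rw [← Units.val_pow_eq_pow_val, h1, Units.val_one]
  exact Units.ext (sl2_fix_eq_one p _ (hdet h hh) _ hcop h2 v hv hv1)

end Cfsg.Agent.H34
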