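import Cfsg.Agent.S0633
import Cfsg.Agent.HH.CritP
import Cfsg.Agent.H76.PSolvable
import Cfsg.Agent.Solv.Core

set_option autoImplicit false

open Cfsg

namespace Cfsg.Agent.H34.HL

/-- the difference operator -/
def dl {W : Type*} [CommGroup W] (φ : MulAut W) (w : W) : W := φ w * w⁻¹

/-- module structure -/
@[reducible] def modW {W : Type*} [CommGroup W] {p : ℕ} (he : ∀ w : W, w ^ p = 1) :
    Module (ZMod p) (Additive W) :=
  AddCommGroup.zmodModule (n := p) (fun w => by
    apply Additive.toMul.injective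
    rw [toMul_nsmul, toMul_zero]
    exact he _)

section
variable {W : Type*} [CommGroup W] {p : ℕ} [hpf : Fact p.Prime] [Module (ZMod p) (Additive W)]

variable (p) in
/-- automorphisms as linear equivalences -/
def glW : MulAut W →* (Additive W ≃ₗ[ZMod p] Additive W) where
  toFun := fun φ =>
      { toFun := fun w => Additive.ofMul (φ w.toMul)
        map_add' := fun a b => by
          apply Additive.toMul.injective
          simp
        map_smul' := fun c x => ZMod.map_smul (MulEquiv.toAdditive φ) c x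
        invFun := fun w => Additive.ofMul (φ.symm w.toMul)
        left_inv := fun w => by simp
        right_inv := fun w => by simp }
  map_one' := by ext; rfl
  map_mul' := fun a b => by ext; rfl

theorem glW_inj : Function.Injective (glW (W := W) p) := by
  intro a b h
  ext w
  have := congrArg (fun (z : Additive W ≃ₗ[ZMod p] Additive W) => (z (Additive.ofMul w)).toMul) h
  exact this

theorem sub_one_pow (φ : MulAut W) (k : ℕ) (w : W) :
    ((((glW p φ : Additive W ≃ₗ[ZMod p] Additive W) : Module.End (ZMod p) (Additive W)) - 1) ^ k)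
      (Additive.ofMul w) = Additive.ofMul ((dl φ)^[k] w) := by
  induction k generalizing w with
  | zero => simp
  | succ k ih =>
    rw [Function.iterate_succ_apply, ← ih, pow_succ, Module.End.mul_apply]
    congr 1
    rw [LinearMap.sub_apply]
    show Additive.ofMul (φ w) - Additive.ofMul w = _
    rw [← ofMul_div, div_eq_mul_inv]
    rfl

theorem coe_pow (φ : MulAut W) (k : ℕ) :
    ((glW p φ : Additive W ≃ₗ[ZMod p] Additive W) : Module.End (ZMod p) (Additive W)) ^ k =
      ((glW p (φ ^ k) : Additive W ≃ₗ[ZMod p] Additive W) : Module.End (ZMod p) (Additive W)) := by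
  induction k with
  | zero => rw [pow_zero, pow_zero, map_one]; rfl
  | succ k ih => rw [pow_succ, ih, pow_succ, map_mul]; rfl

theorem norm_eq [Nontrivial W] (φ : MulAut W) (n : ℕ) (w : W) :
    ∏ i ∈ Finset.range (p ^ n), (φ ^ i) w = (dl φ)^[p ^ n - 1] w := by
  haveI : Nontrivial (Additive W) := inferInstanceAs (Nontrivial W)
  haveI : CharP (Module.End (ZMod p) (Additive W)) p :=
    charP_of_injective_algebraMap (FaithfulSMul.algebraMap_injective (ZMod p) (Module.End (ZMod p) (Additive W))) p
  have h1 := sub_one_pow (p := p) φ (p ^ n - 1) w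
  rw [← HH.geom_eq_pow] at h1
  rw [LinearMap.sum_apply] at h1
  apply Additive.ofMul.injective
  rw [← h1]
  rw [ofMul_prod]
  apply Finset.sum_congr rfl
  intro i _
  rw [coe_pow]
  rfl

end

/-- Theorem B of Hall and Higman for groups of automorphisms of elementary abelian groups. -/
theorem tb_aux {W : Type*} [CommGroup W] [Finite W] [Nontrivial W] {p : ℕ} [hpf : Fact p.Prime]
    [Module (ZMod p) (Additive W)] {X : Type*} [Group X] [Finite X] (f : X →* MulAut W)
    (hf : Function.Injective f) (hsol : IsPSolvable p X) (hcore : pCore p X = ⊥) (x : X) (n : ℕ)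
    (hn : orderOf x = p ^ n) :
    ∃ r : ℕ, (∀ k < r, ∃ w, (dl (f x))^[k] w ≠ 1) ∧ (r = p ^ n ∨ ∃ n₀ q m : ℕ, 1 ≤ n₀ ∧ n₀ ≤ n ∧
      q.Prime ∧ 1 ≤ m ∧ p ^ n₀ - 1 = q ^ m ∧ (∀ Q : Sylow q X, ¬ IsMulCommutative Q) ∧
      p ^ (n - n₀) * (p ^ n₀ - 1) ≤ r) := by
  haveI : Nontrivial (Additive W) := inferInstanceAs (Nontrivial W)
  haveI : Finite (Additive W) := inferInstanceAs (Finite W)
  haveI : FiniteDimensional (ZMod p) (Additive W) := Module.Finite.of_finite
  let g : X →* (Additive W ≃ₗ[ZMod p] Additive W) := MonoidHom.comp (glW (W := W) p) f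
  have hg : Function.Injective g := (glW_inj (p := p)).comp hf
  let e : X ≃* g.range := MonoidHom.ofInjective hg
  haveI : Finite g.range := Finite.of_equiv X e.toEquiv
  have hsol' : IsPSolvable p g.range := H76.isPSolvable_of_surjective e.toMonoidHom e.surjective hsol
  have hcore' : pCore p g.range = ⊥ := by
    have hnorm : (pCore p g.range).Normal := inferInstance
    have h1 : (pCore p g.range).comap e.toMonoidHom ≤ pCore p X := by
      apply Solv.le_pCore
      · exact hnorm.comap _
      · exact (Solv.pCore_isPGroup (G := g.range) p).comap_of_injective _ e.injective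
    rw [hcore, le_bot_iff] at h1
    rw [eq_bot_iff]
    intro z hz
    obtain ⟨y, rfl⟩ := e.surjective z
    have h2 : y ∈ (pCore p g.range).comap e.toMonoidHom := hz
    rw [h1, Subgroup.mem_bot] at h2
    rw [h2, map_one]
    exact Subgroup.one_mem _
  set T : Module.End (ZMod p) (Additive W) := (g x : Module.End (ZMod p) (Additive W)) with hT
  haveI : CharP (Module.End (ZMod p) (Additive W)) p :=
    charP_of_injective_algebraMap (FaithfulSMul.algebraMap_injective (ZMod p) (Module.End (ZMod p) (Additive W))) p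
  have hTp : (T - 1) ^ (p ^ n) = 0 := by
    rw [sub_pow_char_pow_of_commute _ _ (Commute.one_right _), one_pow]
    have h1 : T ^ (p ^ n) = 1 := by
      rw [hT]
      have := coe_pow (p := p) (f x) (p ^ n)
      rw [← map_pow, ← hn, pow_orderOf_eq_one, map_one, map_one] at this
      rw [← hn]
      exact this
    rw [h1, sub_self]
  obtain ⟨r, hr⟩ : ∃ r, minpoly (ZMod p) T = (Polynomial.X - 1) ^ r := by
    have h1 : minpoly (ZMod p) T ∣ (Polynomial.X - 1) ^ (p ^ n) := minpoly.dvd (ZMod p) T (by
      rw [map_pow, map_sub, Polynomial.aeval_X, map_one, hTp])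
    have h2 : Prime ((Polynomial.X : Polynomial (ZMod p)) - 1) := by
      have := Polynomial.prime_X_sub_C (1 : ZMod p)
      rwa [Polynomial.C_1] at this
    obtain ⟨j, hj, hassoc⟩ := (dvd_prime_pow h2 _).1 h1
    have hm : ((Polynomial.X : Polynomial (ZMod p)) - 1).Monic := by
      have := Polynomial.monic_X_sub_C (1 : ZMod p)
      rwa [Polynomial.C_1] at this
    exact ⟨j, Polynomial.eq_of_monic_of_associated (minpoly.monic (Algebra.IsIntegral.isIntegral T)) (hm.pow j) hassoc⟩
  have horder : orderOf (g x) = p ^ n := by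
    rw [orderOf_injective g hg, hn]
  have hB := S0633.result (F := ZMod p) (p := p) (V := Additive W) g.range hsol' hcore' (g x) ⟨x, rfl⟩ n horder r hr
  refine ⟨r, ?_, ?_⟩
  · intro k hk
    by_contra hcon
    push Not at hcon
    have h0 : (T - 1) ^ k = 0 := by
      ext w
      obtain ⟨w, rfl⟩ := Additive.ofMul.surjective w
      have := sub_one_pow (p := p) (f x) k w
      rw [hcon w] at this
      exact congrArg Additive.toMul this
    have h1 : minpoly (ZMod p) T ∣ (Polynomial.X - 1) ^ k := minpoly.dvd (ZMod p) T (by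
      rw [map_pow, map_sub, Polynomial.aeval_X, map_one, h0])
    rw [hr] at h1
    have h3 : (Polynomial.X : Polynomial (ZMod p)) - 1 ≠ 0 := by
      have := Polynomial.X_sub_C_ne_zero (1 : ZMod p)
      rwa [Polynomial.C_1] at this
    have h2 := Polynomial.natDegree_le_of_dvd h1 (pow_ne_zero k h3)
    have h4 : ((Polynomial.X : Polynomial (ZMod p)) - 1).natDegree = 1 := by
      have := Polynomial.natDegree_X_sub_C (1 : ZMod p)
      rwa [Polynomial.C_1] at this
    rw [Polynomial.natDegree_pow, Polynomial.natDegree_pow, h4, mul_one, mul_one] at h2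
    omega
  · rcases hB with h | ⟨n₀, q, m, h1, h2, h3, h4, h5, h6, h7⟩
    · exact Or.inl h
    · refine Or.inr ⟨n₀, q, m, h1, h2, h3, h4, h5, ?_, h7⟩
      intro Q hQ
      haveI : Fact q.Prime := ⟨h3⟩
      let Q' : Sylow q g.range := Q.mapSurjective (f := e.toMonoidHom) e.surjective
      apply h6 Q'
      constructor
      constructor
      rintro ⟨a, a0, ha0, rfl⟩ ⟨b, b0, hb0, rfl⟩
      have := hQ.1.1 ⟨a0, ha0⟩ ⟨b0, hb0⟩
      have h8 : a0 * b0 = b0 * a0 := congrArg Subtype.val this
      apply Subtype.ext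
      show e a0 * e b0 = e b0 * e a0
      rw [← map_mul, h8, map_mul]

/-- Theorem B of Hall and Higman for groups of automorphisms of elementary abelian groups. -/
theorem tb {W : Type*} [CommGroup W] [Finite W] [Nontrivial W] {p : ℕ} [hpf : Fact p.Prime]
    (he : ∀ w : W, w ^ p = 1) {X : Type*} [Group X] [Finite X] (f : X →* MulAut W)
    (hf : Function.Injective f) (hsol : IsPSolvable p X) (hcore : pCore p X = ⊥) (x : X) (n : ℕ)
    (hn : orderOf x = p ^ n) :
    ∃ r : ℕ, (∀ k < r, ∃ w, (dl (f x))^[k] w ≠ 1) ∧ (r = p ^ n ∨ ∃ n₀ q m : ℕ, 1 ≤ n₀ ∧ n₀ ≤ n ∧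
      q.Prime ∧ 1 ≤ m ∧ p ^ n₀ - 1 = q ^ m ∧ (∀ Q : Sylow q X, ¬ IsMulCommutative Q) ∧
      p ^ (n - n₀) * (p ^ n₀ - 1) ≤ r) := by
  haveI : Module (ZMod p) (Additive W) := modW he
  exact tb_aux f hf hsol hcore x n hn

theorem nrm {W : Type*} [CommGroup W] {p : ℕ} [hpf : Fact p.Prime] (he : ∀ w : W, w ^ p = 1)
    (φ : MulAut W) (n : ℕ) (w : W) :
    ∏ i ∈ Finset.range (p ^ n), (φ ^ i) w = (dl φ)^[p ^ n - 1] w := by
  haveI : Module (ZMod p) (Additive W) := modW he
  rcases subsingleton_or_nontrivial W with h | h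
  · exact Subsingleton.elim _ _
  · exact norm_eq φ n w

theorem dl_pow {W : Type*} [CommGroup W] {p : ℕ} [hpf : Fact p.Prime] (he : ∀ w : W, w ^ p = 1)
    (φ : MulAut W) (n : ℕ) (w : W) : dl (φ ^ p ^ n) w = (dl φ)^[p ^ n] w := by
  haveI : Module (ZMod p) (Additive W) := modW he
  rcases subsingleton_or_nontrivial W with h | h
  · exact Subsingleton.elim _ _
  · haveI : Nontrivial (Additive W) := inferInstanceAs (Nontrivial W)
    haveI : CharP (Module.End (ZMod p) (Additive W)) p :=
      charP_of_injective_algebraMap (FaithfulSMul.algebraMap_injective (ZMod p) (Module.End (ZMod p) (Additive W))) p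
    apply Additive.ofMul.injective
    rw [← sub_one_pow (p := p) φ (p ^ n) w, sub_pow_char_pow_of_commute _ _ (Commute.one_right _), one_pow,
      coe_pow]
    have := sub_one_pow (p := p) (φ ^ p ^ n) 1 w
    rw [pow_one, Function.iterate_one] at this
    exact this.symm

end Cfsg.Agent.H34.HL
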