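import Mathlib
import Cfsg.Agent.Solv.Core

set_option autoImplicit false

namespace Cfsg.Agent.H34.HL

theorem end_sum {A : Type*} [AddCommGroup A] (s : Finset ℕ) (F : ℕ → AddMonoid.End A) (a : A) :
    (∑ i ∈ s, F i) a = ∑ i ∈ s, F i a := by
  classical
  induction s using Finset.induction_on with
  | empty => rfl
  | insert i s hi ih =>
    rw [Finset.sum_insert hi, Finset.sum_insert hi, ← ih]
    rfl

theorem tors_step {A : Type*} [AddCommGroup A] {p : ℕ} (hp : p.Prime) (hp3 : 3 ≤ p)
    (T : AddMonoid.End A) (hT : T ^ p = 1) (hfix : ∀ a : A, p • a = 0 → T a = a) (k : ℕ) (a : A)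
    (h : p ^ (k + 2) • ((T - 1) a) = 0) : p ^ (k + 1) • ((T - 1) a) = 0 := by
  set δ : AddMonoid.End A := T - 1 with hδ
  have hfix' : ∀ a : A, p • a = 0 → δ a = 0 := by
    intro a ha
    show T a - a = 0
    rw [hfix a ha]
    exact sub_self a
  set u := δ a with hu
  have h1 : p ^ (k + 1) • δ u = 0 := by
    rw [← map_nsmul]
    apply hfix'
    rw [← mul_nsmul', ← pow_succ']
    exact h
  have h2 : p ^ k • δ (δ u) = 0 := by
    rw [← map_nsmul]
    apply hfix'
    rw [← mul_nsmul', ← pow_succ']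
    exact h1
  have hiter1 : ∀ j, p ^ (k + 1) • (δ ^ (j + 2)) a = 0 := by
    intro j
    have : (δ ^ (j + 2)) a = (δ ^ j) (δ u) := by
      rw [pow_add]; rfl
    rw [this, ← map_nsmul, h1, map_zero]
  have hiter2 : ∀ j, p ^ k • (δ ^ (j + 3)) a = 0 := by
    intro j
    have : (δ ^ (j + 3)) a = (δ ^ j) (δ (δ u)) := by
      rw [pow_add]; rfl
    rw [this, ← map_nsmul, h2, map_zero]
  have hexp : (δ + 1) ^ p = 1 := by
    rw [hδ, sub_add_cancel, hT]
  rw [(Commute.one_right δ).add_pow] at hexp
  have hsum : ∑ m ∈ Finset.range (p + 1), (p.choose m) • (δ ^ m) a = a := by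
    have := congrArg (fun z : AddMonoid.End A => z a) hexp
    simp only [one_pow, mul_one] at this
    have h3 : (∑ m ∈ Finset.range (p + 1), δ ^ m * (p.choose m : AddMonoid.End A)) a =
        ∑ m ∈ Finset.range (p + 1), (p.choose m) • (δ ^ m) a := by
      rw [end_sum]
      apply Finset.sum_congr rfl
      intro m _
      rw [← nsmul_eq_mul']
      rfl
    rw [h3] at this
    exact this
  obtain ⟨q, rfl⟩ : ∃ q, p = q + 3 := ⟨p - 3, by omega⟩
  rw [Finset.sum_range_succ', Finset.sum_range_succ'] at hsum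
  simp only [zero_add, Nat.choose_one_right, pow_one, Nat.choose_zero_right, pow_zero, one_smul] at hsum
  have hsum2 : ∑ m ∈ Finset.range (q + 2), ((q+3).choose (m + 1 + 1)) • (δ ^ (m + 1 + 1)) a + (q + 3) • u = 0 := by
    have h4 : (1 : AddMonoid.End A) a = a := rfl
    rw [h4] at hsum
    exact left_eq_add.mp (by rw [add_comm] at hsum; exact hsum.symm)
  have h5 := congrArg (fun z => (q+3) ^ k • z) hsum2
  simp only [smul_add, smul_zero, Finset.smul_sum] at h5
  have h6 : ∑ m ∈ Finset.range (q + 2), (q+3) ^ k • ((q+3).choose (m + 1 + 1)) • (δ ^ (m + 1 + 1)) a = 0 := by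
    apply Finset.sum_eq_zero
    intro m hm
    rw [Finset.mem_range] at hm
    by_cases hm2 : m = q + 1
    · subst hm2
      rw [show q + 1 + 1 + 1 = q + 3 by ring, Nat.choose_self, one_smul]
      exact hiter2 q
    · obtain ⟨c, hc⟩ := hp.dvd_choose_self (k := m + 1 + 1) (by omega) (by omega)
      rw [hc, ← mul_nsmul', ← mul_assoc, ← pow_succ, mul_comm, mul_nsmul', hiter1 m, smul_zero]
  rw [h6, zero_add, ← mul_nsmul', ← pow_succ] at h5
  exact h5

theorem tors {M : Type*} [CommGroup M] {p : ℕ} (hp : p.Prime) (hp3 : 3 ≤ p) (hM : IsPGroup p M)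
    (α : MulAut M) (hα : α ^ p = 1) (hfix : ∀ m : M, m ^ p = 1 → α m = m) (m : M) :
    (α m * m⁻¹) ^ p = 1 := by
  let T : AddMonoid.End (Additive M) := (MulEquiv.toAdditive α).toAddMonoidHom
  have hTpow : ∀ k : ℕ, ∀ a : Additive M, (T ^ k) a = Additive.ofMul ((α ^ k) a.toMul) := by
    intro k
    induction k with
    | zero => intro a; rfl
    | succ k ih =>
      intro a
      rw [pow_succ, pow_succ]
      show (T ^ k) (T a) = _
      rw [ih]
      rfl
  have hT : T ^ p = 1 := by
    ext a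
    rw [hTpow, hα]
    rfl
  have hfix' : ∀ a : Additive M, p • a = 0 → T a = a := by
    intro a ha
    apply Additive.toMul.injective
    exact hfix a.toMul (congrArg Additive.toMul ha)
  have key : ∀ k : ℕ, ∀ a : Additive M, p ^ (k + 1) • ((T - 1) a) = 0 → p • ((T - 1) a) = 0 := by
    intro k
    induction k with
    | zero => intro a h; simpa using h
    | succ k ih =>
      intro a h
      exact ih a (tors_step hp hp3 T hT hfix' k a h)
  obtain ⟨k, hk⟩ := hM (α m * m⁻¹)
  have h1 : (T - 1) (Additive.ofMul m) = Additive.ofMul (α m * m⁻¹) := by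
    show Additive.ofMul (α m) - Additive.ofMul m = _
    rw [← ofMul_div, div_eq_mul_inv]
  have h2 := key k (Additive.ofMul m) (by
    rw [h1, ← ofMul_pow, pow_succ, pow_mul, hk, one_pow]; rfl)
  rw [h1, ← ofMul_pow] at h2
  exact Additive.ofMul.injective h2

end Cfsg.Agent.H34.HL
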