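import Cfsg.Agent.H34.HL2
import Cfsg.Agent.Solv.MinNormal

set_option autoImplicit false

namespace Cfsg.Agent.H34.HL

theorem mul_pow_class2 {G : Type*} [Group G] (c y z : G) (hz : y * c = z * (c * y))
    (hc : z * c = c * z) (hy : z * y = y * z) (n : ℕ) :
    (c * y) ^ n = c ^ n * y ^ n * z ^ (n * (n - 1) / 2) := by
  have h1 : ∀ n : ℕ, y ^ n * c = z ^ n * (c * y ^ n) := by
    intro n
    induction n with
    | zero => simp
    | succ n ih =>
      have hzy : Commute z (y ^ n) := (show Commute z y from hy).pow_right n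
      calc y ^ (n+1) * c = y ^ n * (y * c) := by rw [pow_succ, mul_assoc]
        _ = y ^ n * z * (c * y) := by rw [hz, mul_assoc]
        _ = z * (y ^ n * c) * y := by rw [← hzy.eq]; group
        _ = z * (z ^ n * (c * y ^ n)) * y := by rw [ih]
        _ = z ^ (n+1) * (c * y ^ (n+1)) := by rw [pow_succ' z, pow_succ y]; group
  have hzc : ∀ m, Commute (z ^ m) c := fun m => (show Commute z c from hc).pow_left m
  have hzy : ∀ m, Commute (z ^ m) y := fun m => (show Commute z y from hy).pow_left m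
  induction n with
  | zero => simp
  | succ n ih =>
    have hexp : (n + 1) * (n + 1 - 1) / 2 = n * (n - 1) / 2 + n := by
      have h2 := Finset.sum_range_id (n + 1)
      have h3 := Finset.sum_range_id n
      rw [Finset.sum_range_succ] at h2
      omega
    have e1 : c ^ n * y ^ n * z ^ (n * (n - 1) / 2) * (c * y) =
        z ^ n * (c ^ (n+1) * y ^ (n+1)) * z ^ (n * (n - 1) / 2) := by
      calc c ^ n * y ^ n * z ^ (n * (n - 1) / 2) * (c * y)
          = c ^ n * y ^ n * (z ^ (n * (n - 1) / 2) * c) * y := by group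
        _ = c ^ n * (y ^ n * c) * (z ^ (n * (n - 1) / 2) * y) := by rw [(hzc _).eq]; group
        _ = (c ^ n * z ^ n) * (c * y ^ n) * (y * z ^ (n * (n - 1) / 2)) := by rw [h1, (hzy _).eq]; group
        _ = (z ^ n * c ^ n) * (c * y ^ n) * (y * z ^ (n * (n - 1) / 2)) := by
            rw [((hzc n).pow_right n).eq]
        _ = z ^ n * (c ^ (n+1) * y ^ (n+1)) * z ^ (n * (n - 1) / 2) := by
            rw [pow_succ c, pow_succ y]; group
    have e2 : Commute (z ^ n) (c ^ (n+1) * y ^ (n+1)) :=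
      ((hzc n).pow_right (n+1)).mul_right ((hzy n).pow_right (n+1))
    rw [hexp, pow_succ (c * y), ih, e1, e2.eq, pow_add z, mul_assoc, ((Commute.refl z).pow_pow n _).eq]

theorem mul_pow_p {G : Type*} [Group G] {p : ℕ} (hp : p.Prime) (hp3 : 3 ≤ p) (c y z : G)
    (hz : y * c = z * (c * y)) (hc : z * c = c * z) (hy : z * y = y * z) (hzp : z ^ p = 1) :
    (c * y) ^ p = c ^ p * y ^ p := by
  rw [mul_pow_class2 c y z hz hc hy]
  have h1 : p ∣ p * (p - 1) / 2 := by
    have hodd : p % 2 = 1 := Nat.odd_iff.mp (hp.odd_of_ne_two (by omega))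
    obtain ⟨k, hk⟩ : ∃ k, p - 1 = 2 * k := ⟨(p-1)/2, by omega⟩
    refine ⟨k, ?_⟩
    rw [hk]
    have : p * (2 * k) = 2 * (p * k) := by ring
    rw [this, Nat.mul_div_cancel_left _ (by norm_num)]
  obtain ⟨k, hk⟩ := h1
  rw [hk, pow_mul, hzp, one_pow, mul_one]

theorem alperin {R : Type*} [Group R] [Finite R] {p : ℕ} (hp : p.Prime) (hp3 : 3 ≤ p)
    (hR : IsPGroup p R) (S : Set R) (hSp : ∀ y ∈ S, y ^ p = 1) (Y : Subgroup R)
    (hY : Y = Subgroup.closure S) (hYn : Y.Normal)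
    (hN : ∀ N : Subgroup R, N.Normal → N ≤ Y → (∀ a ∈ N, ∀ b ∈ N, a * b = b * a) →
      (∀ a ∈ N, a ^ p = 1) → ∀ n ∈ N, ∀ y ∈ Y, n * y = y * n) :
    ∀ a ∈ Y, ∀ b ∈ Y, a * b = b * a := by
  classical
  haveI : Fact p.Prime := ⟨hp⟩
  have hSY : ∀ y ∈ S, y ∈ Y := fun y hy => hY ▸ Subgroup.subset_closure hy
  -- maximal normal abelian subgroup
  obtain ⟨M, hMmax⟩ := (Set.toFinite {M : Subgroup R | M.Normal ∧ M ≤ Y ∧ ∀ a ∈ M, ∀ b ∈ M, a * b = b * a}).exists_maximal
    ⟨⊥, inferInstance, bot_le, by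
      intro a ha b hb
      rw [Subgroup.mem_bot] at ha hb
      rw [ha, hb]⟩
  obtain ⟨⟨hMn, hMY, hMc⟩, hMm⟩ := hMmax
  have hMm' : ∀ M' : Subgroup R, M'.Normal → M' ≤ Y → (∀ a ∈ M', ∀ b ∈ M', a * b = b * a) → M ≤ M' → M' ≤ M :=
    fun M' h1 h2 h3 h4 => hMm ⟨h1, h2, h3⟩ h4
  -- self centralizing
  have hself : ∀ c ∈ Y, (∀ m ∈ M, c * m = m * c) → c ∈ M := by
    by_contra hcon
    push Not at hcon
    obtain ⟨c0, hc0Y, hc0, hc0M⟩ := hcon
    let C : Subgroup R := Y ⊓ Subgroup.centralizer (M : Set R)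
    have hCn : C.Normal := inferInstance
    let π := QuotientGroup.mk' M
    have hπ : Function.Surjective π := QuotientGroup.mk'_surjective M
    haveI hCn' : (C.map π).Normal := hCn.map π hπ
    haveI : Group.IsNilpotent (R ⧸ M) := (hR.to_quotient M).isNilpotent
    have hCne : C.map π ≠ ⊥ := by
      intro h
      have : π c0 ∈ C.map π := ⟨c0, ⟨hc0Y, Subgroup.mem_centralizer_iff.mpr (by
        intro m hm
        exact (hc0 m hm).symm)⟩, rfl⟩
      rw [h, Subgroup.mem_bot] at this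
      exact hc0M ((QuotientGroup.eq_one_iff _).mp this)
    have h1 := Solv.inf_center_ne_bot_of_nilpotent (C.map π) hCne
    obtain ⟨z, ⟨hz1, hz2⟩, hz3⟩ := (Subgroup.ne_bot_iff_exists_ne_one.mp h1 : ∃ z : ↥(C.map π ⊓ Subgroup.center (R ⧸ M)), z ≠ 1) |>.elim
      (fun z hz => (⟨z.1, z.2, fun h => hz (Subtype.ext h)⟩ : ∃ z : R ⧸ M, z ∈ C.map π ⊓ Subgroup.center (R ⧸ M) ∧ z ≠ 1))
    obtain ⟨c, ⟨hcY, hcC⟩, rfl⟩ := hz1
    replace hcC := Subgroup.mem_centralizer_iff.mp (show c ∈ Subgroup.centralizer (M : Set R) from hcC)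
    have hcM : c ∉ M := fun h => hz3 ((QuotientGroup.eq_one_iff _).mpr h)
    have hcent : ∀ r : R, r * c * r⁻¹ * c⁻¹ ∈ M := by
      intro r
      rw [← QuotientGroup.eq_one_iff]
      have := (Subgroup.mem_center_iff.mp hz2) (π r)
      show π (r * c * r⁻¹ * c⁻¹) = 1
      rw [map_mul, map_mul, map_mul, this, map_inv, map_inv]
      group
    let M' : Subgroup R := M ⊔ Subgroup.zpowers c
    have hM'n : M'.Normal := by
      constructor
      intro x hx r
      obtain ⟨m, hm, y, hy, rfl⟩ := Subgroup.mem_sup_of_normal_left.mp hx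
      obtain ⟨k, rfl⟩ := Subgroup.mem_zpowers_iff.mp hy
      have h2 : r * (m * c ^ k) * r⁻¹ = (r * m * r⁻¹) * (r * c * r⁻¹) ^ k := by
        rw [conj_zpow]; group
      rw [h2]
      refine M'.mul_mem (Subgroup.mem_sup_left (hMn.conj_mem m hm r)) (M'.zpow_mem ?_ k)
      have h3 : r * c * r⁻¹ = (r * c * r⁻¹ * c⁻¹) * c := by group
      rw [h3]
      exact M'.mul_mem (Subgroup.mem_sup_left (hcent r)) (Subgroup.mem_sup_right (Subgroup.mem_zpowers c))
    have hM'Y : M' ≤ Y := sup_le hMY (by rw [Subgroup.zpowers_le]; exact hcY)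
    have hM'c : ∀ a ∈ M', ∀ b ∈ M', a * b = b * a := by
      intro a ha b hb
      obtain ⟨m, hm, y, hy, rfl⟩ := Subgroup.mem_sup_of_normal_left.mp ha
      obtain ⟨k, rfl⟩ := Subgroup.mem_zpowers_iff.mp hy
      obtain ⟨m', hm', y', hy', rfl⟩ := Subgroup.mem_sup_of_normal_left.mp hb
      obtain ⟨k', rfl⟩ := Subgroup.mem_zpowers_iff.mp hy'
      have e1 : Commute m m' := hMc m hm m' hm'
      have e2 : ∀ (j : ℤ) (m : R), m ∈ M → Commute m (c ^ j) := fun j m hm =>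
        (show Commute m c from hcC m hm).zpow_right j
      have e3 : Commute (c ^ k) (c ^ k') := (Commute.refl c).zpow_zpow k k'
      exact ((e1.mul_right (e2 k' m hm)).mul_left (((e2 k m' hm').symm).mul_right e3)).eq
    have := hMm' M' hM'n hM'Y hM'c le_sup_left
    exact hcM (this (Subgroup.mem_sup_right (Subgroup.mem_zpowers c)))
  -- the subgroup A
  let A : Subgroup R :=
    { carrier := {m | m ∈ M ∧ m ^ p = 1}
      mul_mem' := by
        rintro a b ⟨ha, ha'⟩ ⟨hb, hb'⟩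
        exact ⟨M.mul_mem ha hb, by rw [(show Commute a b from hMc a ha b hb).mul_pow, ha', hb', one_mul]⟩
      one_mem' := ⟨M.one_mem, one_pow p⟩
      inv_mem' := by
        rintro a ⟨ha, ha'⟩
        exact ⟨M.inv_mem ha, by rw [inv_pow, ha', inv_one]⟩ }
  have hAM : A ≤ M := fun a ha => ha.1
  have hAn : A.Normal := ⟨fun a ha r => ⟨hMn.conj_mem a ha.1 r, by rw [conj_pow, ha.2]; simp⟩⟩
  have hAc : ∀ a ∈ A, ∀ y ∈ Y, a * y = y * a :=
    hN A hAn (hAM.trans hMY) (fun a ha b hb => hMc a ha.1 b hb.1) (fun a ha => ha.2)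
  -- commutators with M
  have hS : ∀ y ∈ S, ∀ m ∈ M, y * m * y⁻¹ * m⁻¹ ∈ A := by
    intro y hy m hm
    letI : CommGroup M := { (inferInstance : Group M) with mul_comm := fun a b => Subtype.ext (hMc a.1 a.2 b.1 b.2) }
    have h1 := tors (M := M) hp hp3 (hR.to_subgroup M) (MulAut.conjNormal y) (by
      rw [← map_pow, hSp y hy, map_one]) (by
      intro m hm
      apply Subtype.ext
      rw [MulAut.conjNormal_apply]
      have : (m : R) ∈ A := ⟨m.2, congrArg Subtype.val hm⟩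
      rw [← hAc m this y (hSY y hy)]
      group) ⟨m, hm⟩
    refine ⟨M.mul_mem (hMn.conj_mem m hm y) (M.inv_mem hm), ?_⟩
    exact congrArg Subtype.val h1
  have hYM : ∀ y ∈ Y, ∀ m ∈ M, y * m * y⁻¹ * m⁻¹ ∈ A := by
    intro y hy
    rw [hY] at hy
    induction hy using Subgroup.closure_induction with
    | mem y hy => exact hS y hy
    | one =>
      intro m hm
      have : (1 : R) * m * 1⁻¹ * m⁻¹ = 1 := by group
      rw [this]
      exact A.one_mem
    | mul y z _ _ hy hz =>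
      intro m hm
      have : y * z * m * (y * z)⁻¹ * m⁻¹ = y * (z * m * z⁻¹ * m⁻¹) * y⁻¹ * (y * m * y⁻¹ * m⁻¹) := by group
      rw [this]
      exact A.mul_mem (hAn.conj_mem _ (hz m hm) y) (hy m hm)
    | inv y _ hy =>
      intro m hm
      have : y⁻¹ * m * y⁻¹⁻¹ * m⁻¹ = y⁻¹ * (y * m * y⁻¹ * m⁻¹)⁻¹ * y⁻¹⁻¹ := by group
      rw [this]
      exact hAn.conj_mem _ (A.inv_mem (hy m hm)) _
  -- [Y, Y] ≤ M
  have hYY : ∀ a ∈ Y, ∀ b ∈ Y, a * b * a⁻¹ * b⁻¹ ∈ M := by
    intro a ha b hb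
    refine hself _ (Y.mul_mem (Y.mul_mem (Y.mul_mem ha hb) (Y.inv_mem ha)) (Y.inv_mem hb)) ?_
    intro m hm
    -- a b m = (stuff) m a b
    have e : ∀ y ∈ Y, ∀ m ∈ M, ∃ z ∈ A, y * m = z * m * y := by
      intro y hy m hm
      exact ⟨_, hYM y hy m hm, by group⟩
    obtain ⟨w, hw, hbm⟩ := e b hb m hm
    obtain ⟨z, hz, ham⟩ := e a ha m hm
    have h1 : (a * b) * m = (w * z) * m * (a * b) := by
      calc (a * b) * m = a * (b * m) := by group
        _ = (a * w) * m * b := by rw [hbm]; group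
        _ = w * (a * m) * b := by rw [← hAc w hw a ha]; group
        _ = (w * z) * m * (a * b) := by rw [ham]; group
    have h2 : (b * a) * m = (w * z) * m * (b * a) := by
      calc (b * a) * m = b * (a * m) := by group
        _ = (b * z) * m * a := by rw [ham]; group
        _ = z * (b * m) * a := by rw [← hAc z hz b hb]; group
        _ = (z * w) * m * (b * a) := by rw [hbm]; group
        _ = (w * z) * m * (b * a) := by rw [hMc z (hAM hz) w (hAM hw)]
    have h3 : a * b * a⁻¹ * b⁻¹ = (a * b) * (b * a)⁻¹ := by group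
    rw [h3]
    have h4 : (b * a)⁻¹ * ((w * z) * m) = m * (b * a)⁻¹ := by
      rw [inv_mul_eq_iff_eq_mul]
      rw [← mul_assoc, h2]; group
    -- (ab)(ba)⁻¹ m = m (ab)(ba)⁻¹
    have hwz : ∀ y ∈ Y, (w * z) * y = y * (w * z) := fun y hy => hAc _ (A.mul_mem hw hz) y hy
    have hba : (b * a)⁻¹ ∈ Y := Y.inv_mem (Y.mul_mem hb ha)
    have h5 : (b * a)⁻¹ * m = (w * z)⁻¹ * m * (b * a)⁻¹ := by
      have h6 : (b * a)⁻¹ * m = (w * z)⁻¹ * ((b * a)⁻¹ * ((w * z) * m)) := by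
        have h7 : (b * a)⁻¹ * ((w * z) * m) = (w * z) * (b * a)⁻¹ * m := by rw [hwz _ hba]; group
        rw [h7]; group
      rw [h6, h4]; group
    calc (a * b) * (b * a)⁻¹ * m = (a * b) * ((b * a)⁻¹ * m) := by group
      _ = (a * b) * (w * z)⁻¹ * m * (b * a)⁻¹ := by rw [h5]; group
      _ = (w * z)⁻¹ * ((a * b) * m) * (b * a)⁻¹ := by
          have : (a * b) * (w * z)⁻¹ = (w * z)⁻¹ * (a * b) :=
            (hAc _ (A.inv_mem (A.mul_mem hw hz)) _ (Y.mul_mem ha hb)).symm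
          rw [this]; group
      _ = m * ((a * b) * (b * a)⁻¹) := by rw [h1]; group
  -- generators commute modulo A
  have hSS : ∀ y ∈ S, ∀ y' ∈ S, y * y' * y⁻¹ * y'⁻¹ ∈ A := by
    intro y hy y' hy'
    set c := y * y' * y⁻¹ * y'⁻¹ with hc
    have hcM : c ∈ M := hYY y (hSY y hy) y' (hSY y' hy')
    refine ⟨hcM, ?_⟩
    have hz := hYM y' (hSY y' hy') c hcM
    set z := y' * c * y'⁻¹ * c⁻¹ with hzdef
    have h1 : (c * y') ^ p = 1 := by
      have : c * y' = y * y' * y⁻¹ := by rw [hc]; group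
      rw [this, conj_pow, hSp y' hy']
      simp
    rw [mul_pow_p hp hp3 c y' z (by rw [hzdef]; group) (hAc z hz c (hMY hcM)) (hAc z hz y' (hSY y' hy')) hz.2,
      hSp y' hy', mul_one] at h1
    exact h1
  have hSY2 : ∀ y ∈ S, ∀ b ∈ Y, y * b * y⁻¹ * b⁻¹ ∈ A := by
    intro y hy b hb
    rw [hY] at hb
    induction hb using Subgroup.closure_induction with
    | mem b hb => exact hSS y hy b hb
    | one =>
      have : y * 1 * y⁻¹ * 1⁻¹ = 1 := by group
      rw [this]; exact A.one_mem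
    | mul b c _ _ h1 h2 =>
      have : y * (b * c) * y⁻¹ * (b * c)⁻¹ = (y * b * y⁻¹ * b⁻¹) * (b * (y * c * y⁻¹ * c⁻¹) * b⁻¹) := by group
      rw [this]
      exact A.mul_mem h1 (hAn.conj_mem _ h2 b)
    | inv b _ h1 =>
      have : y * b⁻¹ * y⁻¹ * b⁻¹⁻¹ = b⁻¹ * (y * b * y⁻¹ * b⁻¹)⁻¹ * b⁻¹⁻¹ := by group
      rw [this]
      exact hAn.conj_mem _ (A.inv_mem h1) _
  have hYYA : ∀ a ∈ Y, ∀ b ∈ Y, a * b * a⁻¹ * b⁻¹ ∈ A := by
    intro a ha b hb
    have ha' := ha
    rw [hY] at ha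
    induction ha using Subgroup.closure_induction with
    | mem a ha => exact hSY2 a ha b hb
    | one =>
      have : 1 * b * 1⁻¹ * b⁻¹ = 1 := by group
      rw [this]; exact A.one_mem
    | mul x y hx hy h1 h2 =>
      have e : x * y * b * (x * y)⁻¹ * b⁻¹ = x * (y * b * y⁻¹ * b⁻¹) * x⁻¹ * (x * b * x⁻¹ * b⁻¹) := by group
      rw [e]
      exact A.mul_mem (hAn.conj_mem _ (h2 (hY ▸ hy)) x) (h1 (hY ▸ hx))
    | inv x hx h1 =>
      have e : x⁻¹ * b * x⁻¹⁻¹ * b⁻¹ = x⁻¹ * (x * b * x⁻¹ * b⁻¹)⁻¹ * x⁻¹⁻¹ := by group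
      rw [e]
      exact hAn.conj_mem _ (A.inv_mem (h1 (hY ▸ hx))) _
  -- exponent p
  have hexp : ∀ y ∈ Y, y ^ p = 1 := by
    intro y hy
    have hy' := hy
    rw [hY] at hy
    induction hy using Subgroup.closure_induction with
    | mem y hy => exact hSp y hy
    | one => exact one_pow p
    | mul x y hx hy h1 h2 =>
      have hxY : x ∈ Y := hY ▸ hx
      have hyY : y ∈ Y := hY ▸ hy
      have hz := hYYA y hyY x hxY
      rw [mul_pow_p hp hp3 x y (y * x * y⁻¹ * x⁻¹) (by group) (hAc _ hz x hxY) (hAc _ hz y hyY) hz.2,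
        h1 hxY, h2 hyY, one_mul]
    | inv x hx h1 => rw [inv_pow, h1 (hY ▸ hx), inv_one]
  have hfin := hN M hMn hMY hMc (fun a ha => hexp a (hMY ha))
  intro a ha b hb
  have haM := hself a ha (fun m hm => (hfin m hm a ha).symm)
  exact (hfin a haM b hb)

end Cfsg.Agent.H34.HL
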