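import Cfsg.Agent.H34.HL3
import Cfsg.Agent.BG.Coprime
import Cfsg.Agent.Cop.GenAb

set_option autoImplicit false

namespace Cfsg.Agent.H34.HL

open Subgroup
open scoped commutatorElement

section
variable {X : Type*} [Group X]

theorem mem_sup_zp {B : Subgroup X} {a : X} (hc : ∀ b ∈ B, b * a = a * b) {x : X}
    (hx : x ∈ B ⊔ zpowers a) : ∃ b ∈ B, ∃ j : ℤ, x = b * a ^ j := by
  rw [sup_eq_closure_mul] at hx
  have hcz : ∀ b ∈ B, ∀ j : ℤ, Commute b (a ^ j) := fun b hb j => (show Commute b a from hc b hb).zpow_right j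
  induction hx using closure_induction with
  | mem x hx =>
    obtain ⟨b, hb, c, hc', rfl⟩ := hx
    obtain ⟨j, rfl⟩ := mem_zpowers_iff.mp hc'
    exact ⟨b, hb, j, rfl⟩
  | one => exact ⟨1, B.one_mem, 0, by simp⟩
  | mul x y _ _ hx hy =>
    obtain ⟨b, hb, j, rfl⟩ := hx
    obtain ⟨c, hc', k, rfl⟩ := hy
    refine ⟨b * c, B.mul_mem hb hc', j + k, ?_⟩
    rw [zpow_add]
    calc b * a ^ j * (c * a ^ k) = b * (a ^ j * c) * a ^ k := by group
      _ = b * (c * a ^ j) * a ^ k := by rw [(hcz c hc' j).eq]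
      _ = b * c * (a ^ j * a ^ k) := by group
  | inv x _ hx =>
    obtain ⟨b, hb, j, rfl⟩ := hx
    refine ⟨b⁻¹, B.inv_mem hb, -j, ?_⟩
    rw [mul_inv_rev, ← zpow_neg, (hcz _ (B.inv_mem hb) (-j)).eq]

/-- integers prime to `p` -/
theorem mem_of_zpow_mem {B : Subgroup X} {p : ℕ} (hp : p.Prime) {a : X} (ha : a ^ p = 1) {k : ℤ}
    (hk : ¬ (p : ℤ) ∣ k) (h : a ^ k ∈ B) : a ∈ B := by
  have hco : IsCoprime (k : ℤ) (p : ℤ) := by
    rw [isCoprime_comm]
    exact (Nat.prime_iff_prime_int.mp hp).coprime_iff_not_dvd.mpr hk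
  obtain ⟨u, v, huv⟩ := hco
  have h1 : a = (a ^ k) ^ u * (a ^ (p : ℤ)) ^ v := by
    rw [← zpow_mul, ← zpow_mul, ← zpow_add, mul_comm k u, mul_comm (p : ℤ) v, huv, zpow_one]
  rw [h1, zpow_natCast, ha, one_zpow, mul_one]
  exact B.zpow_mem h u

/-- conjugation by a `p`-element fixing a hyperplane is trivial modulo the hyperplane -/
theorem hyper_fix {p : ℕ} (hp : p.Prime) (N B : Subgroup X)
    (hNc : ∀ a ∈ N, ∀ b ∈ N, a * b = b * a) (hNp : ∀ a ∈ N, a ^ p = 1) (hB : B ∈ Cop.cycQuot N)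
    (y : X) (hyp : y ^ p = 1) (hyN : ∀ n ∈ N, y * n * y⁻¹ ∈ N) (hyB : ∀ b ∈ B, y * b * y⁻¹ ∈ B) :
    ∀ n ∈ N, y * n * y⁻¹ * n⁻¹ ∈ B := by
  obtain ⟨hBN, a, haN, hsup⟩ := hB
  have hca : ∀ b ∈ B, b * a = a * b := fun b hb => hNc b (hBN hb) a haN
  have haK : y * a * y⁻¹ * a⁻¹ ∈ B := by
    have h1 := hyN a haN
    rw [← hsup] at h1
    obtain ⟨b, hb, j, hbj⟩ := mem_sup_zp hca h1
    by_cases haB : a ∈ B
    · exact B.mul_mem (hyB a haB) (B.inv_mem haB)
    have hpow : ∀ i : ℕ, ∃ b' ∈ B, y ^ i * a * (y ^ i)⁻¹ = b' * a ^ (j ^ i) := by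
      intro i
      induction i with
      | zero => exact ⟨1, B.one_mem, by simp⟩
      | succ i ih =>
        obtain ⟨b', hb', h⟩ := ih
        refine ⟨(y * b' * y⁻¹) * b ^ (j ^ i), B.mul_mem (hyB b' hb') (B.zpow_mem hb _), ?_⟩
        have h2 : y ^ (i+1) * a * (y ^ (i+1))⁻¹ = (y * b' * y⁻¹) * (y * a * y⁻¹) ^ (j ^ i) := by
          rw [pow_succ', mul_inv_rev, conj_zpow]
          calc y * y ^ i * a * ((y ^ i)⁻¹ * y⁻¹) = y * (y ^ i * a * (y ^ i)⁻¹) * y⁻¹ := by group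
            _ = y * (b' * a ^ (j ^ i)) * y⁻¹ := by rw [h]
            _ = _ := by group
        rw [h2, hbj, (show Commute b (a ^ j) from (show Commute b a from hca b hb).zpow_right j).mul_zpow,
          ← zpow_mul, ← mul_assoc, pow_succ' j]
    obtain ⟨b', hb', h⟩ := hpow p
    rw [hyp] at h
    have h3 : a ^ (j ^ p - 1) ∈ B := by
      have : a ^ (j ^ p - 1) = b'⁻¹ := by
        rw [zpow_sub, zpow_one]
        have h4 : a = b' * a ^ j ^ p := by simpa using h
        rw [mul_inv_eq_iff_eq_mul]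
        rw [eq_inv_mul_iff_mul_eq]
        exact h4.symm
      rw [this]
      exact B.inv_mem hb'
    have h4 : (p : ℤ) ∣ j ^ p - 1 := by
      by_contra h5
      exact haB (mem_of_zpow_mem hp (hNp a haN) h5 h3)
    have h5 : (p : ℤ) ∣ j - 1 := by
      haveI : Fact p.Prime := ⟨hp⟩
      rw [← ZMod.intCast_zmod_eq_zero_iff_dvd] at h4 ⊢
      push_cast at h4 ⊢
      rwa [ZMod.pow_card] at h4
    obtain ⟨c, hc⟩ := h5
    have h6 : a ^ j = a := by
      have : j = (p : ℤ) * c + 1 := by omega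
      rw [this, zpow_add, zpow_one, zpow_mul, zpow_natCast, hNp a haN, one_zpow, one_mul]
    rw [hbj, h6]
    simpa using hb
  let K : Subgroup X :=
    { carrier := {n | n ∈ N ∧ y * n * y⁻¹ * n⁻¹ ∈ B}
      mul_mem' := by
        rintro m n ⟨hm, hm'⟩ ⟨hn, hn'⟩
        refine ⟨N.mul_mem hm hn, ?_⟩
        have e : y * (m * n) * y⁻¹ * (m * n)⁻¹ = (y * m * y⁻¹ * m⁻¹) * (m * (y * n * y⁻¹ * n⁻¹) * m⁻¹) := by group
        have e2 : m * (y * n * y⁻¹ * n⁻¹) * m⁻¹ = y * n * y⁻¹ * n⁻¹ := by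
          rw [hNc m hm _ (hBN hn')]; group
        rw [e, e2]
        exact B.mul_mem hm' hn'
      one_mem' := ⟨N.one_mem, by
        have : y * 1 * y⁻¹ * 1⁻¹ = 1 := by group
        rw [this]; exact B.one_mem⟩
      inv_mem' := by
        rintro m ⟨hm, hm'⟩
        refine ⟨N.inv_mem hm, ?_⟩
        have e : y * m⁻¹ * y⁻¹ * m⁻¹⁻¹ = m⁻¹ * (y * m * y⁻¹ * m⁻¹)⁻¹ * m := by group
        have e2 : m⁻¹ * (y * m * y⁻¹ * m⁻¹)⁻¹ * m = (y * m * y⁻¹ * m⁻¹)⁻¹ := by
          rw [hNc _ (N.inv_mem hm) _ (hBN (B.inv_mem hm'))]; group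
        rw [e, e2]
        exact B.inv_mem hm' }
  have hK : N ≤ K := by
    conv_lhs => rw [← hsup]
    refine sup_le ?_ ?_
    · intro b hb
      exact ⟨hBN hb, B.mul_mem (hyB b hb) (B.inv_mem hb)⟩
    · rw [zpowers_le]
      exact ⟨haN, haK⟩
  exact fun n hn => (hK hn).2

/-- two hyperplanes -/
theorem two_hyper {p : ℕ} (hp : p.Prime) (N B : Subgroup X)
    (hNc : ∀ a ∈ N, ∀ b ∈ N, a * b = b * a) (hNp : ∀ a ∈ N, a ^ p = 1) (hB : B ∈ Cop.cycQuot N)
    (b' : X) (hb' : b' ∈ N) (hb'B : b' ∉ B) : ∀ n ∈ N, ∃ b ∈ B, ∃ t : ℤ, n = b * b' ^ t := by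
  obtain ⟨hBN, a, haN, hsup⟩ := hB
  have hca : ∀ b ∈ B, b * a = a * b := fun b hb => hNc b (hBN hb) a haN
  obtain ⟨b1, hb1, j, hj⟩ := mem_sup_zp hca (hsup.symm ▸ hb')
  have hpj : ¬ (p : ℤ) ∣ j := by
    rintro ⟨c, rfl⟩
    apply hb'B
    rw [hj, zpow_mul, zpow_natCast, hNp a haN, one_zpow, mul_one]
    exact hb1
  have hco : IsCoprime (j : ℤ) (p : ℤ) := by
    rw [isCoprime_comm]
    exact (Nat.prime_iff_prime_int.mp hp).coprime_iff_not_dvd.mpr hpj
  obtain ⟨u, v, huv⟩ := hco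
  have h1 : a = (b1 ^ u)⁻¹ * b' ^ u := by
    rw [hj, (show Commute b1 (a ^ j) from (show Commute b1 a from hca b1 hb1).zpow_right j).mul_zpow]
    rw [inv_mul_cancel_left, ← zpow_mul]
    have : j * u = 1 - (p : ℤ) * v := by linarith
    rw [this, zpow_sub, zpow_one, zpow_mul, zpow_natCast, hNp a haN, one_zpow, inv_one, mul_one]
  intro n hn
  obtain ⟨b2, hb2, l, hl⟩ := mem_sup_zp hca (hsup.symm ▸ hn)
  refine ⟨b2 * ((b1 ^ u)⁻¹) ^ l, B.mul_mem hb2 (B.zpow_mem (B.inv_mem (B.zpow_mem hb1 _)) _), u * l, ?_⟩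
  rw [hl]
  conv_lhs => rw [h1]
  have hcomm : Commute ((b1 ^ u)⁻¹) (b' ^ u) :=
    hNc _ (N.inv_mem (N.zpow_mem (hBN hb1) _)) _ (N.zpow_mem hb' _)
  rw [hcomm.mul_zpow, zpow_mul, mul_assoc]

theorem closure_comm {S : Set X} (h : ∀ a ∈ S, ∀ b ∈ S, a * b = b * a) :
    ∀ a ∈ closure S, ∀ b ∈ closure S, a * b = b * a := by
  have h1 : closure S ≤ centralizer S := by
    rw [closure_le]
    intro a ha
    exact mem_centralizer_iff.mpr (fun b hb => h b hb a ha)
  have h2 : closure S ≤ centralizer (closure S : Set X) := by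
    rw [closure_le]
    intro a ha
    exact mem_centralizer_iff.mpr (fun b hb => (mem_centralizer_iff.mp (h1 hb) a ha).symm)
  intro a ha b hb
  exact (mem_centralizer_iff.mp (h2 ha) b hb).symm

theorem lemB [Finite X] {p : ℕ} (hp : p.Prime) (hp3 : 3 ≤ p) (D R : Subgroup X)
    (hR : IsPGroup p R) (hRD : R ≤ normalizer (D : Set X)) (hcop : (Nat.card D).Coprime p)
    (hfaith : ∀ r ∈ R, (∀ d ∈ D, r * d = d * r) → r = 1)
    (hcl : ∀ a ∈ D, ∀ b ∈ D, ∀ c ∈ D, (a * b * a⁻¹ * b⁻¹) * c = c * (a * b * a⁻¹ * b⁻¹))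
    (e : ℕ) (he : 1 ≤ e) (hexp : ∀ r ∈ R, r ^ (p ^ e) = 1)
    (hyp : ∀ r ∈ R, ∀ A : Subgroup X, A ≤ D → (∀ a ∈ A, ∀ b ∈ A, a * b = b * a) →
      (∀ a ∈ A, r * a * r⁻¹ ∈ A) → ∀ a ∈ A, r ^ (p ^ (e - 1)) * a = a * r ^ (p ^ (e - 1))) :
    ∀ r ∈ R, ∀ s ∈ R, r ^ (p ^ (e - 1)) * s ^ (p ^ (e - 1)) = s ^ (p ^ (e - 1)) * r ^ (p ^ (e - 1)) := by
  classical
  haveI : Fact p.Prime := ⟨hp⟩
  have hrD : ∀ r ∈ R, ∀ d ∈ D, r * d * r⁻¹ ∈ D := fun r hr d hd => (mem_normalizer_iff.1 (hRD hr) d).1 hd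
  -- central elements of D
  have hZ : ∀ r ∈ R, ∀ z ∈ D, (∀ d ∈ D, z * d = d * z) → r ^ (p ^ (e - 1)) * z = z * r ^ (p ^ (e - 1)) := by
    intro r hr z hz hzc
    refine hyp r hr (D ⊓ centralizer (D : Set X)) inf_le_left ?_ ?_ z ⟨hz, mem_centralizer_iff.mpr (fun d hd => (hzc d hd).symm)⟩
    · rintro a ⟨ha, ha'⟩ b ⟨hb, _⟩
      exact (mem_centralizer_iff.mp ha' b hb).symm
    · rintro a ⟨ha, ha'⟩
      refine ⟨hrD r hr a ha, mem_centralizer_iff.mpr (fun d hd => ?_)⟩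
      have h1 := mem_centralizer_iff.mp ha' (r⁻¹ * d * r) (by
        have := hrD r⁻¹ (R.inv_mem hr) d hd
        rwa [inv_inv] at this)
      have h2 : r * (r⁻¹ * d * r * a) * r⁻¹ = r * (a * (r⁻¹ * d * r)) * r⁻¹ := by rw [h1]
      have h3 : r * (r⁻¹ * d * r * a) * r⁻¹ = d * (r * a * r⁻¹) := by group
      have h4 : r * (a * (r⁻¹ * d * r)) * r⁻¹ = r * a * r⁻¹ * d := by group
      rw [← h3, ← h4, h2]
  let S : Set R := {y | ∃ r : R, y = r ^ (p ^ (e - 1))}
  have hYn : (closure S).Normal := by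
    constructor
    intro n hn g
    induction hn using closure_induction with
    | mem y hy =>
      obtain ⟨r, rfl⟩ := hy
      exact subset_closure ⟨g * r * g⁻¹, (conj_pow).symm⟩
    | one => simp
    | mul x y _ _ hx hy =>
      have : g * (x * y) * g⁻¹ = (g * x * g⁻¹) * (g * y * g⁻¹) := by group
      rw [this]; exact (closure S).mul_mem hx hy
    | inv x _ hx =>
      have : g * x⁻¹ * g⁻¹ = (g * x * g⁻¹)⁻¹ := by group
      rw [this]; exact (closure S).inv_mem hx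
  have hpe : p ^ (e - 1) * p = p ^ e := by rw [← pow_succ, Nat.sub_add_cancel he]
  have hfin := alperin hp hp3 hR S (by
    rintro y ⟨r, rfl⟩
    rw [← pow_mul, hpe]
    exact Subtype.ext (hexp r.1 r.2)) (closure S) rfl hYn (by
    intro N hNn hNY hNc hNp
    -- suffices to treat generators
    suffices hmain : ∀ r : R, ∀ n ∈ N, n * r ^ (p ^ (e - 1)) = r ^ (p ^ (e - 1)) * n by
      intro n hn y hy
      induction hy using closure_induction with
      | mem y hy =>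
        obtain ⟨r, rfl⟩ := hy
        exact hmain r n hn
      | one => simp
      | mul x y _ _ hx hy => rw [← mul_assoc, hx, mul_assoc, hy, mul_assoc]
      | inv x _ hx =>
        exact ((show Commute n x from hx).inv_right).eq
    intro r0 n0 hn0
    by_contra hne
    -- move to X
    obtain ⟨r, hr⟩ := r0
    let NX : Subgroup X := N.map R.subtype
    have hNX : ∀ n ∈ NX, ∃ h : n ∈ R, (⟨n, h⟩ : R) ∈ N := by
      rintro _ ⟨n, hn, rfl⟩
      exact ⟨n.2, hn⟩
    have hNXR : NX ≤ R := map_subtype_le N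
    have hNXn : ∀ g ∈ R, ∀ n ∈ NX, g * n * g⁻¹ ∈ NX := by
      rintro g hg _ ⟨n, hn, rfl⟩
      exact ⟨⟨g, hg⟩ * n * ⟨g, hg⟩⁻¹, hNn.conj_mem n hn _, rfl⟩
    have hNXc : ∀ a ∈ NX, ∀ b ∈ NX, a * b = b * a := by
      rintro _ ⟨a, ha, rfl⟩ _ ⟨b, hb, rfl⟩
      exact congrArg Subtype.val (hNc a ha b hb)
    have hNXp : ∀ a ∈ NX, a ^ p = 1 := by
      rintro _ ⟨a, ha, rfl⟩
      exact congrArg Subtype.val (hNp a ha)
    have hYZ : ∀ y ∈ closure S, ∀ z ∈ D, (∀ d ∈ D, z * d = d * z) → (y : X) * z = z * y := by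
      intro y hy
      induction hy using closure_induction with
      | mem y hy =>
        obtain ⟨r, rfl⟩ := hy
        exact hZ r.1 r.2
      | one => intro z _ _; simp
      | mul x y _ _ hx hy =>
        intro z hz hzc
        have h1 : Commute (x : X) z := hx z hz hzc
        have h2 : Commute (y : X) z := hy z hz hzc
        exact (h1.mul_left h2).eq
      | inv x _ hx =>
        intro z hz hzc
        have h1 : Commute (x : X) z := hx z hz hzc
        exact (h1.inv_left).eq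
    have hNXZ : ∀ n ∈ NX, ∀ z ∈ D, (∀ d ∈ D, z * d = d * z) → n * z = z * n := by
      rintro _ ⟨n, hn, rfl⟩ z hz hzc
      exact hYZ n (hNY hn) z hz hzc
    set y : X := r ^ (p ^ (e - 1)) with hy
    have hyR : y ∈ R := R.pow_mem hr _
    have hyp1 : y ^ p = 1 := by rw [hy, ← pow_mul, hpe]; exact hexp r hr
    have hne' : (n0 : X) * y ≠ y * n0 := by
      intro h
      apply hne
      exact Subtype.ext h
    have hn0X : (n0 : X) ∈ NX := ⟨n0, hn0, rfl⟩
    have hNXD : NX ≤ normalizer (D : Set X) := hNXR.trans hRD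
    have hNXcop : (Nat.card NX).Coprime (Nat.card D) := by
      obtain ⟨k, hk⟩ := IsPGroup.iff_card.1 (hR.to_le hNXR)
      rw [hk]
      exact (hcop.symm).pow_left k
    have hNXD' : ∀ n ∈ NX, ∀ d ∈ D, n * d * n⁻¹ ∈ D := fun n hn d hd => hrD n (hNXR hn) d hd
    -- a bad hyperplane
    obtain ⟨B, hBc, ⟨f0, ⟨hf0D, hf0B⟩, n2, hn2, hf0n⟩, b0, hb0, hb0B⟩ : ∃ B ∈ Cop.cycQuot NX,
        (∃ f ∈ D ⊓ centralizer (B : Set X), ∃ n ∈ NX, n * f ≠ f * n) ∧ ∃ b ∈ B, y * b * y⁻¹ ∉ B := by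
      by_contra hcon
      push Not at hcon
      have h1 : D ≤ centralizer {y * n0 * y⁻¹ * (n0 : X)⁻¹} := by
        refine (Cop.le_genT ⟨⟨fun a b => Subtype.ext (hNXc a.1 a.2 b.1 b.2)⟩⟩ _ D rfl hNXD hNXcop).trans ?_
        unfold Cop.genT
        refine iSup₂_le (fun B hB => ?_)
        intro f hf
        rw [mem_centralizer_singleton_iff]
        by_cases hbad : ∃ n ∈ NX, n * f ≠ f * n
        · have h2 := hyper_fix hp NX B hNXc hNXp hB y hyp1 (fun n hn => hNXn y hyR n hn)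
            (hcon B hB ⟨f, hf, hbad.choose, hbad.choose_spec.1, hbad.choose_spec.2⟩) n0 hn0X
          exact ((mem_centralizer_iff.mp hf.2) _ h2).symm
        · push Not at hbad
          exact (hbad _ (NX.mul_mem (hNXn y hyR _ hn0X) (NX.inv_mem hn0X))).symm
      have h2 : y * n0 * y⁻¹ * (n0 : X)⁻¹ = 1 := by
        apply hfaith _ (R.mul_mem (R.mul_mem (R.mul_mem hyR n0.2) (R.inv_mem hyR)) (R.inv_mem n0.2))
        intro d hd
        exact (mem_centralizer_singleton_iff.mp (h1 hd)).symm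
      apply hne'
      have h3 : y * n0 * y⁻¹ * (n0 : X)⁻¹ * (n0 * y) = n0 * y := by rw [h2, one_mul]
      rw [← h3]; group
    have hBN : B ≤ NX := hBc.1
    -- stabilizer
    have hstab : ∀ i : ℕ, (∀ b, b ∈ B ↔ r ^ i * b * (r ^ i)⁻¹ ∈ B) → p ^ e ∣ i := by
      intro i hi
      have h1 : r ^ i ∈ normalizer (B : Set X) := mem_normalizer_iff.mpr hi
      by_contra hnd
      obtain ⟨j, hj, hgcd⟩ := (Nat.dvd_prime_pow hp).mp (Nat.gcd_dvd_right i (p ^ e))
      have hje : j ≤ e - 1 := by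
        by_contra hc
        have : j = e := by omega
        rw [this] at hgcd
        exact hnd (hgcd ▸ Nat.gcd_dvd_left i (p ^ e))
      have h2 : r ^ (p ^ j) ∈ normalizer (B : Set X) := by
        have h3 : r ^ ((Nat.gcd i (p ^ e) : ℕ) : ℤ) = (r ^ i) ^ (Nat.gcdA i (p ^ e)) := by
          rw [Nat.gcd_eq_gcd_ab, zpow_add, zpow_mul, zpow_mul, zpow_natCast, zpow_natCast, hexp r hr,
            one_zpow, mul_one]
        rw [hgcd, zpow_natCast] at h3
        rw [h3]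
        exact (normalizer (B : Set X)).zpow_mem h1 _
      have h3 : y ∈ normalizer (B : Set X) := by
        have : y = (r ^ (p ^ j)) ^ (p ^ (e - 1 - j)) := by
          rw [hy, ← pow_mul, ← pow_add, Nat.add_sub_cancel' hje]
        rw [this]
        exact (normalizer (B : Set X)).pow_mem h2 _
      exact hb0B ((mem_normalizer_iff.mp h3 b0).1 hb0)
    have hstab' : ∀ i : ℕ, ¬ p ^ e ∣ i → ∃ b ∈ B, r ^ i * b * (r ^ i)⁻¹ ∉ B := by
      intro i hi
      by_contra hcon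
      push Not at hcon
      apply hi
      apply hstab
      have hmap : B.map (MulAut.conj (r ^ i)).toMonoidHom ≤ B := by
        rintro _ ⟨b, hb, rfl⟩
        exact hcon b hb
      have hcard : Nat.card (B.map (MulAut.conj (r ^ i)).toMonoidHom) = Nat.card B :=
        (Nat.card_congr (B.equivMapOfInjective _ (MulAut.conj (r ^ i)).injective).toEquiv).symm
      have heq : B.map (MulAut.conj (r ^ i)).toMonoidHom = B :=
        Subgroup.eq_of_le_of_card_ge hmap hcard.ge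
      intro b
      constructor
      · exact hcon b
      · intro hb
        rw [← heq] at hb
        obtain ⟨b', hb', h⟩ := hb
        have : b' = b := by
          have h2 : r ^ i * b' * (r ^ i)⁻¹ = r ^ i * b * (r ^ i)⁻¹ := h
          exact mul_left_cancel (mul_right_cancel h2)
        rw [← this]; exact hb'
    -- the element u
    have hF0N : NX ≤ normalizer ((D ⊓ centralizer (B : Set X) : Subgroup X) : Set X) :=
      Cop.normalizer_inf_centralizer ⟨⟨fun a b => Subtype.ext (hNXc a.1 a.2 b.1 b.2)⟩⟩ hNXD (fun b hb => hBN hb)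
    obtain ⟨u, hu, n3, hn3, hun3⟩ : ∃ u ∈ ⁅D ⊓ centralizer (B : Set X), NX⁆, ∃ n ∈ NX, n * u ≠ u * n := by
      by_contra hcon
      push Not at hcon
      have h1 : ⁅⁅D ⊓ centralizer (B : Set X), NX⁆, NX⁆ = ⊥ := by
        rw [commutator_eq_bot_iff_le_centralizer]
        intro u hu
        exact mem_centralizer_iff.mpr (fun n hn => hcon u hu n hn)
      have h2 := BG.commutator_eq_bot_of_comm_comm hF0N
        (Nat.Coprime.coprime_dvd_right (Subgroup.card_dvd_of_le inf_le_left) hNXcop) h1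
      rw [commutator_eq_bot_iff_le_centralizer] at h2
      exact hf0n (mem_centralizer_iff.mp (h2 ⟨hf0D, hf0B⟩) n2 hn2)
    have huF : u ∈ D ⊓ centralizer (B : Set X) := (le_normalizer_iff_commutator_le_left.1 hF0N) hu
    have huB : ∀ b ∈ B, b * u = u * b := fun b hb => mem_centralizer_iff.mp huF.2 b hb
    -- orthogonality
    have horth : ∀ b' ∈ NX, b' ∉ B → ∀ g ∈ D, b' * g = g * b' → ∀ v ∈ ⁅D ⊓ centralizer (B : Set X), NX⁆,
        g * v = v * g := by
      intro b' hb' hb'B g hg hbg v hv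
      have hle : ⁅D ⊓ centralizer (B : Set X), NX⁆ ≤ centralizer {g} := by
        rw [commutator_le]
        intro f hf n hn
        rw [mem_centralizer_singleton_iff]
        obtain ⟨b, hb, t, hnt⟩ := two_hyper hp NX B hNXc hNXp hBc b' hb' hb'B n hn
        set β := b' ^ t with hβ
        have hβN : β ∈ NX := NX.zpow_mem hb' t
        have hβg : Commute β g := (show Commute b' g from hbg).zpow_left t
        have hfD : f ∈ D := hf.1
        have hfb : Commute b f := mem_centralizer_iff.mp hf.2 b hb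
        have hbβ : Commute b β := hNXc b (hBN hb) β hβN
        have hfgc := hcl f hfD g hg
        have hzβ := hNXZ β hβN (f * g * f⁻¹ * g⁻¹) (D.mul_mem (D.mul_mem (D.mul_mem hfD hg) (D.inv_mem hfD)) (D.inv_mem hg)) hfgc
        set z := f * g * f⁻¹ * g⁻¹ with hz
        have hf'D : β * f * β⁻¹ ∈ D := hNXD' β hβN f hfD
        set f' := β * f * β⁻¹ with hf'
        have hnf : n * f⁻¹ * n⁻¹ = f'⁻¹ := by
          rw [hnt, hf']
          have : b * β * f⁻¹ * (b * β)⁻¹ = β * (b * f⁻¹ * b⁻¹) * β⁻¹ := by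
            rw [hbβ.eq]; group
          rw [this, (hfb.inv_right).eq]; group
        have hfg : f * g * f⁻¹ = z * g := by rw [hz]; group
        have hf'g : f' * g * f'⁻¹ = z * g := by
          have h1 : f' * g * f'⁻¹ = β * (f * (β⁻¹ * g * β) * f⁻¹) * β⁻¹ := by rw [hf']; group
          have h2 : β⁻¹ * g * β = g := by rw [mul_assoc, ← hβg.eq]; group
          rw [h1, h2, hfg]
          have h3 : β * (z * g) * β⁻¹ = (β * z) * g * β⁻¹ := by group
          rw [h3, hzβ, mul_assoc z, hβg.eq]; group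
        have hf'g2 : f'⁻¹ * g * f' = z⁻¹ * g := by
          have h1 : f' * (z⁻¹ * g) * f'⁻¹ = g := by
            have h2 : f' * z⁻¹ = z⁻¹ * f' := ((show Commute z f' from hfgc f' hf'D).inv_left).eq.symm
            calc f' * (z⁻¹ * g) * f'⁻¹ = (f' * z⁻¹) * g * f'⁻¹ := by group
              _ = z⁻¹ * (f' * g * f'⁻¹) := by rw [h2]; group
              _ = g := by rw [hf'g]; group
          calc f'⁻¹ * g * f' = f'⁻¹ * (f' * (z⁻¹ * g) * f'⁻¹) * f' := by rw [h1]
            _ = z⁻¹ * g := by group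
        have hcom : ⁅f, n⁆ = f * f'⁻¹ := by
          rw [commutatorElement_def, ← hnf]; group
        rw [hcom]
        have h4 : f * f'⁻¹ * g * (f * f'⁻¹)⁻¹ = g := by
          have h2 : f * z⁻¹ = z⁻¹ * f := ((show Commute z f from hfgc f hfD).inv_left).eq.symm
          calc f * f'⁻¹ * g * (f * f'⁻¹)⁻¹ = f * (f'⁻¹ * g * f') * f⁻¹ := by group
            _ = (f * z⁻¹) * g * f⁻¹ := by rw [hf'g2]; group
            _ = z⁻¹ * (f * g * f⁻¹) := by rw [h2]; group
            _ = g := by rw [hfg]; group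
        exact mul_inv_eq_iff_eq_mul.mp h4
      exact (mem_centralizer_singleton_iff.mp (hle hv)).symm
    -- the orbit of u
    have hrk : ∀ k : ℕ, ∀ d ∈ D, r ^ k * d * (r ^ k)⁻¹ ∈ D := fun k d hd => hrD _ (R.pow_mem hr k) d hd
    have hcomm0 : ∀ k : ℕ, (r ^ k * u * (r ^ k)⁻¹) * u = u * (r ^ k * u * (r ^ k)⁻¹) := by
      intro k
      by_cases hk : p ^ e ∣ k
      · obtain ⟨c, rfl⟩ := hk
        rw [pow_mul, hexp r hr, one_pow]; simp
      · obtain ⟨b, hb, hbB⟩ := hstab' k hk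
        refine horth (r ^ k * b * (r ^ k)⁻¹) (hNXn _ (R.pow_mem hr k) b (hBN hb)) hbB _ (hrk k u huF.1) ?_ u hu
        calc r ^ k * b * (r ^ k)⁻¹ * (r ^ k * u * (r ^ k)⁻¹) = r ^ k * (b * u) * (r ^ k)⁻¹ := by group
          _ = r ^ k * (u * b) * (r ^ k)⁻¹ := by rw [huB b hb]
          _ = _ := by group
    have hcommij : ∀ i j : ℕ, i ≤ j → Commute (r ^ i * u * (r ^ i)⁻¹) (r ^ j * u * (r ^ j)⁻¹) := by
      intro i j hij
      obtain ⟨k, rfl⟩ := Nat.exists_eq_add_of_le hij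
      have h1 := hcomm0 k
      have e1 : r ^ (i + k) * u * (r ^ (i + k))⁻¹ = r ^ i * (r ^ k * u * (r ^ k)⁻¹) * (r ^ i)⁻¹ := by
        rw [pow_add]; group
      rw [e1]
      show _ * _ = _ * _
      calc r ^ i * u * (r ^ i)⁻¹ * (r ^ i * (r ^ k * u * (r ^ k)⁻¹) * (r ^ i)⁻¹)
          = r ^ i * (u * (r ^ k * u * (r ^ k)⁻¹)) * (r ^ i)⁻¹ := by group
        _ = r ^ i * ((r ^ k * u * (r ^ k)⁻¹) * u) * (r ^ i)⁻¹ := by rw [h1]
        _ = _ := by group
    let A : Subgroup X := closure (Set.range (fun i : ℕ => r ^ i * u * (r ^ i)⁻¹))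
    have hAD : A ≤ D := by
      rw [closure_le]
      rintro _ ⟨i, rfl⟩
      exact hrk i u huF.1
    have hAc : ∀ a ∈ A, ∀ b ∈ A, a * b = b * a := by
      apply closure_comm
      rintro _ ⟨i, rfl⟩ _ ⟨j, rfl⟩
      rcases le_total i j with h | h
      · exact (hcommij i j h).eq
      · exact (hcommij j i h).symm.eq
    have hAr : ∀ a ∈ A, r * a * r⁻¹ ∈ A := by
      intro a ha
      induction ha using closure_induction with
      | mem a ha =>
        obtain ⟨i, rfl⟩ := ha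
        refine subset_closure ⟨i + 1, ?_⟩
        show r ^ (i+1) * u * (r ^ (i+1))⁻¹ = _
        rw [pow_succ']; group
      | one => simp
      | mul a b _ _ ha hb =>
        have : r * (a * b) * r⁻¹ = (r * a * r⁻¹) * (r * b * r⁻¹) := by group
        rw [this]; exact A.mul_mem ha hb
      | inv a _ ha =>
        have : r * a⁻¹ * r⁻¹ = (r * a * r⁻¹)⁻¹ := by group
        rw [this]; exact A.inv_mem ha
    have hyu := hyp r hr A hAD hAc hAr u (subset_closure ⟨0, by simp⟩)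
    rw [← hy] at hyu
    -- contradiction
    apply hun3
    obtain ⟨b, hb, t, hnt⟩ := two_hyper hp NX B hNXc hNXp hBc (y * b0 * y⁻¹) (hNXn y hyR b0 (hBN hb0)) hb0B n3 hn3
    have h1 : Commute (y * b0 * y⁻¹) u := by
      have h2 : u = y * u * y⁻¹ := by rw [hyu]; group
      show _ * _ = _ * _
      calc y * b0 * y⁻¹ * u = y * b0 * y⁻¹ * (y * u * y⁻¹) := by rw [← h2]
        _ = y * (b0 * u) * y⁻¹ := by group
        _ = y * (u * b0) * y⁻¹ := by rw [huB b0 hb0]
        _ = (y * u * y⁻¹) * (y * b0 * y⁻¹) := by group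
        _ = u * (y * b0 * y⁻¹) := by rw [← h2]
    rw [hnt]
    exact ((show Commute b u from huB b hb).mul_left (h1.zpow_left t)).eq)
  intro r hr s hs
  have := hfin (⟨r, hr⟩ ^ (p ^ (e - 1))) (subset_closure ⟨_, rfl⟩) (⟨s, hs⟩ ^ (p ^ (e - 1))) (subset_closure ⟨_, rfl⟩)
  exact congrArg Subtype.val this

end

end Cfsg.Agent.H34.HL
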