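import Cfsg.Agent.H34.HL1
import Cfsg.Agent.Solv.Frattini
import Cfsg.Agent.Cop.Basic

set_option autoImplicit false

open Cfsg

namespace Cfsg.Agent.H34.HL

open Subgroup
open scoped commutatorElement

universe u

/-- `p`-elements have order dividing `p ^ e` -/
def Ex (p e : ℕ) (G : Type*) [Group G] : Prop := ∀ g : G, (∃ k : ℕ, g ^ p ^ k = 1) → g ^ p ^ e = 1

def quotAut (K : Type*) [Group K] (C : Subgroup K) [hC : C.Characteristic] [C.Normal] :
    MulAut K →* MulAut (K ⧸ C) where
  toFun α := QuotientGroup.congr C C α (Subgroup.characteristic_iff_map_eq.mp hC α)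
  map_one' := by ext ⟨x⟩; rfl
  map_mul' a b := by ext ⟨x⟩; rfl

section
variable {G : Type*} [Group G]

/-- the product `q q^g q^(g^2) ...` -/
def nseq (Q : Subgroup G) [Q.Normal] (q : Q) (g : G) : ℕ → Q
  | 0 => 1
  | m + 1 => nseq Q q g m * MulAut.conjNormal (g ^ m) q

theorem nseq_spec (Q : Subgroup G) [Q.Normal] (q : Q) (g : G) (m : ℕ) :
    ((q : G) * g) ^ m = (nseq Q q g m : G) * g ^ m := by
  induction m with
  | zero => simp [nseq]
  | succ m ih =>
    rw [pow_succ, ih]
    show _ = ((nseq Q q g m * MulAut.conjNormal (g ^ m) q : Q) : G) * g ^ (m + 1)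
    rw [Subgroup.coe_mul, MulAut.conjNormal_apply, pow_succ]
    group

theorem nseq_map (Q : Subgroup G) [Q.Normal] (q : Q) (g : G) {V : Type*} [CommGroup V] (π : Q →* V)
    (F : G →* MulAut V) (h : ∀ g q, F g (π q) = π (MulAut.conjNormal g q)) (m : ℕ) :
    π (nseq Q q g m) = ∏ i ∈ Finset.range m, ((F g) ^ i) (π q) := by
  induction m with
  | zero => simp [nseq]
  | succ m ih =>
    rw [Finset.prod_range_succ, ← ih, ← map_pow, h, ← map_mul]
    rfl

/-- splitting off the `p'`-part -/
theorem isPGroup_of_no_coprime [Finite G] {p : ℕ} [Fact p.Prime] (C : Subgroup G)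
    (h : ∀ c ∈ C, (orderOf c).Coprime p → c = 1) : IsPGroup p C := by
  have hp : p.Prime := Fact.out
  rintro ⟨c, hc⟩
  refine ⟨(orderOf c).factorization p, ?_⟩
  apply Subtype.ext
  show c ^ p ^ (orderOf c).factorization p = 1
  apply h _ (C.pow_mem hc _)
  have hm := Nat.ordProj_mul_ordCompl_eq_self (orderOf c) p
  have h1 : orderOf (c ^ p ^ (orderOf c).factorization p) = orderOf c / p ^ (orderOf c).factorization p := by
    rw [orderOf_pow]
    congr 1
    exact Nat.gcd_eq_right (Nat.ordProj_dvd _ _)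
  rw [h1]
  exact (Nat.coprime_ordCompl hp (orderOf_pos c).ne').symm

end

theorem frame {G : Type u} [Group G] [Finite G] {p : ℕ} [Fact p.Prime] (hsol : IsPSolvable p G)
    (hcore : pPrimeCore p G = ⊥) : ∃ (V : Type u) (_ : CommGroup V) (_ : Finite V)
      (F : G →* MulAut V) (π : ↥(pCore p G) →* V), (∀ v : V, v ^ p = 1) ∧ F.ker = pCore p G ∧
      Function.Surjective π ∧ ∀ g q, F g (π q) = π (MulAut.conjNormal g q) := by
  have hQp : IsPGroup p (pCore p G) := Solv.pCore_isPGroup p
  set Q := pCore p G with hQ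
  letI : CommGroup (Q ⧸ frattini Q) :=
    { (inferInstance : Group (Q ⧸ frattini Q)) with
      mul_comm := by
        rintro ⟨a⟩ ⟨b⟩
        have h1 := Solv.commutator_le_frattini_of_pGroup hQp
        have h2 : (a * b)⁻¹ * (b * a) ∈ frattini Q := by
          apply h1
          have : (a * b)⁻¹ * (b * a) = ⁅b⁻¹, a⁻¹⁆ := by
            rw [commutatorElement_def]; group
          rw [this]
          exact Subgroup.commutator_mem_commutator (Subgroup.mem_top _) (Subgroup.mem_top _)
        exact QuotientGroup.eq.mpr h2 }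
  let F : G →* MulAut (Q ⧸ frattini Q) := (quotAut Q (frattini Q)).comp (MulAut.conjNormal (H := Q))
  let π : Q →* Q ⧸ frattini Q := QuotientGroup.mk' (frattini Q)
  have hπ : Function.Surjective π := QuotientGroup.mk'_surjective _
  have hFπ : ∀ g q, F g (π q) = π (MulAut.conjNormal g q) := fun g q => rfl
  refine ⟨Q ⧸ frattini Q, inferInstance, inferInstance, F, π, ?_, ?_, hπ, hFπ⟩
  · rintro ⟨a⟩
    exact (QuotientGroup.eq_one_iff (a ^ p)).mpr (Solv.pow_mem_frattini_of_pGroup hQp a)
  · apply le_antisymm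
    · apply Solv.le_pCore inferInstance
      apply isPGroup_of_no_coprime
      intro c hc hcop
      have h1 : Subgroup.zpowers c ≤ Subgroup.centralizer (Q : Set G) := by
        apply Cop.le_centralizer_of_frattini
        · exact le_trans le_top (Subgroup.normalizer_eq_top_iff.2 inferInstance).ge
        · rw [Nat.card_zpowers]
          obtain ⟨n, hn⟩ := IsPGroup.iff_card.1 (hQp.to_subgroup (frattini Q))
          rw [hn]
          exact Nat.Coprime.pow_right _ hcop
        · rintro a ⟨m, rfl⟩ k hk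
          have h2 : F (c ^ m) = 1 := by
            rw [map_zpow, show F c = 1 from hc, one_zpow]
          have h3 := hFπ (c ^ m) ⟨k, hk⟩
          rw [h2] at h3
          have h4 : (MulAut.conjNormal (c ^ m) ⟨k, hk⟩ : Q) * (⟨k, hk⟩ : Q)⁻¹ ∈ frattini Q := by
            rw [← QuotientGroup.eq_one_iff]
            show π _ = 1
            rw [map_mul, ← h3, map_inv]
            exact mul_inv_cancel _
          exact ⟨_, h4, rfl⟩
      have h2 : c ∈ Q := H76.centralizer_pCore_le hsol hcore (h1 (Subgroup.mem_zpowers c))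
      have h3 : orderOf c ∣ Nat.card Q := by
        rw [← Subgroup.orderOf_mk c h2]; exact orderOf_dvd_natCard _
      obtain ⟨n, hn⟩ := IsPGroup.iff_card.1 hQp
      rw [hn] at h3
      exact orderOf_eq_one_iff.1 (Nat.eq_one_of_dvd_coprimes (Nat.Coprime.pow_right n hcop) dvd_rfl h3)
    · intro q hq
      rw [MonoidHom.mem_ker]
      ext v
      obtain ⟨x, rfl⟩ := hπ v
      rw [hFπ]
      have : (MulAut.conjNormal q x : Q) = ⟨q, hq⟩ * x * ⟨q, hq⟩⁻¹ := by
        apply Subtype.ext
        rw [MulAut.conjNormal_apply]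
        rfl
      rw [this, map_mul, map_mul, map_inv, mul_comm (π ⟨q, hq⟩), mul_inv_cancel_right]
      rfl

theorem k1 {G : Type*} [Group G] [Finite G] {p : ℕ} [Fact p.Prime] {V : Type*} [CommGroup V]
    (F : G →* MulAut V) (π : ↥(pCore p G) →* V) (he : ∀ v : V, v ^ p = 1)
    (hπ : Function.Surjective π) (hF : ∀ g q, F g (π q) = π (MulAut.conjNormal g q)) (e : ℕ)
    (hE : Ex p e G) (g : G) (hg : ∃ k : ℕ, g ^ p ^ k = 1) (v : V) :
    (dl (F g))^[p ^ e - 1] v = 1 := by
  obtain ⟨q, rfl⟩ := hπ v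
  rw [← nrm he, ← nseq_map (pCore p G) q g π F hF]
  have h1 := nseq_spec (pCore p G) q g (p ^ e)
  have h2 : ∃ k : ℕ, ((q : G) * g) ^ p ^ k = 1 := by
    obtain ⟨k, hk⟩ := hg
    have h3 := nseq_spec (pCore p G) q g (p ^ k)
    rw [hk, mul_one] at h3
    obtain ⟨j, hj⟩ := Solv.pCore_isPGroup (G := G) p (nseq (pCore p G) q g (p ^ k))
    refine ⟨k + j, ?_⟩
    rw [pow_add, pow_mul, h3]
    exact congrArg Subtype.val hj
  rw [hE _ h2, hE g hg, mul_one] at h1
  have h3 : nseq (pCore p G) q g (p ^ e) = 1 := Subtype.ext h1.symm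
  rw [h3, map_one]

end Cfsg.Agent.H34.HL
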