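import Cfsg.Agent.H34.HL4
import Cfsg.Agent.H34.HL5
import Cfsg.Agent.Cop.MinAct
import Cfsg.Agent.H62.Mazurov
import Cfsg.Agent.H79.PSolvDual

set_option autoImplicit false

open Cfsg

namespace Cfsg.Agent.H34.HL

open Subgroup
open scoped commutatorElement

theorem pow_mem_of_zpow {X : Type*} [Group X] {p : ℕ} (hp : p.Prime) (K : Subgroup X) (g : X) (e : ℕ)
    (hg : g ^ p ^ e = 1) (k : ℤ) (hk : g ^ k ∈ K) (hne : g ^ k ≠ 1) : g ^ (p ^ (e - 1)) ∈ K := by
  have hd : Int.gcd k ((p ^ e : ℕ) : ℤ) ∣ p ^ e := by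
    have := Int.gcd_dvd_right k ((p ^ e : ℕ) : ℤ)
    exact_mod_cast this
  obtain ⟨j, hj, hgcd⟩ := (Nat.dvd_prime_pow hp).mp hd
  have hje : j ≤ e - 1 := by
    by_contra hc
    have h1 : j = e := by omega
    rw [h1] at hgcd
    apply hne
    have h2 : ((p ^ e : ℕ) : ℤ) ∣ k := by
      rw [← hgcd]; exact Int.gcd_dvd_left k _
    obtain ⟨c, rfl⟩ := h2
    rw [zpow_mul, zpow_natCast, hg, one_zpow]
  have h2 : g ^ (p ^ j) ∈ K := by
    have h3 : g ^ ((Int.gcd k ((p ^ e : ℕ) : ℤ) : ℕ) : ℤ) = (g ^ k) ^ (Int.gcdA k ((p ^ e : ℕ) : ℤ)) := by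
      rw [Int.gcd_eq_gcd_ab, zpow_add, zpow_mul, zpow_mul g ((p ^ e : ℕ) : ℤ), zpow_natCast, hg,
        one_zpow, mul_one]
    rw [hgcd, zpow_natCast] at h3
    rw [h3]
    exact K.zpow_mem hk _
  have : g ^ (p ^ (e - 1)) = (g ^ (p ^ j)) ^ (p ^ (e - 1 - j)) := by
    rw [← pow_mul, ← pow_add, Nat.add_sub_cancel' hje]
  rw [this]
  exact K.pow_mem h2 _

theorem central_of_abelian {H : Type*} [Group H] [Finite H] {p : ℕ} [Fact p.Prime]
    (hsol : IsPSolvable p H) {V : Type*} [CommGroup V] [Finite V] (he : ∀ v : V, v ^ p = 1)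
    (f : H →* MulAut V) (hf : Function.Injective f) (e : ℕ) (he1 : 1 ≤ e) (φ : H)
    (hφ : φ ^ p ^ e = 1) (hd : ∀ v, (dl (f φ))^[p ^ e - 1] v = 1) (A : Subgroup H)
    (hAp : (Nat.card A).Coprime p) (hAc : ∀ a ∈ A, ∀ b ∈ A, a * b = b * a)
    (hAφ : ∀ a ∈ A, φ * a * φ⁻¹ ∈ A) : ∀ a ∈ A, φ ^ (p ^ (e - 1)) * a = a * φ ^ (p ^ (e - 1)) := by
  classical
  have hp : p.Prime := Fact.out
  by_contra hcon
  push Not at hcon
  obtain ⟨a0, ha0, hne0⟩ := hcon
  have hne1 : φ ^ (p ^ (e - 1)) ≠ 1 := by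
    intro h; rw [h] at hne0; simp at hne0
  obtain ⟨e', rfl⟩ : ∃ e', e = e' + 1 := ⟨e - 1, by omega⟩
  simp only [Nat.add_sub_cancel] at hne1 hne0
  have hord : orderOf φ = p ^ (e' + 1) := orderOf_eq_prime_pow hne1 hφ
  have hφN : φ ∈ normalizer (A : Set H) := Subgroup.mem_normalizer_fintype hAφ
  set S : Subgroup H := A ⊔ zpowers φ with hS
  have hAS : A ≤ S := le_sup_left
  have hφS : φ ∈ S := mem_sup_right (mem_zpowers φ)
  have hSN : S ≤ normalizer (A : Set H) := sup_le le_normalizer (by rwa [zpowers_le])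
  have hAn : (A.subgroupOf S).Normal := (Subgroup.normal_subgroupOf_iff_le_normalizer hAS).mpr hSN
  -- elements of S
  have hSel : ∀ s ∈ S, ∃ a ∈ A, ∃ k : ℤ, s = a * φ ^ k := by
    intro s hs
    have h1 : S = (zpowers φ) ⊔ A := by rw [hS, sup_comm]
    have h2 : (⟨s, hs⟩ : S) ∈ (A.subgroupOf S) ⊔ ((zpowers φ).subgroupOf S) := by
      rw [← Subgroup.subgroupOf_sup hAS le_sup_right]
      exact (Subgroup.mem_subgroupOf).mpr hs
    obtain ⟨a, ha, b, hb, hab⟩ := Subgroup.mem_sup_of_normal_left.mp h2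
    obtain ⟨k, hk⟩ := mem_zpowers_iff.mp (Subgroup.mem_subgroupOf.mp hb)
    refine ⟨a, Subgroup.mem_subgroupOf.mp ha, k, ?_⟩
    rw [hk]
    exact (congrArg Subtype.val hab).symm
  have hSsol : IsPSolvable p S := H76.isPSolvable_subgroup S hsol
  have hcore : pCore p S = ⊥ := by
    rw [eq_bot_iff]
    by_contra hcon
    rw [SetLike.not_le_iff_exists] at hcon
    obtain ⟨o, ho, ho1⟩ := hcon
    rw [Subgroup.mem_bot] at ho1
    have hOp : IsPGroup p (pCore p S) := Solv.pCore_isPGroup p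
    have hOn : (pCore p S).Normal := inferInstance
    have hcardA : (Nat.card (A.subgroupOf S)).Coprime p := by
      rw [Nat.card_congr (Subgroup.subgroupOfEquivOfLe hAS).toEquiv]
      exact hAp
    have hdisj : Disjoint (pCore p S) (A.subgroupOf S) := by
      rw [disjoint_iff]
      obtain ⟨n, hn⟩ := IsPGroup.iff_card.1 hOp
      apply Subgroup.inf_eq_bot_of_coprime
      rw [hn]
      exact (hcardA.symm).pow_left n
    have hcomm : ∀ o ∈ pCore p S, ∀ a (ha : a ∈ A), (o : H) * a = a * o := by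
      intro o ho a ha
      exact congrArg Subtype.val (Subgroup.commute_of_normal_of_disjoint _ _ hOn hAn hdisj o ⟨a, hAS ha⟩ ho
        (Subgroup.mem_subgroupOf.mpr ha)).eq
    -- o is a power of φ
    obtain ⟨a, ha, k, hok⟩ := hSel o o.2
    have hsup : IsPGroup p ((pCore p S ⊔ zpowers (⟨φ, hφS⟩ : S) : Subgroup S)) := by
      apply IsPGroup.to_sup_of_normal_left hOp
      apply IsPGroup.of_card (n := e' + 1)
      rw [Nat.card_zpowers, Subgroup.orderOf_mk, hord]
    have ha1 : a = 1 := by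
      have h1 : (⟨a, hAS ha⟩ : S) ∈ (pCore p S ⊔ zpowers (⟨φ, hφS⟩ : S) : Subgroup S) ⊓ A.subgroupOf S := by
        refine ⟨?_, Subgroup.mem_subgroupOf.mpr ha⟩
        have h2 : (⟨a, hAS ha⟩ : S) = o * ((⟨φ, hφS⟩ : S) ^ k)⁻¹ := by
          apply Subtype.ext
          show a = o * (φ ^ k)⁻¹
          rw [hok]; group
        rw [h2]
        exact Subgroup.mul_mem (pCore p S ⊔ zpowers (⟨φ, hφS⟩ : S)) (mem_sup_left ho)
          (Subgroup.inv_mem _ (mem_sup_right (Subgroup.zpow_mem _ (mem_zpowers _) _)))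
      have h2 : (pCore p S ⊔ zpowers (⟨φ, hφS⟩ : S) : Subgroup S) ⊓ A.subgroupOf S = ⊥ := by
        obtain ⟨n, hn⟩ := IsPGroup.iff_card.1 hsup
        apply Subgroup.inf_eq_bot_of_coprime
        rw [hn]
        exact (hcardA.symm).pow_left n
      rw [h2, Subgroup.mem_bot] at h1
      exact congrArg Subtype.val h1
    rw [ha1, one_mul] at hok
    have h3 : φ ^ (p ^ (e' + 1 - 1)) ∈ (pCore p S).map S.subtype := by
      apply pow_mem_of_zpow hp _ φ (e' + 1) hφ k
      · rw [← hok]; exact ⟨o, ho, rfl⟩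
      · rw [← hok]
        intro h
        exact ho1 (Subtype.ext h)
    obtain ⟨o', ho', h4⟩ := h3
    apply hne0
    have h5 := hcomm o' ho' a0 ha0
    have h6 : (o' : H) = φ ^ p ^ e' := h4
    rw [h6] at h5
    exact h5
  have hVn : Nontrivial V := by
    by_contra h
    rw [not_nontrivial_iff_subsingleton] at h
    apply hne1
    apply hf
    ext v
    exact Subsingleton.elim _ _
  obtain ⟨r, hr, hr2⟩ := tb he (f.comp S.subtype) (hf.comp S.subtype_injective) hSsol hcore ⟨φ, hφS⟩ (e' + 1)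
    (by rw [Subgroup.orderOf_mk, hord])
  rcases hr2 with rfl | ⟨n₀, q, m, h1, h2, h3, h4, h5, h6, h7⟩
  · obtain ⟨w, hw⟩ := hr (p ^ (e' + 1) - 1) (by have := pow_pos hp.pos (e' + 1); omega)
    exact hw (hd w)
  · haveI : Fact q.Prime := ⟨h3⟩
    have hqp : q ≠ p := by
      rintro rfl
      have h8 : q ∣ q ^ n₀ := dvd_pow_self q (by omega)
      have h9 : q ∣ q ^ n₀ - 1 := by rw [h5]; exact dvd_pow_self q (by omega)
      have h10 : 0 < q ^ n₀ := pow_pos h3.pos _
      have h11 := Nat.dvd_sub h8 h9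
      rw [Nat.sub_sub_self h10] at h11
      exact h3.one_lt.ne' (Nat.dvd_one.mp h11)
    obtain ⟨Q⟩ : Nonempty (Sylow q S) := inferInstance
    apply h6 Q
    have hQA : ∀ x ∈ (Q : Subgroup S), (x : H) ∈ A := by
      intro x hx
      obtain ⟨j, hj⟩ := Q.isPGroup' ⟨x, hx⟩
      have hj' : x ^ q ^ j = 1 := congrArg Subtype.val hj
      let π := QuotientGroup.mk' (A.subgroupOf S)
      obtain ⟨a, ha, k, hxk⟩ := hSel x x.2
      have h8 : π x = π ⟨φ, hφS⟩ ^ k := by
        have h9 : x = (⟨a, hAS ha⟩ : S) * (⟨φ, hφS⟩ : S) ^ k := Subtype.ext hxk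
        rw [h9, map_mul, map_zpow]
        have : π (⟨a, hAS ha⟩ : S) = 1 := (QuotientGroup.eq_one_iff _).mpr (Subgroup.mem_subgroupOf.mpr ha)
        rw [this, one_mul]
      have h9 : π x ^ p ^ (e' + 1) = 1 := by
        rw [h8, ← zpow_natCast, ← zpow_mul, mul_comm, zpow_mul, zpow_natCast, ← map_pow]
        have : (⟨φ, hφS⟩ : S) ^ p ^ (e' + 1) = 1 := Subtype.ext hφ
        rw [this, map_one, one_zpow]
      have h10 : π x ^ q ^ j = 1 := by rw [← map_pow, hj', map_one]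
      have h11 : orderOf (π x) = 1 := by
        apply Nat.eq_one_of_dvd_coprimes _ (orderOf_dvd_of_pow_eq_one h9) (orderOf_dvd_of_pow_eq_one h10)
        exact Nat.Coprime.pow _ _ ((Nat.coprime_primes hp h3).mpr (Ne.symm hqp))
      rw [orderOf_eq_one_iff] at h11
      exact Subgroup.mem_subgroupOf.mp ((QuotientGroup.eq_one_iff _).mp h11)
    exact ⟨⟨fun x y => Subtype.ext (Subtype.ext (hAc _ (hQA x.1 x.2) _ (hQA y.1 y.2)))⟩⟩

/-- translation of the orthogonality lemma to an action by conjugation -/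
theorem transl {H : Type*} [Group H] [Finite H] {p : ℕ} (hp : p.Prime) (hp3 : 3 ≤ p) (D R : Subgroup H)
    (hR : IsPGroup p R) (hRD : R ≤ normalizer (D : Set H)) (hcop : (Nat.card D).Coprime p)
    (hcl : ∀ a ∈ D, ∀ b ∈ D, ∀ c ∈ D, (a * b * a⁻¹ * b⁻¹) * c = c * (a * b * a⁻¹ * b⁻¹))
    (e : ℕ) (he : 1 ≤ e) (hexp : ∀ r ∈ R, r ^ (p ^ e) = 1)
    (hyp : ∀ r ∈ R, ∀ A : Subgroup H, A ≤ D → (∀ a ∈ A, ∀ b ∈ A, a * b = b * a) →
      (∀ a ∈ A, r * a * r⁻¹ ∈ A) → ∀ a ∈ A, r ^ (p ^ (e - 1)) * a = a * r ^ (p ^ (e - 1)))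
    (f : R →* MulAut D) (hf : ∀ r d, ((f r d : D) : H) = r * d * (r : H)⁻¹) :
    ∀ r : R, ∀ s : R, f (r ^ (p ^ (e - 1))) * f (s ^ (p ^ (e - 1))) = f (s ^ (p ^ (e - 1))) * f (r ^ (p ^ (e - 1))) := by
  classical
  let Rb : Subgroup (MulAut D) := f.range
  haveI : Finite Rb := inferInstance
  let Γ := D ⋊[Rb.subtype] Rb
  haveI : Finite Γ := Finite.of_equiv _ (SemidirectProduct.equivProd (φ := Rb.subtype)).symm
  let il : D →* Γ := SemidirectProduct.inl
  let ir : Rb →* Γ := SemidirectProduct.inr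
  have hconj : ∀ (a : Rb) (g : D), ir a * il g * (ir a)⁻¹ = il ((a : MulAut D) g) := by
    intro a g
    show (SemidirectProduct.inr a : Γ) * SemidirectProduct.inl g * (SemidirectProduct.inr a)⁻¹ = _
    rw [← map_inv]
    exact (SemidirectProduct.inl_aut a g).symm
  have hil : Function.Injective il := SemidirectProduct.inl_injective
  have hir : Function.Injective ir := SemidirectProduct.inr_injective
  have hRbp : IsPGroup p Rb := IsPGroup.of_surjective hR f.rangeRestrict f.rangeRestrict_surjective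
  have hpull : ∀ (b : Rb), ∃ r : R, f r = b := fun b => b.2
  have key := lemB hp hp3 il.range ir.range (IsPGroup.of_surjective hRbp ir.rangeRestrict ir.rangeRestrict_surjective)
    (by
      rintro _ ⟨a, rfl⟩
      apply Subgroup.mem_normalizer_fintype
      rintro _ ⟨g, rfl⟩
      exact ⟨_, (hconj a g).symm⟩)
    (by
      rw [← Nat.card_congr (MonoidHom.ofInjective hil).toEquiv]
      exact hcop)
    (by
      rintro _ ⟨a, rfl⟩ h
      have h1 : a = 1 := by
        apply Subtype.ext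
        ext d
        have h2 := h (il d) ⟨d, rfl⟩
        have h3 := hconj a d
        rw [h2, mul_inv_cancel_right] at h3
        exact congrArg Subtype.val (hil h3).symm
      rw [h1, map_one])
    (by
      rintro _ ⟨a, rfl⟩ _ ⟨b, rfl⟩ _ ⟨c, rfl⟩
      rw [← map_mul, ← map_inv, ← map_mul, ← map_inv, ← map_mul, ← map_mul, ← map_mul]
      congr 1
      exact Subtype.ext (hcl a.1 a.2 b.1 b.2 c.1 c.2))
    e he (by
      rintro _ ⟨a, rfl⟩
      obtain ⟨r, hr⟩ := hpull a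
      rw [← map_pow]
      have : a ^ p ^ e = 1 := by
        apply Subtype.ext
        show (a : MulAut D) ^ p ^ e = 1
        rw [← hr, ← map_pow]
        have : r ^ p ^ e = 1 := Subtype.ext (hexp r.1 r.2)
        rw [this, map_one]
      rw [this, map_one])
    (by
      rintro _ ⟨a, rfl⟩ A hA hAc hAr x hx
      obtain ⟨r, hr⟩ := hpull a
      obtain ⟨d, rfl⟩ := hA hx
      let A1 : Subgroup H := (A.comap il).map D.subtype
      have h1 := hyp r.1 r.2 A1 (map_subtype_le _) (by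
        rintro _ ⟨u, hu, rfl⟩ _ ⟨v, hv, rfl⟩
        have h2 : il u * il v = il v * il u := hAc _ hu _ hv
        rw [← map_mul, ← map_mul] at h2
        exact congrArg Subtype.val (hil h2)) (by
        rintro _ ⟨u, hu, rfl⟩
        refine ⟨f r u, ?_, hf r u⟩
        show il (f r u) ∈ A
        rw [hr, ← hconj]
        exact hAr _ hu) d ⟨d, hx, rfl⟩
      have h2 : f (r ^ p ^ (e - 1)) d = d := by
        apply Subtype.ext
        rw [hf]
        show (r : H) ^ p ^ (e - 1) * d * ((r : H) ^ p ^ (e - 1))⁻¹ = d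
        rw [h1, mul_inv_cancel_right]
      have h3 := hconj (a ^ p ^ (e - 1)) d
      have h4 : ((a ^ p ^ (e - 1) : Rb) : MulAut D) = f (r ^ p ^ (e - 1)) := by
        rw [map_pow, hr]; rfl
      rw [h4, h2, mul_inv_eq_iff_eq_mul, map_pow] at h3
      exact h3)
  intro r s
  have h1 := key (ir ⟨f r, ⟨r, rfl⟩⟩) ⟨_, rfl⟩ (ir ⟨f s, ⟨s, rfl⟩⟩) ⟨_, rfl⟩
  rw [← map_pow, ← map_pow, ← map_mul, ← map_mul] at h1
  have h2 := congrArg Subtype.val (hir h1)
  rw [map_pow, map_pow]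
  exact h2

end Cfsg.Agent.H34.HL
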