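import Cfsg.Agent.H34.HL6

set_option autoImplicit false

open Cfsg

namespace Cfsg.Agent.H34.HL

open Subgroup
open scoped commutatorElement

theorem comm_powers {H : Type*} [Group H] [Finite H] {p : ℕ} [Fact p.Prime] (hp3 : 3 ≤ p)
    (hsol : IsPSolvable p H) (hcore : pCore p H = ⊥) {V : Type*} [CommGroup V] [Finite V]
    (he : ∀ v : V, v ^ p = 1) (f : H →* MulAut V) (hf : Function.Injective f) (e : ℕ) (he1 : 1 ≤ e)
    (hE : Ex p e H) (hd : ∀ g : H, (∃ k : ℕ, g ^ p ^ k = 1) → ∀ v, (dl (f g))^[p ^ e - 1] v = 1)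
    (R : Subgroup H) (hR : IsPGroup p R) :
    ∀ r ∈ R, ∀ s ∈ R, r ^ (p ^ (e - 1)) * s ^ (p ^ (e - 1)) = s ^ (p ^ (e - 1)) * r ^ (p ^ (e - 1)) := by
  classical
  have hp : p.Prime := Fact.out
  have hRpel : ∀ r ∈ R, ∃ k : ℕ, r ^ p ^ k = 1 := by
    intro r hr
    obtain ⟨k, hk⟩ := hR ⟨r, hr⟩
    exact ⟨k, congrArg Subtype.val hk⟩
  have hexp : ∀ r ∈ R, r ^ (p ^ e) = 1 := fun r hr => hE r (hRpel r hr)
  by_contra hcon
  push Not at hcon
  obtain ⟨r1, hr1, s1, hs1, hne⟩ := hcon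
  let S : Set H := {y | ∃ r ∈ R, y = r ^ (p ^ (e - 1))}
  let Y : Subgroup H := closure S
  have hYR : Y ≤ R := by
    rw [closure_le]
    rintro _ ⟨r, hr, rfl⟩
    exact R.pow_mem hr _
  have hRY : R ≤ normalizer (Y : Set H) := by
    intro g hg
    apply Subgroup.mem_normalizer_fintype
    intro n hn
    induction hn using closure_induction with
    | mem y hy =>
      obtain ⟨r, hr, rfl⟩ := hy
      exact subset_closure ⟨g * r * g⁻¹, R.mul_mem (R.mul_mem hg hr) (R.inv_mem hg), (conj_pow).symm⟩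
    | one => simp
    | mul x y _ _ hx hy =>
      have : g * (x * y) * g⁻¹ = (g * x * g⁻¹) * (g * y * g⁻¹) := by group
      rw [this]; exact Y.mul_mem hx hy
    | inv x _ hx =>
      have : g * x⁻¹ * g⁻¹ = (g * x * g⁻¹)⁻¹ := by group
      rw [this]; exact Y.inv_mem hx
  have hY'R : ⁅Y, Y⁆ ≤ R := by
    rw [commutator_le]
    intro a ha b hb
    exact R.mul_mem (R.mul_mem (R.mul_mem (hYR ha) (hYR hb)) (R.inv_mem (hYR ha))) (R.inv_mem (hYR hb))
  have hRY' : R ≤ normalizer ((⁅Y, Y⁆ : Subgroup H) : Set H) := fun b hb =>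
    H49.mem_normalizer_commutator (hRY hb) (hRY hb)
  have hY'ne : ⁅Y, Y⁆ ≠ ⊥ := by
    intro h
    rw [commutator_eq_bot_iff_le_centralizer] at h
    exact hne (mem_centralizer_iff.mp (h (subset_closure ⟨s1, hs1, rfl⟩)) _ (subset_closure ⟨r1, hr1, rfl⟩))
  have hY'p : IsPGroup p (⁅Y, Y⁆ : Subgroup H) := hR.to_le hY'R
  -- the p'-core
  let K := pPrimeCore p H
  have hKn : K.Normal := inferInstance
  have hKc : (Nat.card K).Coprime p := Solv.pPrimeCore_card_coprime p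
  have hRK : R ≤ normalizer (K : Set H) := le_trans le_top (Subgroup.normalizer_eq_top_iff.2 hKn).ge
  have hcopRK : (Nat.card R).Coprime (Nat.card K) := by
    obtain ⟨n, hn⟩ := IsPGroup.iff_card.1 hR
    rw [hn]
    exact (hKc.symm).pow_left n
  have hKC : ¬ K ≤ centralizer ((⁅Y, Y⁆ : Subgroup H) : Set H) := by
    intro h
    apply hY'ne
    have h1 : ⁅Y, Y⁆ ≤ K := by
      intro y hy
      apply H79.centralizer_pPrimeCore_le hsol hcore
      exact mem_centralizer_iff.mpr (fun k hk => (mem_centralizer_iff.mp (h hk) y hy).symm)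
    rw [eq_bot_iff]
    obtain ⟨n, hn⟩ := IsPGroup.iff_card.1 hY'p
    have h2 : Nat.card (⁅Y, Y⁆ : Subgroup H) ∣ Nat.card K := Subgroup.card_dvd_of_le h1
    rw [hn] at h2
    have h3 : p ^ n = 1 := Nat.eq_one_of_dvd_coprimes (Nat.Coprime.pow_right n hKc) h2 dvd_rfl
    rw [h3] at hn
    exact (Subgroup.card_eq_one.mp hn).le
  have hsolvR : Group.IsSolvable R := by
    haveI := hR.isNilpotent
    infer_instance
  obtain ⟨q, hq, P, hPinv, hPC⟩ := H62.exists_invariant_sylow_not_le hRK hcopRK (Or.inl hsolvR) hKC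
  haveI : Fact q.Prime := ⟨hq⟩
  obtain ⟨D, hDmin⟩ := (Set.toFinite {U : Subgroup H | U ≤ (P : Subgroup K).map K.subtype ∧
    R ≤ normalizer (U : Set H) ∧ ¬ U ≤ centralizer ((⁅Y, Y⁆ : Subgroup H) : Set H)}).exists_minimal
    ⟨_, le_rfl, hPinv, hPC⟩
  obtain ⟨⟨hDP, hRD, hDC⟩, hDm⟩ := hDmin
  have hDK : D ≤ K := hDP.trans (map_subtype_le _)
  have hDq : IsPGroup q D := (P.isPGroup'.map K.subtype).to_le hDP
  have hDcop : (Nat.card D).Coprime p := Nat.Coprime.coprime_dvd_left (Subgroup.card_dvd_of_le hDK) hKc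
  have hDne : D ≠ ⊥ := by
    rintro rfl
    exact hDC bot_le
  have hqp : q ≠ p := by
    rintro rfl
    obtain ⟨n, hn⟩ := IsPGroup.iff_card.1 hDq
    rw [hn] at hDcop
    rcases Nat.eq_zero_or_pos n with h | h
    · rw [h, pow_zero] at hn
      exact hDne (Subgroup.card_eq_one.mp hn)
    · exact hq.one_lt.ne' (Nat.Coprime.eq_one_of_dvd hDcop.symm (dvd_pow_self q h.ne'))
  have hY'q : (Nat.card (⁅Y, Y⁆ : Subgroup H)).Coprime q := by
    obtain ⟨n, hn⟩ := IsPGroup.iff_card.1 hY'p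
    rw [hn]
    exact ((Nat.coprime_primes hp hq).mpr (Ne.symm hqp)).pow_left n
  have hnt : ⁅D, (⁅Y, Y⁆ : Subgroup H)⁆ ≠ ⊥ := by
    intro h
    rw [commutator_eq_bot_iff_le_centralizer] at h
    exact hDC h
  have hmin : ∀ U : Subgroup H, U < D → R ≤ normalizer (U : Set H) → ⁅U, (⁅Y, Y⁆ : Subgroup H)⁆ = ⊥ := by
    intro U hU hUR
    by_contra h
    rw [commutator_eq_bot_iff_le_centralizer] at h
    exact hU.not_ge (hDm ⟨hU.le.trans hDP, hUR, h⟩ hU.le)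
  have hstr := Cop.min_structure (p := q) hDq hRD hY'R hRY' hY'q hnt hmin
  have hcl : ∀ a ∈ D, ∀ b ∈ D, ∀ c ∈ D, (a * b * a⁻¹ * b⁻¹) * c = c * (a * b * a⁻¹ * b⁻¹) := by
    intro a ha b hb c hc
    rcases hstr with ⟨⟨hDc, _⟩, _⟩ | ⟨⟨_, _, hcomm⟩, _⟩
    · have h1 : a * b = b * a := congrArg Subtype.val (hDc.1.1 ⟨a, ha⟩ ⟨b, hb⟩)
      rw [h1]; group
    · have h1 : ⁅(⟨a, ha⟩ : D), (⟨b, hb⟩ : D)⁆ ∈ center D := by
        rw [← hcomm]
        exact Subgroup.commutator_mem_commutator (mem_top _) (mem_top _)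
      have h2 := (mem_center_iff.mp h1) ⟨c, hc⟩
      exact (congrArg Subtype.val h2).symm
  -- the action
  let g : R →* MulAut D := (Subgroup.normalizerMonoidHom D).comp (Subgroup.inclusion hRD)
  have hg : ∀ (r : R) (d : D), ((g r d : D) : H) = r * d * (r : H)⁻¹ := fun r d => rfl
  have hg2 := transl hp hp3 D R hR hRD hDcop hcl e he1 hexp (by
    intro r hr A hAD hAc hAr
    exact central_of_abelian hsol he f hf e he1 r (hexp r hr) (hd r (hRpel r hr)) A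
      (Nat.Coprime.coprime_dvd_left (Subgroup.card_dvd_of_le hAD) hDcop) hAc hAr) g hg
  -- conclusion
  apply hDC
  have hcl2 := closure_comm (S := {z : MulAut D | ∃ r : R, z = g (r ^ (p ^ (e - 1)))}) (by
    rintro _ ⟨r, rfl⟩ _ ⟨s, rfl⟩
    exact hg2 r s)
  have hYg : ∀ y (hy : y ∈ Y), g ⟨y, hYR hy⟩ ∈ closure {z : MulAut D | ∃ r : R, z = g (r ^ (p ^ (e - 1)))} := by
    intro y hy
    induction hy using closure_induction with
    | mem y hy =>
      obtain ⟨r, hr, rfl⟩ := hy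
      exact subset_closure ⟨⟨r, hr⟩, rfl⟩
    | one =>
      have : g ⟨1, hYR Y.one_mem⟩ = 1 := map_one g
      rw [this]
      exact one_mem _
    | mul x y hx' hy' hx hy =>
      have : g ⟨x * y, hYR (Y.mul_mem hx' hy')⟩ = g ⟨x, hYR hx'⟩ * g ⟨y, hYR hy'⟩ := map_mul g ⟨x, hYR hx'⟩ ⟨y, hYR hy'⟩
      rw [this]
      exact mul_mem hx hy
    | inv x hx' hx =>
      have : g ⟨x⁻¹, hYR (Y.inv_mem hx')⟩ = (g ⟨x, hYR hx'⟩)⁻¹ := map_inv g ⟨x, hYR hx'⟩
      rw [this]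
      exact inv_mem hx
  intro d hd'
  refine mem_centralizer_iff.mpr ?_
  have hle : ⁅Y, Y⁆ ≤ centralizer (D : Set H) := by
    rw [commutator_le]
    intro a ha b hb
    refine mem_centralizer_iff.mpr ?_
    intro d hd'
    have h1 := hcl2 _ (hYg a ha) _ (hYg b hb)
    have h2 : g (⟨a, hYR ha⟩ * ⟨b, hYR hb⟩) = g (⟨b, hYR hb⟩ * ⟨a, hYR ha⟩) := by
      rw [map_mul, map_mul, h1]
    have h3 : g (⟨a, hYR ha⟩ * ⟨b, hYR hb⟩ * (⟨b, hYR hb⟩ * ⟨a, hYR ha⟩)⁻¹) = 1 := by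
      rw [map_mul, h2, ← map_mul, mul_inv_cancel, map_one]
    have h4 : ((g (⟨a, hYR ha⟩ * ⟨b, hYR hb⟩ * (⟨b, hYR hb⟩ * ⟨a, hYR ha⟩)⁻¹) ⟨d, hd'⟩ : D) : H) = d := by
      rw [h3]; rfl
    rw [hg] at h4
    have h5 : a * b * (b * a)⁻¹ * d * (a * b * (b * a)⁻¹)⁻¹ = d := h4
    have h6 : ⁅a, b⁆ = a * b * (b * a)⁻¹ := by rw [commutatorElement_def]; group
    rw [h6]
    exact (mul_inv_eq_iff_eq_mul.mp h5).symm
  intro y hy
  exact (mem_centralizer_iff.mp (hle hy) d hd').symm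

end Cfsg.Agent.H34.HL
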