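import Cfsg.Agent.H34.HL7
import Cfsg.Agent.H63.PLen

set_option autoImplicit false

open Cfsg

namespace Cfsg.Agent.H34.HL

open Subgroup
open scoped commutatorElement

universe u

theorem lift_pel {G G' : Type*} [Group G] [Finite G] [Group G'] {p : ℕ} [Fact p.Prime] (f : G →* G')
    (hf : Function.Surjective f) (g' : G') (hg' : ∃ k : ℕ, g' ^ p ^ k = 1) :
    ∃ g : G, f g = g' ∧ ∃ k : ℕ, g ^ p ^ k = 1 := by
  have hp : p.Prime := Fact.out
  obtain ⟨k, hk⟩ := hg'
  obtain ⟨g, rfl⟩ := hf g'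
  set a := (orderOf g).factorization p with ha
  set m := orderOf g / p ^ a with hm
  have hcop : Nat.Coprime (p ^ k) m := (Nat.coprime_ordCompl hp (orderOf_pos g).ne').pow_left k
  obtain ⟨c, hc1, hc2⟩ := Nat.chineseRemainder hcop 1 0
  refine ⟨g ^ c, ?_, a, ?_⟩
  · rw [map_pow]
    have h1 : (f g) ^ c = (f g) ^ 1 := by
      rw [pow_eq_pow_iff_modEq]
      exact hc1.of_dvd (orderOf_dvd_of_pow_eq_one hk)
    rw [h1, pow_one]
  · obtain ⟨d, hd⟩ := Nat.modEq_zero_iff_dvd.mp hc2
    rw [← pow_mul, hd]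
    have h2 : m * d * p ^ a = orderOf g * d := by
      have : p ^ a * m = orderOf g := Nat.ordProj_mul_ordCompl_eq_self _ _
      rw [← this]; ring
    rw [h2, pow_mul, pow_orderOf_eq_one, one_pow]

theorem Ex.of_surjective {G G' : Type*} [Group G] [Finite G] [Group G'] {p : ℕ} [Fact p.Prime] {e : ℕ}
    (h : Ex p e G) (f : G →* G') (hf : Function.Surjective f) : Ex p e G' := by
  intro g' hg'
  obtain ⟨g, rfl, hg⟩ := lift_pel f hf g' hg'
  rw [← map_pow, h g hg, map_one]

theorem pCore_quot_eq_bot {G : Type*} [Group G] [Finite G] {p : ℕ} [Fact p.Prime] (N : Subgroup G)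
    [hN : N.Normal] (h : N = pCore p G) : pCore p (G ⧸ N) = ⊥ := by
  subst h
  exact Solv.pCore_quotient_pCore p

/-- second step -/
theorem p2 {H : Type u} [Group H] [Finite H] {p : ℕ} [Fact p.Prime] (hp3 : 3 ≤ p)
    (hsol : IsPSolvable p H) (hcore : pPrimeCore p H = ⊥) (e : ℕ) (he1 : 1 ≤ e) (hE : Ex p e H)
    (hC : ∀ R : Subgroup H, IsPGroup p R → ∀ r ∈ R, ∀ s ∈ R,
      r ^ (p ^ (e - 1)) * s ^ (p ^ (e - 1)) = s ^ (p ^ (e - 1)) * r ^ (p ^ (e - 1)))
    (g : H) (hg : ∃ k : ℕ, g ^ p ^ k = 1) : g ^ (p ^ (e - 1)) ∈ pCore p H := by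
  have hp : p.Prime := Fact.out
  obtain ⟨V, iV, fV, F, π, he, hker, hπ, hF⟩ := frame hsol hcore
  by_contra hne
  obtain ⟨e', rfl⟩ : ∃ e', e = e' + 1 := ⟨e - 1, by omega⟩
  simp only [Nat.add_sub_cancel] at hne hC
  have hcore' : pCore p (H ⧸ F.ker) = ⊥ := pCore_quot_eq_bot _ hker
  have hord : orderOf (QuotientGroup.mk' F.ker g) = p ^ (e' + 1) := by
    apply orderOf_eq_prime_pow
    · rw [← map_pow]
      intro h
      apply hne
      rw [← hker]
      exact (QuotientGroup.eq_one_iff _).mp h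
    · rw [← map_pow, hE g hg, map_one]
  have hVn : Nontrivial V := by
    by_contra h
    rw [not_nontrivial_iff_subsingleton] at h
    apply hne
    rw [← hker, MonoidHom.mem_ker]
    ext v
    exact Subsingleton.elim _ _
  obtain ⟨r, hr, hr2⟩ := tb he (QuotientGroup.kerLift F) (QuotientGroup.kerLift_injective F)
    (H76.isPSolvable_quotient F.ker hsol) hcore' (QuotientGroup.mk' F.ker g) (e' + 1) hord
  have hpe : 0 < p ^ e' := pow_pos hp.pos _
  have hpe1 : p ^ (e' + 1) = p ^ e' * p := pow_succ _ _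
  have h3 : p ^ e' * 3 ≤ p ^ e' * p := Nat.mul_le_mul_left _ hp3
  have hbound : 2 * p ^ e' ≤ r := by
    rcases hr2 with rfl | ⟨n₀, q, m, h1, h2, -, -, -, -, h7⟩
    · omega
    · have h8 : p ^ (e' + 1 - n₀) * (p ^ n₀ - 1) = p ^ (e' + 1) - p ^ (e' + 1 - n₀) := by
        rw [Nat.mul_sub, mul_one, ← pow_add, Nat.sub_add_cancel h2]
      have h9 : p ^ (e' + 1 - n₀) ≤ p ^ e' := Nat.pow_le_pow_right hp.pos (by omega)
      omega
  obtain ⟨w, hw⟩ := hr (2 * p ^ e' - 1) (by omega)
  have hFg : (QuotientGroup.kerLift F) (QuotientGroup.mk' F.ker g) = F g := rfl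
  rw [hFg] at hw
  apply hw
  obtain ⟨q, rfl⟩ := hπ w
  have hsup : IsPGroup p (pCore p H ⊔ zpowers g : Subgroup H) := by
    apply IsPGroup.to_sup_of_normal_left (Solv.pCore_isPGroup p)
    obtain ⟨k, hk⟩ := hg
    obtain ⟨j, -, hj⟩ := (Nat.dvd_prime_pow hp).mp (orderOf_dvd_of_pow_eq_one hk)
    apply IsPGroup.of_card (n := j)
    rw [Nat.card_zpowers, hj]
  have h4 := hC _ hsup g (mem_sup_right (mem_zpowers g)) ((q : H) * g)
    (Subgroup.mul_mem _ (mem_sup_left q.2) (mem_sup_right (mem_zpowers g)))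
  rw [nseq_spec (pCore p H) q g (p ^ e')] at h4
  set n := nseq (pCore p H) q g (p ^ e') with hn
  have h5 : MulAut.conjNormal (g ^ p ^ e') n = n := by
    apply Subtype.ext
    rw [MulAut.conjNormal_apply, mul_inv_eq_iff_eq_mul]
    have h6 : g ^ p ^ e' * ((n : H) * g ^ p ^ e') = (n * g ^ p ^ e') * g ^ p ^ e' := h4
    rw [← mul_assoc] at h6
    exact mul_right_cancel h6
  have h6 : dl (F (g ^ p ^ e')) (π n) = 1 := by
    unfold dl
    rw [hF, h5, mul_inv_cancel]
  rw [map_pow, dl_pow he, hn, nseq_map (pCore p H) q g π F hF, nrm he, ← Function.iterate_add_apply] at h6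
  have h7 : p ^ e' + (p ^ e' - 1) = 2 * p ^ e' - 1 := by omega
  rw [h7] at h6
  exact h6

/-- first step -/
theorem p1 {G : Type u} [Group G] [Finite G] {p : ℕ} [Fact p.Prime] (hp3 : 3 ≤ p)
    (hsol : IsPSolvable p G) (hcore : pPrimeCore p G = ⊥) (e : ℕ) (he1 : 1 ≤ e) (hE : Ex p e G)
    (hno : (¬ ∃ k : ℕ, p = 2 ^ k + 1) ∨ ∀ S : Sylow 2 G, IsMulCommutative (S : Subgroup G))
    (g : G) (hg : ∃ k : ℕ, g ^ p ^ k = 1) : g ^ (p ^ (e - 1)) ∈ pCore p G := by
  have hp : p.Prime := Fact.out
  obtain ⟨V, iV, fV, F, π, he, hker, hπ, hF⟩ := frame hsol hcore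
  by_contra hne
  obtain ⟨e', rfl⟩ : ∃ e', e = e' + 1 := ⟨e - 1, by omega⟩
  simp only [Nat.add_sub_cancel] at hne
  have hcore' : pCore p (G ⧸ F.ker) = ⊥ := pCore_quot_eq_bot _ hker
  have hord : orderOf (QuotientGroup.mk' F.ker g) = p ^ (e' + 1) := by
    apply orderOf_eq_prime_pow
    · rw [← map_pow]
      intro h
      apply hne
      rw [← hker]
      exact (QuotientGroup.eq_one_iff _).mp h
    · rw [← map_pow, hE g hg, map_one]
  have hVn : Nontrivial V := by
    by_contra h
    rw [not_nontrivial_iff_subsingleton] at h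
    apply hne
    rw [← hker, MonoidHom.mem_ker]
    ext v
    exact Subsingleton.elim _ _
  obtain ⟨r, hr, hr2⟩ := tb he (QuotientGroup.kerLift F) (QuotientGroup.kerLift_injective F)
    (H76.isPSolvable_quotient F.ker hsol) hcore' (QuotientGroup.mk' F.ker g) (e' + 1) hord
  rcases hr2 with rfl | ⟨n₀, q, m, h1, h2, h3, h4, h5, h6, h7⟩
  · obtain ⟨w, hw⟩ := hr (p ^ (e' + 1) - 1) (by have := pow_pos hp.pos (e' + 1); omega)
    exact hw (k1 F π he hπ hF (e' + 1) hE g hg w)
  · have hodd : Odd p := hp.odd_of_ne_two (by omega)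
    have hq2 : q = 2 := by
      have h8 : Even (p ^ n₀ - 1) := by
        have h9 : Odd (p ^ n₀) := hodd.pow
        obtain ⟨c, hc⟩ := h9
        exact ⟨c, by omega⟩
      rw [h5] at h8
      rw [Nat.even_pow] at h8
      exact (Nat.Prime.even_iff h3).mp h8.1
    subst hq2
    rcases hno with hno | hno
    · apply hno
      have h8 : p - 1 ∣ p ^ n₀ - 1 := by
        have := Nat.sub_dvd_pow_sub_pow p 1 n₀
        rwa [one_pow] at this
      rw [h5] at h8
      obtain ⟨k, -, hk⟩ := (Nat.dvd_prime_pow Nat.prime_two).mp h8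
      exact ⟨k, by omega⟩
    · obtain ⟨S⟩ : Nonempty (Sylow 2 G) := inferInstance
      let S' : Sylow 2 (G ⧸ F.ker) := S.mapSurjective (f := QuotientGroup.mk' F.ker) (QuotientGroup.mk'_surjective _)
      apply h6 S'
      constructor
      constructor
      rintro ⟨a, a0, ha0, rfl⟩ ⟨b, b0, hb0, rfl⟩
      have := (hno S).1.1 ⟨a0, ha0⟩ ⟨b0, hb0⟩
      have h8 : a0 * b0 = b0 * a0 := congrArg Subtype.val this
      apply Subtype.ext
      show QuotientGroup.mk' F.ker a0 * QuotientGroup.mk' F.ker b0 = QuotientGroup.mk' F.ker b0 * QuotientGroup.mk' F.ker a0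
      rw [← map_mul, h8, map_mul]

/-- lifting p-subgroups -/
theorem lift_psub {G G' : Type*} [Group G] [Finite G] [Group G'] [Finite G'] {p : ℕ} [Fact p.Prime]
    (f : G →* G') (hf : Function.Surjective f) (R' : Subgroup G') (hR' : IsPGroup p R') :
    ∃ R : Subgroup G, IsPGroup p R ∧ R.map f = R' := by
  let C : Subgroup G := R'.comap f
  let φ : C →* R' := f.subgroupComap R'
  have hφ : Function.Surjective φ := MonoidHom.subgroupComap_surjective_of_surjective _ _ hf
  obtain ⟨P⟩ : Nonempty (Sylow p C) := inferInstance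
  have h1 : ((P : Subgroup C).map φ) = ⊤ := by
    have h2 := (P.mapSurjective hφ).is_maximal' (Q := ⊤) (hR'.to_subgroup ⊤) le_top
    exact h2.symm
  refine ⟨(P : Subgroup C).map C.subtype, P.isPGroup'.map _, ?_⟩
  rw [Subgroup.map_map]
  have h3 : f.comp C.subtype = R'.subtype.comp φ := rfl
  rw [h3, ← Subgroup.map_map, h1, ← MonoidHom.range_eq_map, Subgroup.range_subtype]

theorem nontriv_case {G : Type u} [Group G] [Finite G] {p : ℕ} [Fact p.Prime]
    (hsol : IsPSolvable p G) (hcore : pPrimeCore p G = ⊥) (h : pCore p G = ⊥) :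
    (Nat.card G).Coprime p := by
  have h1 := H76.centralizer_pCore_le hsol hcore
  rw [h] at h1
  have h2 : (⊤ : Subgroup G) ≤ ⊥ := by
    refine le_trans ?_ h1
    intro x _
    refine mem_centralizer_iff.mpr ?_
    intro y hy
    have : y = 1 := by simpa using hy
    rw [this]; simp
  have h3 : Nat.card G = 1 := by
    have h4 : (⊤ : Subgroup G) = ⊥ := le_bot_iff.mp h2
    rw [← Subgroup.card_top, h4]
    exact Subgroup.card_bot
  rw [h3]
  exact Nat.coprime_one_left _

theorem thmA (p : ℕ) [Fact p.Prime] (hp3 : 3 ≤ p) : ∀ (n : ℕ) (G : Type u) [Group G] [Finite G], Nat.card G = n →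
    IsPSolvable p G → ∀ e : ℕ, Ex p e G →
    ((¬ ∃ k : ℕ, p = 2 ^ k + 1) ∨ ∀ S : Sylow 2 G, IsMulCommutative (S : Subgroup G)) →
    PLengthLE p e G := by
  intro n
  induction n using Nat.strong_induction_on with
  | _ n ih =>
  intro G _ _ hn hsol e hE hno
  have hno' : ∀ (N : Subgroup G) [N.Normal], (¬ ∃ k : ℕ, p = 2 ^ k + 1) ∨
      ∀ S : Sylow 2 (G ⧸ N), IsMulCommutative (S : Subgroup (G ⧸ N)) := by
    intro N _
    rcases hno with h | h
    · exact Or.inl h
    · right
      intro S'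
      obtain ⟨S, rfl⟩ := Sylow.mapSurjective_surjective (QuotientGroup.mk'_surjective N) 2 S'
      constructor
      constructor
      rintro ⟨a, a0, ha0, rfl⟩ ⟨b, b0, hb0, rfl⟩
      have := (h S).1.1 ⟨a0, ha0⟩ ⟨b0, hb0⟩
      have h8 : a0 * b0 = b0 * a0 := congrArg Subtype.val this
      apply Subtype.ext
      show QuotientGroup.mk' N a0 * QuotientGroup.mk' N b0 = QuotientGroup.mk' N b0 * QuotientGroup.mk' N a0
      rw [← map_mul, h8, map_mul]
  by_cases hcore : pPrimeCore p G = ⊥
  · by_cases hQ : pCore p G = ⊥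
    · exact H63.pLengthLE_of_coprime (nontriv_case hsol hcore hQ) e
    · have he1 : 1 ≤ e := by
        by_contra hc
        have : e = 0 := by omega
        subst this
        apply hQ
        rw [eq_bot_iff]
        intro x hx
        obtain ⟨k, hk⟩ := Solv.pCore_isPGroup (G := G) p ⟨x, hx⟩
        have := hE x ⟨k, congrArg Subtype.val hk⟩
        rw [pow_zero, pow_one] at this
        exact this
      have hE' : Ex p (e - 1) (G ⧸ pCore p G) := by
        intro g' hg'
        obtain ⟨g, rfl, hg⟩ := lift_pel (QuotientGroup.mk' (pCore p G)) (QuotientGroup.mk'_surjective _) g' hg'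
        rw [← map_pow]
        exact (QuotientGroup.eq_one_iff _).mpr (p1 hp3 hsol hcore e he1 hE hno g hg)
      have hlt : Nat.card (G ⧸ pCore p G) < n := by
        rw [← hn, ← Subgroup.index_eq_card]
        have h1 := (pCore p G).index_mul_card
        have h2 : 1 < Nat.card (pCore p G) := by
          rw [Subgroup.one_lt_card_iff_ne_bot]; exact hQ
        have h3 : 0 < (pCore p G).index := Nat.pos_of_ne_zero Subgroup.index_ne_zero_of_finite
        nlinarith
      have h1 := ih _ hlt (G ⧸ pCore p G) rfl (H76.isPSolvable_quotient _ hsol) (e - 1) hE' (hno' _)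
      have h2 := H63.pLengthLE_of_quotient_pgroup (pCore p G) (Solv.pCore_isPGroup p) h1
      rwa [Nat.sub_add_cancel he1] at h2
  · have hlt : Nat.card (G ⧸ pPrimeCore p G) < n := by
      rw [← hn, ← Subgroup.index_eq_card]
      have h1 := (pPrimeCore p G).index_mul_card
      have h2 : 1 < Nat.card (pPrimeCore p G) := by
        rw [Subgroup.one_lt_card_iff_ne_bot]; exact hcore
      have h3 : 0 < (pPrimeCore p G).index := Nat.pos_of_ne_zero Subgroup.index_ne_zero_of_finite
      nlinarith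
    have h1 := ih _ hlt (G ⧸ pPrimeCore p G) rfl (H76.isPSolvable_quotient _ hsol) e
      (hE.of_surjective _ (QuotientGroup.mk'_surjective _)) (hno' _)
    exact H63.pLengthLE_of_quotient_coprime (pPrimeCore p G) (Solv.pPrimeCore_card_coprime p) h1

theorem thmB (p : ℕ) [Fact p.Prime] (hp3 : 3 ≤ p) : ∀ (n : ℕ) (G : Type u) [Group G] [Finite G], Nat.card G = n →
    IsPSolvable p G → ∀ e : ℕ, Ex p e G → PLengthLE p (2 * e) G := by
  intro n
  induction n using Nat.strong_induction_on with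
  | _ n ih =>
  intro G _ _ hn hsol e hE
  by_cases hcore : pPrimeCore p G = ⊥
  · by_cases hQ : pCore p G = ⊥
    · exact H63.pLengthLE_of_coprime (nontriv_case hsol hcore hQ) _
    · have he1 : 1 ≤ e := by
        by_contra hc
        have : e = 0 := by omega
        subst this
        apply hQ
        rw [eq_bot_iff]
        intro x hx
        obtain ⟨k, hk⟩ := Solv.pCore_isPGroup (G := G) p ⟨x, hx⟩
        have := hE x ⟨k, congrArg Subtype.val hk⟩
        rw [pow_zero, pow_one] at this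
        exact this
      obtain ⟨V, iV, fV, F, π, he, hker, hπ, hF⟩ := frame hsol hcore
      have hsolH : IsPSolvable p (G ⧸ F.ker) := H76.isPSolvable_quotient F.ker hsol
      have hcoreH : pCore p (G ⧸ F.ker) = ⊥ := pCore_quot_eq_bot _ hker
      have hEH : Ex p e (G ⧸ F.ker) := hE.of_surjective _ (QuotientGroup.mk'_surjective F.ker)
      have hCH := comm_powers hp3 hsolH hcoreH he (QuotientGroup.kerLift F) (QuotientGroup.kerLift_injective F)
        e he1 hEH (by
          intro g' hg' v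
          obtain ⟨g, rfl, hg⟩ := lift_pel (QuotientGroup.mk' F.ker) (QuotientGroup.mk'_surjective _) g' hg'
          exact k1 F π he hπ hF e hE g hg v)
      -- modulo the p'-core
      let H1 := (G ⧸ F.ker) ⧸ pPrimeCore p (G ⧸ F.ker)
      let μ : (G ⧸ F.ker) →* H1 := QuotientGroup.mk' _
      have hμ : Function.Surjective μ := QuotientGroup.mk'_surjective _
      have hsol1 : IsPSolvable p H1 := H76.isPSolvable_quotient _ hsolH
      have hcore1 : pPrimeCore p H1 = ⊥ := Solv.pPrimeCore_quotient_pPrimeCore p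
      have hE1 : Ex p e H1 := hEH.of_surjective μ hμ
      have hC1 : ∀ R : Subgroup H1, IsPGroup p R → ∀ r ∈ R, ∀ s ∈ R,
          r ^ (p ^ (e - 1)) * s ^ (p ^ (e - 1)) = s ^ (p ^ (e - 1)) * r ^ (p ^ (e - 1)) := by
        intro R' hR' r' hr' s' hs'
        obtain ⟨R, hR, rfl⟩ := lift_psub μ hμ R' hR'
        obtain ⟨r, hr, rfl⟩ := hr'
        obtain ⟨s, hs, rfl⟩ := hs'
        have := hCH R hR r hr s hs
        rw [← map_pow, ← map_pow, ← map_mul, this, map_mul]
      have hE2 : Ex p (e - 1) (H1 ⧸ pCore p H1) := by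
        intro g' hg'
        obtain ⟨g, rfl, hg⟩ := lift_pel (QuotientGroup.mk' (pCore p H1)) (QuotientGroup.mk'_surjective _) g' hg'
        rw [← map_pow]
        exact (QuotientGroup.eq_one_iff _).mpr (p2 hp3 hsol1 hcore1 e he1 hE1 hC1 g hg)
      have hlt : Nat.card (G ⧸ F.ker) < n := by
        rw [← hn, ← Subgroup.index_eq_card]
        have h1 := F.ker.index_mul_card
        have h2 : 1 < Nat.card F.ker := by
          rw [Subgroup.one_lt_card_iff_ne_bot, hker]; exact hQ
        have h3 : 0 < F.ker.index := Nat.pos_of_ne_zero Subgroup.index_ne_zero_of_finite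
        nlinarith
      have hle : Nat.card (H1 ⧸ pCore p H1) ≤ Nat.card (G ⧸ F.ker) := by
        refine le_trans ?_ (Nat.card_le_card_of_surjective μ hμ)
        exact Nat.card_le_card_of_surjective _ (QuotientGroup.mk'_surjective (pCore p H1))
      have h1 := ih _ (lt_of_le_of_lt hle hlt) (H1 ⧸ pCore p H1) rfl (H76.isPSolvable_quotient _ hsol1) (e - 1) hE2
      have h2 := H63.pLengthLE_of_quotient_pgroup (pCore p H1) (Solv.pCore_isPGroup p) h1
      have h3 := H63.pLengthLE_of_quotient_coprime (pPrimeCore p (G ⧸ F.ker)) (Solv.pPrimeCore_card_coprime p) h2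
      have h4 := H63.pLengthLE_of_quotient_pgroup F.ker (hker ▸ Solv.pCore_isPGroup p) h3
      have h5 : 2 * (e - 1) + 1 + 1 = 2 * e := by omega
      rwa [h5] at h4
  · have hlt : Nat.card (G ⧸ pPrimeCore p G) < n := by
      rw [← hn, ← Subgroup.index_eq_card]
      have h1 := (pPrimeCore p G).index_mul_card
      have h2 : 1 < Nat.card (pPrimeCore p G) := by
        rw [Subgroup.one_lt_card_iff_ne_bot]; exact hcore
      have h3 : 0 < (pPrimeCore p G).index := Nat.pos_of_ne_zero Subgroup.index_ne_zero_of_finite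
      nlinarith
    have h1 := ih _ hlt (G ⧸ pPrimeCore p G) rfl (H76.isPSolvable_quotient _ hsol) e
      (hE.of_surjective _ (QuotientGroup.mk'_surjective _))
    exact H63.pLengthLE_of_quotient_coprime (pPrimeCore p G) (Solv.pPrimeCore_card_coprime p) h1

end Cfsg.Agent.H34.HL
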