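import Mathlib.GroupTheory.FixedPointFree
import Mathlib.GroupTheory.SpecificGroups.KleinFour
import Mathlib.GroupTheory.Subgroup.Centralizer

set_option autoImplicit false

namespace Cfsg.Agent.H34

/-- An involution `w` acting without fixed points on a finite normal subgroup inverts it. -/
theorem inv_of_fpf_involution {H : Type*} [Group H] [Finite H] (N : Subgroup H) [N.Normal] (w : H)
    (hw : w * w = 1) (hf : ∀ n ∈ N, w * n = n * w → n = 1) : ∀ n ∈ N, w * n * w⁻¹ = n⁻¹ := by
  have hw' : w⁻¹ = w := inv_eq_of_mul_eq_one_left hw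
  let φ : N →* N := (MulAut.conjNormal w : MulAut N).toMonoidHom
  have hφ : ∀ n : N, ((φ n : N) : H) = w * n * w⁻¹ := fun n => by simp [φ]
  have h1 : MonoidHom.FixedPointFree φ := by
    intro g hg
    have := congrArg (Subtype.val) hg
    rw [hφ] at this
    ext
    apply hf g g.2
    exact mul_inv_eq_iff_eq_mul.mp this
  have h2 : Function.Involutive φ := by
    intro n
    ext
    rw [hφ, hφ, hw']
    calc w * (w * n * w) * w = (w * w) * n * (w * w) := by group
      _ = n := by rw [hw]; group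
  intro n hn
  have := h1.coe_eq_inv_of_involutive h2
  have h3 := congrFun this ⟨n, hn⟩
  have h4 := congrArg Subtype.val h3
  rw [hφ] at h4
  exact h4

/-- Core argument of S2008/S2009. -/
theorem eq_bot_of_normal_of_klein {H : Type*} [Group H] [Finite H] (z : H) (hz : orderOf z = 2)
    (hN : ∀ N : Subgroup H, N.Normal → N ≠ ⊤ → N ⊓ Subgroup.centralizer ({z} : Set H) = ⊥)
    (E : Subgroup H) (hE : IsKleinFour ↥E) (hzE : z ∈ E) (hc : ∀ e ∈ E, e ≠ 1 → IsConj z e)
    (N : Subgroup H) [hNn : N.Normal] (hNt : N ≠ ⊤) : N = ⊥ := by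
  have hN' := hN N hNn hNt
  have hz2 : z * z = 1 := by rw [← sq, ← hz, pow_orderOf_eq_one]
  have key : ∀ e ∈ E, e ≠ 1 → ∀ n ∈ N, e * n = n * e → n = 1 := by
    intro e he he1 n hn hcomm
    obtain ⟨c, hc'⟩ := isConj_iff.mp (hc e he he1)
    have h1 : c⁻¹ * n * c ∈ N := by
      have := hNn.conj_mem n hn c⁻¹
      simpa using this
    have h2 : c⁻¹ * n * c ∈ Subgroup.centralizer ({z} : Set H) := by
      rw [Subgroup.mem_centralizer_singleton_iff]
      rw [← hc'] at hcomm
      have h3 : c⁻¹ * (c * z * c⁻¹ * n) * c = c⁻¹ * (n * (c * z * c⁻¹)) * c := by rw [hcomm]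
      have h4 : z * (c⁻¹ * n * c) = c⁻¹ * n * c * z := by
        calc z * (c⁻¹ * n * c) = c⁻¹ * (c * z * c⁻¹ * n) * c := by group
          _ = c⁻¹ * (n * (c * z * c⁻¹)) * c := h3
          _ = c⁻¹ * n * c * z := by group
      exact h4.symm
    have h3 : c⁻¹ * n * c ∈ N ⊓ Subgroup.centralizer ({z} : Set H) := ⟨h1, h2⟩
    rw [hN', Subgroup.mem_bot] at h3
    calc n = c * (c⁻¹ * n * c) * c⁻¹ := by group
      _ = 1 := by rw [h3]; group
  have hsq : ∀ e ∈ E, e * e = 1 := by
    intro e he
    have := hE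
    have h := IsKleinFour.mul_self (⟨e, he⟩ : E)
    exact congrArg Subtype.val h
  have hinv : ∀ e ∈ E, e ≠ 1 → ∀ n ∈ N, e * n * e⁻¹ = n⁻¹ := fun e he he1 =>
    inv_of_fpf_involution N e (hsq e he) (key e he he1)
  have hz1 : z ≠ 1 := by
    rintro rfl
    simp at hz
  -- pick another element of E
  obtain ⟨e, he, he1, hez⟩ : ∃ e ∈ E, e ≠ 1 ∧ e ≠ z := by
    by_contra hcon
    push Not at hcon
    have hsub : (Set.univ : Set E) ⊆ {1, ⟨z, hzE⟩} := by
      rintro ⟨x, hx⟩ -
      by_cases h1 : x = 1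
      · left; ext; exact h1
      · right
        have := hcon x hx h1
        simp only [Set.mem_singleton_iff]
        ext; exact this
    have hcard := IsKleinFour.card_four (G := E)
    have h5 : Nat.card E ≤ 2 := by
      have := Set.ncard_le_ncard hsub (Set.toFinite _)
      rw [Set.ncard_univ] at this
      exact this.trans (Set.ncard_insert_le _ _ |>.trans (by simp))
    omega
  rw [Subgroup.eq_bot_iff_forall]
  intro n hn
  have hez1 : z * e ≠ 1 := by
    intro h
    apply hez
    have : e = z⁻¹ := (inv_eq_of_mul_eq_one_right h).symm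
    rw [this]
    exact inv_eq_of_mul_eq_one_left hz2
  apply key (z * e) (mul_mem hzE he) hez1 n hn
  have h1 := hinv e he he1 n hn
  have h2 := hinv z hzE hz1 (n⁻¹) (inv_mem hn)
  have h3 : z * e * n * (z * e)⁻¹ = n := by
    calc z * e * n * (z * e)⁻¹ = z * (e * n * e⁻¹) * z⁻¹ := by group
      _ = n := by rw [h1, h2, inv_inv]
  exact mul_inv_eq_iff_eq_mul.mp h3

end Cfsg.Agent.H34
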