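import Mathlib

/-! A lower bound for weighted norms of generalized characters of finite abelian groups, after Knörr
(owner: helper34). -/

set_option autoImplicit false
set_option linter.style.haveILetI false

namespace Cfsg.Agent.H34.KGV

open Finset
open scoped ComplexConjugate

section count

open Classical in
theorem card_ne_ge {Λ S : Type*} [Fintype Λ] (f : Λ → S) (c : S) :
    2 * ((univ.filter fun l => f l = c).card * (univ.filter fun l => f l ≠ c).card) ≤
      ((univ : Finset (Λ × Λ)).filter fun q => f q.1 ≠ f q.2).card := by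
  set a := univ.filter fun l => f l = c
  set b := univ.filter fun l => f l ≠ c
  have h1 : (a ×ˢ b) ∪ (b ×ˢ a) ⊆ (univ : Finset (Λ × Λ)).filter fun q => f q.1 ≠ f q.2 := by
    intro q hq
    rw [mem_union, mem_product, mem_product, mem_filter, mem_filter, mem_filter, mem_filter] at hq
    rw [mem_filter]
    refine ⟨mem_univ _, ?_⟩
    rcases hq with h | h
    · rw [h.1.2]; exact fun he => h.2.2 he.symm
    · rw [h.2.2]; exact h.1.2
  have h2 : Disjoint (a ×ˢ b) (b ×ˢ a) := by
    rw [disjoint_left]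
    intro q hq hq'
    rw [mem_product, mem_filter, mem_filter] at hq hq'
    exact hq'.1.2 hq.1.2
  have h3 := card_le_card h1
  rw [card_union_of_disjoint h2, card_product, card_product] at h3
  calc 2 * (a.card * b.card) = a.card * b.card + b.card * a.card := by ring
    _ ≤ _ := h3

open Classical in
theorem card_add (Λ S : Type*) [Fintype Λ] (f : Λ → S) (c : S) :
    (univ.filter fun l => f l = c).card + (univ.filter fun l => f l ≠ c).card = Fintype.card Λ := by
  rw [card_filter_add_card_filter_not]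
  rfl

open Classical in
/-- counting lemma for the induction -/
theorem count_one {Λ S : Type*} [Fintype Λ] (f : Λ → S) (c : S) (h : ∃ l, f l ≠ c) :
    2 * Fintype.card Λ ≤ 2 * (univ.filter fun l => f l ≠ c).card + ((univ : Finset (Λ × Λ)).filter fun q => f q.1 ≠ f q.2).card := by
  have h1 := card_ne_ge f c
  have h2 := card_add Λ S f c
  have h3 : 1 ≤ (univ.filter fun l => f l ≠ c).card := by
    obtain ⟨l, hl⟩ := h
    exact card_pos.2 ⟨l, mem_filter.2 ⟨mem_univ _, hl⟩⟩
  set a := (univ.filter fun l => f l = c).card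
  set b := (univ.filter fun l => f l ≠ c).card
  nlinarith

open Classical in
/-- counting lemma for the base case -/
theorem count_two {Λ S : Type*} [Fintype Λ] (f : Λ → S) (h : ∃ l l', f l ≠ f l') :
    2 * (Fintype.card Λ - 1) ≤ ((univ : Finset (Λ × Λ)).filter fun q => f q.1 ≠ f q.2).card := by
  obtain ⟨l, l', hll⟩ := h
  have h1 := card_ne_ge f (f l)
  have h2 := card_add Λ S f (f l)
  have h3 : 1 ≤ (univ.filter fun k => f k ≠ f l).card := card_pos.2 ⟨l', mem_filter.2 ⟨mem_univ _, Ne.symm hll⟩⟩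
  have h4 : 1 ≤ (univ.filter fun k => f k = f l).card := card_pos.2 ⟨l, mem_filter.2 ⟨mem_univ _, rfl⟩⟩
  set a := (univ.filter fun k => f k = f l).card
  set b := (univ.filter fun k => f k ≠ f l).card
  have h5 : Fintype.card Λ - 1 ≤ a * b := by
    rw [← h2]
    have : a + b ≤ a * b + 1 := by nlinarith
    omega
  omega

/-- `h Σ |x|² - |Σ x|² = ½ ΣΣ |x - x'|²` -/
theorem sum_sq_identity {Λ : Type*} [Fintype Λ] (x : Λ → ℂ) :
    (Fintype.card Λ : ℝ) * ∑ l, Complex.normSq (x l) - Complex.normSq (∑ l, x l) =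
      (1 / 2) * ∑ q : Λ × Λ, Complex.normSq (x q.1 - x q.2) := by
  have h1 : ∀ q : Λ × Λ, Complex.normSq (x q.1 - x q.2) =
      Complex.normSq (x q.1) + Complex.normSq (x q.2) - 2 * (x q.1 * conj (x q.2)).re := fun q => Complex.normSq_sub _ _
  simp only [h1]
  rw [Finset.sum_sub_distrib, Finset.sum_add_distrib, ← Finset.mul_sum]
  have h2 : ∑ q : Λ × Λ, Complex.normSq (x q.1) = (Fintype.card Λ : ℝ) * ∑ l, Complex.normSq (x l) := by
    rw [Fintype.sum_prod_type]
    simp only [Finset.sum_const, Finset.card_univ, nsmul_eq_mul]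
    rw [← Finset.mul_sum]
  have h3 : ∑ q : Λ × Λ, Complex.normSq (x q.2) = (Fintype.card Λ : ℝ) * ∑ l, Complex.normSq (x l) := by
    rw [Fintype.sum_prod_type_right]
    simp only [Finset.sum_const, Finset.card_univ, nsmul_eq_mul]
    rw [← Finset.mul_sum]
  have h4 : ∑ q : Λ × Λ, (x q.1 * conj (x q.2)).re = Complex.normSq (∑ l, x l) := by
    have h5 : (Complex.normSq (∑ l, x l) : ℂ) = ∑ q : Λ × Λ, x q.1 * conj (x q.2) := by
      rw [← Complex.mul_conj, map_sum, Finset.sum_mul_sum, Fintype.sum_prod_type]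
    have h6 := congrArg Complex.re h5
    rw [Complex.ofReal_re, Complex.re_sum] at h6
    exact h6.symm
  rw [h2, h3, h4]
  ring

end count

section main

variable {Γ : Type*} [AddCommGroup Γ] [Fintype Γ]

/-- a character of the quotient, inflated -/
noncomputable def ev (C : AddSubgroup Γ) (l : AddChar (Γ ⧸ C) ℂ) (g : Γ) : ℂ := l (QuotientAddGroup.mk g)

theorem ev_add (C : AddSubgroup Γ) (l : AddChar (Γ ⧸ C) ℂ) (g h : Γ) : ev C l (g + h) = ev C l g * ev C l h := by
  unfold ev
  rw [QuotientAddGroup.mk_add, AddChar.map_add_eq_mul]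

theorem ev_neg (C : AddSubgroup Γ) (l : AddChar (Γ ⧸ C) ℂ) (g : Γ) : ev C l (-g) = conj (ev C l g) := by
  unfold ev
  rw [QuotientAddGroup.mk_neg, AddChar.map_neg_eq_conj]

theorem ev_normSq (C : AddSubgroup Γ) (l : AddChar (Γ ⧸ C) ℂ) (g : Γ) : Complex.normSq (ev C l g) = 1 := by
  unfold ev
  rw [Complex.normSq_eq_norm_sq, AddChar.norm_apply, one_pow]

theorem ev_mul_conj (C : AddSubgroup Γ) (l : AddChar (Γ ⧸ C) ℂ) (g : Γ) : ev C l g * conj (ev C l g) = 1 := by
  rw [Complex.mul_conj, ev_normSq, Complex.ofReal_one]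

open Classical in
theorem sum_ev (C : AddSubgroup Γ) (g : Γ) : ∑ l : AddChar (Γ ⧸ C) ℂ, ev C l g = if g ∈ C then (C.index : ℂ) else 0 := by
  unfold ev
  rw [AddChar.sum_apply_eq_ite]
  have h1 : ((g : Γ ⧸ C) = 0) ↔ g ∈ C := QuotientAddGroup.eq_zero_iff g
  simp only [h1]
  congr 2
  rw [← Nat.card_eq_fintype_card]
  rfl

theorem card_ev (C : AddSubgroup Γ) : Fintype.card (AddChar (Γ ⧸ C) ℂ) = C.index := by
  have : Fintype (Γ ⧸ C) := Fintype.ofFinite _
  rw [AddChar.card_eq, ← Nat.card_eq_fintype_card]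
  rfl

/-- functions with integral Fourier coefficients -/
def Lat (A : Γ → ℂ) : Prop := ∀ ψ : AddChar Γ ℂ, ∃ m : ℤ, ∑ g, A g * conj (ψ g) = (Fintype.card Γ : ℂ) * m

theorem Lat.sub {A B : Γ → ℂ} (hA : Lat A) (hB : Lat B) : Lat (fun g => A g - B g) := by
  intro ψ
  obtain ⟨m, hm⟩ := hA ψ
  obtain ⟨n, hn⟩ := hB ψ
  refine ⟨m - n, ?_⟩
  simp only [sub_mul, Finset.sum_sub_distrib, hm, hn]
  push_cast; ring

/-- the inflated character as a character of `Γ` -/
noncomputable def evChar (C : AddSubgroup Γ) (l : AddChar (Γ ⧸ C) ℂ) : AddChar Γ ℂ where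
  toFun := ev C l
  map_zero_eq_one' := by unfold ev; rw [QuotientAddGroup.mk_zero, AddChar.map_zero_eq_one]
  map_add_eq_mul' := ev_add C l

theorem evChar_apply (C : AddSubgroup Γ) (l : AddChar (Γ ⧸ C) ℂ) (g : Γ) : evChar C l g = ev C l g := rfl

/-- a sum over a subgroup of a character is `0` or the order -/
theorem sum_subgroup (E : AddSubgroup Γ) [Fintype E] (ψ : AddChar Γ ℂ) :
    ∑ e : E, ψ e = 0 ∨ ∑ e : E, ψ e = (Fintype.card E : ℂ) := by
  by_cases h : ∀ e : E, ψ e = 1
  · right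
    rw [Finset.sum_congr rfl fun e _ => h e]
    simp
  · left
    push Not at h
    obtain ⟨e0, he0⟩ := h
    have h1 : ψ e0 * ∑ e : E, ψ e = ∑ e : E, ψ e := by
      rw [Finset.mul_sum]
      refine Fintype.sum_equiv (Equiv.addLeft e0) _ _ fun e => ?_
      rw [← AddChar.map_add_eq_mul]
      rfl
    have h2 : (ψ e0 - 1) * ∑ e : E, ψ e = 0 := by rw [sub_mul, h1, one_mul, sub_self]
    rcases mul_eq_zero.1 h2 with h3 | h3
    · exact absurd (sub_eq_zero.1 h3) he0
    · exact h3

/-- twisted projection to the `E`-invariant functions -/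
noncomputable def proj (C E : AddSubgroup Γ) [Fintype E] (l : AddChar (Γ ⧸ C) ℂ) (A : Γ → ℂ) (g : Γ) : ℂ :=
  conj (ev C l g) * ((Fintype.card E : ℂ)⁻¹ * ∑ e : E, conj (ev C l e) * A (g + e))

theorem proj_inv (C E : AddSubgroup Γ) [Fintype E] (l : AddChar (Γ ⧸ C) ℂ) (A : Γ → ℂ) (g : Γ) (e : E) :
    proj C E l A (g + e) = proj C E l A g := by
  unfold proj
  rw [ev_add, map_mul]
  have h1 : ∑ e' : E, conj (ev C l e') * A (g + e + e') = ev C l e * ∑ e' : E, conj (ev C l e') * A (g + e') := by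
    rw [Finset.mul_sum]
    refine Fintype.sum_equiv (Equiv.addLeft e) _ _ fun e' => ?_
    show _ = ev C l e * (conj (ev C l ((e + e' : E) : Γ)) * A (g + ((e + e' : E) : Γ)))
    rw [AddSubgroup.coe_add, ev_add, map_mul, ← add_assoc, ← mul_assoc, ← mul_assoc, ev_mul_conj, one_mul]
  rw [h1]
  have h2 := ev_mul_conj C l e
  calc conj (ev C l g) * conj (ev C l ↑e) * ((Fintype.card E : ℂ)⁻¹ * (ev C l ↑e * ∑ e' : E, conj (ev C l ↑e') * A (g + ↑e')))
      = (ev C l e * conj (ev C l e)) * (conj (ev C l g) * ((Fintype.card E : ℂ)⁻¹ * ∑ e' : E, conj (ev C l ↑e') * A (g + ↑e'))) := by ring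
    _ = _ := by rw [h2, one_mul]

theorem proj_lat (C E : AddSubgroup Γ) [Fintype E] (l : AddChar (Γ ⧸ C) ℂ) {A : Γ → ℂ} (hA : Lat A) : Lat (proj C E l A) := by
  classical
  intro ψ
  obtain ⟨m, hm⟩ := hA (evChar C l * ψ)
  have key : ∑ g, proj C E l A g * conj (ψ g) = ((Fintype.card E : ℂ)⁻¹ * ∑ e : E, ψ e) * ∑ g, A g * conj ((evChar C l * ψ) g) := by
    unfold proj
    have h1 : ∀ g : Γ, conj (ev C l g) * ((Fintype.card E : ℂ)⁻¹ * ∑ e : E, conj (ev C l e) * A (g + e)) * conj (ψ g) =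
        (Fintype.card E : ℂ)⁻¹ * ∑ e : E, ψ e * (A (g + e) * conj ((evChar C l * ψ) (g + e))) := by
      intro g
      rw [mul_left_comm, mul_assoc, Finset.mul_sum, Finset.sum_mul]
      congr 1
      refine Finset.sum_congr rfl fun e _ => ?_
      have h2 : (evChar C l * ψ) (g + e) = ev C l g * ev C l e * (ψ g * ψ e) := by
        rw [AddChar.mul_apply, evChar_apply, ev_add, AddChar.map_add_eq_mul]
      rw [h2, map_mul, map_mul, map_mul]
      have h3 : ψ e * conj (ψ (e : Γ)) = 1 := by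
        rw [Complex.mul_conj, Complex.normSq_eq_norm_sq, AddChar.norm_apply]; simp
      calc conj (ev C l g) * (conj (ev C l ↑e) * A (g + ↑e)) * conj (ψ g)
          = (ψ e * conj (ψ (e : Γ))) * (A (g + ↑e) * (conj (ev C l g) * conj (ev C l ↑e)) * conj (ψ g)) := by rw [h3]; ring
        _ = _ := by ring
    rw [Finset.sum_congr rfl fun g _ => h1 g, ← Finset.mul_sum, Finset.sum_comm, mul_assoc, Finset.sum_mul]
    congr 1
    refine Finset.sum_congr rfl fun e _ => ?_
    rw [← Finset.mul_sum]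
    congr 1
    exact Equiv.sum_comp (Equiv.addRight (e : Γ)) (fun g => A g * conj ((evChar C l * ψ) g))
  rw [key, hm]
  have hE : (Fintype.card E : ℂ) ≠ 0 := by exact_mod_cast Fintype.card_ne_zero
  rcases sum_subgroup E ψ with h | h
  · refine ⟨0, ?_⟩
    rw [h]; simp
  · refine ⟨m, ?_⟩
    rw [h, inv_mul_cancel₀ hE, one_mul]

end main

end Cfsg.Agent.H34.KGV
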