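import Cfsg.Agent.H34.KGV1

/-! A lower bound for weighted norms of generalized characters of finite abelian groups, part 2
(owner: helper34). -/

set_option autoImplicit false
set_option linter.style.haveILetI false

namespace Cfsg.Agent.H34.KGV

open Finset
open scoped ComplexConjugate Classical

variable {Γ : Type*} [AddCommGroup Γ] [Fintype Γ]

/-- number of elements of `E` in `C` -/
noncomputable def ec (C E : AddSubgroup Γ) : ℕ := ((univ : Finset E).filter fun x : E => (x : Γ) ∈ C).card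

theorem ec_eq (C E : AddSubgroup Γ) : ec C E = Nat.card (C ⊓ E : AddSubgroup Γ) := by
  unfold ec
  rw [Nat.card_eq_fintype_card, ← Fintype.card_subtype]
  refine Fintype.card_congr ⟨fun x => ⟨x.1.1, x.2, x.1.2⟩, fun x => ⟨⟨x.1, x.2.2⟩, x.2.1⟩, fun x => rfl, fun x => rfl⟩

theorem ec_pos (C E : AddSubgroup Γ) : 0 < ec C E := card_pos.2 ⟨0, by
  rw [mem_filter]
  exact ⟨mem_univ _, C.zero_mem⟩⟩

theorem sum_normSq_proj (C E : AddSubgroup Γ) (A : Γ → ℂ) (hA : ∀ g, ∀ e ∈ C ⊓ E, A (g + e) = A g) (g : Γ) :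
    ∑ l, Complex.normSq (proj C E l A g) =
      ((C.index : ℝ) * ec C E / (Fintype.card E : ℝ) ^ 2) * ∑ e : E, Complex.normSq (A (g + e)) := by
  have hE : (Fintype.card E : ℝ) ≠ 0 := by exact_mod_cast Fintype.card_ne_zero
  have h1 : ∀ l, Complex.normSq (proj C E l A g) = ((Fintype.card E : ℝ) ^ 2)⁻¹ * Complex.normSq (∑ e : E, conj (ev C l e) * A (g + e)) := by
    intro l
    unfold proj
    rw [Complex.normSq_mul, Complex.normSq_conj, ev_normSq, one_mul, Complex.normSq_mul, Complex.normSq_inv, Complex.normSq_natCast, ← sq]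
  rw [Finset.sum_congr rfl fun l _ => h1 l, ← Finset.mul_sum]
  have h2 : ((∑ l, Complex.normSq (∑ e : E, conj (ev C l e) * A (g + e)) : ℝ) : ℂ) =
      ((C.index * ec C E * ∑ e : E, Complex.normSq (A (g + e)) : ℝ) : ℂ) := by
    rw [Complex.ofReal_sum]
    have h3 : ∀ l, ((Complex.normSq (∑ e : E, conj (ev C l e) * A (g + e)) : ℝ) : ℂ) =
        ∑ e : E, ∑ e' : E, ev C l ((e' : Γ) - e) * (A (g + e) * conj (A (g + e'))) := by
      intro l
      rw [← Complex.mul_conj, map_sum, Finset.sum_mul_sum]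
      refine Finset.sum_congr rfl fun e _ => Finset.sum_congr rfl fun e' _ => ?_
      rw [map_mul, Complex.conj_conj, sub_eq_add_neg, ev_add, ev_neg]
      ring
    rw [Finset.sum_congr rfl fun l _ => h3 l, Finset.sum_comm]
    push_cast
    rw [Finset.mul_sum]
    refine Finset.sum_congr rfl fun e _ => ?_
    rw [Finset.sum_comm]
    have h4 : ∀ e' : E, ∑ l, ev C l ((e' : Γ) - e) * (A (g + e) * conj (A (g + e'))) =
        if (e' : Γ) - e ∈ C then (C.index : ℂ) * (Complex.normSq (A (g + e)) : ℂ) else 0 := by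
      intro e'
      rw [← Finset.sum_mul, sum_ev]
      split_ifs with h
      · have h5 : A (g + e') = A (g + e) := by
          have h6 := hA (g + e) ((e' : Γ) - e) ⟨h, E.sub_mem e'.2 e.2⟩
          rw [← h6]
          congr 1
          abel
        rw [h5, Complex.mul_conj]
      · rw [zero_mul]
    rw [Finset.sum_congr rfl fun e' _ => h4 e', ← Finset.sum_filter, Finset.sum_const, nsmul_eq_mul]
    have h5 : ((univ : Finset E).filter fun e' : E => (e' : Γ) - e ∈ C).card = ec C E := by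
      unfold ec
      refine Finset.card_bij (fun e' _ => e' - e) ?_ ?_ ?_
      · intro a ha
        rw [mem_filter] at ha ⊢
        exact ⟨mem_univ _, ha.2⟩
      · intro a _ b _ hab
        exact sub_left_injective hab
      · intro b hb
        refine ⟨b + e, ?_, by simp⟩
        rw [mem_filter] at hb ⊢
        refine ⟨mem_univ _, ?_⟩
        rw [AddSubgroup.coe_add, add_sub_cancel_right]
        exact hb.2
    rw [h5]
    ring
  have h3 := Complex.ofReal_injective h2
  rw [h3]
  field_simp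

theorem normSq_sum_proj (C E : AddSubgroup Γ) (A : Γ → ℂ) (hA : ∀ g, ∀ e ∈ C ⊓ E, A (g + e) = A g) (g : Γ) :
    Complex.normSq (∑ l, proj C E l A g) =
      ((C.index : ℝ) ^ 2 * ec C E / (Fintype.card E : ℝ) ^ 2) * ∑ e : E, (if g + e ∈ C then Complex.normSq (A (g + e)) else 0) := by
  have hE : (Fintype.card E : ℝ) ≠ 0 := by exact_mod_cast Fintype.card_ne_zero
  have h1 : ∑ l, proj C E l A g = ((C.index : ℂ) / (Fintype.card E : ℂ)) * ∑ e : E, (if g + e ∈ C then A (g + e) else 0) := by
    have h2 : ∀ l, proj C E l A g = (Fintype.card E : ℂ)⁻¹ * ∑ e : E, ev C l (-(g + e)) * A (g + e) := by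
      intro l
      unfold proj
      rw [mul_left_comm, Finset.mul_sum]
      congr 1
      refine Finset.sum_congr rfl fun e _ => ?_
      rw [ev_neg, ev_add, map_mul]
      ring
    rw [Finset.sum_congr rfl fun l _ => h2 l, ← Finset.mul_sum, Finset.sum_comm]
    have h3 : ∀ e : E, ∑ l, ev C l (-(g + e)) * A (g + e) = (C.index : ℂ) * (if g + e ∈ C then A (g + e) else 0) := by
      intro e
      rw [← Finset.sum_mul, sum_ev]
      by_cases h : g + e ∈ C
      · rw [if_pos (C.neg_mem h), if_pos h]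
      · rw [if_neg (fun h' => h (by have := C.neg_mem h'; rwa [neg_neg] at this)), if_neg h]; ring
    rw [Finset.sum_congr rfl fun e _ => h3 e, ← Finset.mul_sum]
    ring
  rw [h1, Complex.normSq_mul, Complex.normSq_div, Complex.normSq_natCast, Complex.normSq_natCast]
  by_cases hex : ∃ e0 : E, g + e0 ∈ C
  · obtain ⟨e0, he0⟩ := hex
    have hcount : ((univ : Finset E).filter fun e : E => g + e ∈ C).card = ec C E := by
      unfold ec
      refine Finset.card_bij (fun e' _ => e' - e0) ?_ ?_ ?_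
      · intro a ha
        rw [mem_filter] at ha ⊢
        refine ⟨mem_univ _, ?_⟩
        have h2 : ((a - e0 : E) : Γ) = (g + a) - (g + e0) := by rw [AddSubgroup.coe_sub]; abel
        rw [h2]
        exact C.sub_mem ha.2 he0
      · intro a _ b _ hab
        exact sub_left_injective hab
      · intro b hb
        refine ⟨b + e0, ?_, by simp⟩
        rw [mem_filter] at hb ⊢
        refine ⟨mem_univ _, ?_⟩
        have h2 : g + ((b + e0 : E) : Γ) = b + (g + e0) := by rw [AddSubgroup.coe_add]; abel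
        rw [h2]
        exact C.add_mem hb.2 he0
    have hval : ∀ e : E, g + e ∈ C → A (g + e) = A (g + e0) := by
      intro e he
      have h6 := hA (g + e0) ((e : Γ) - e0) ⟨by
        have h2 : (e : Γ) - e0 = (g + e) - (g + e0) := by abel
        rw [h2]; exact C.sub_mem he he0, E.sub_mem e.2 e0.2⟩
      rw [← h6]
      congr 1
      abel
    have hs1 : ∑ e : E, (if g + e ∈ C then A (g + e) else 0) = (ec C E : ℂ) * A (g + e0) := by
      rw [← Finset.sum_filter, Finset.sum_congr rfl (g := fun _ => A (g + e0)) (fun e he => hval e (mem_filter.1 he).2), Finset.sum_const, hcount,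
        nsmul_eq_mul]
    have hs2 : ∑ e : E, (if g + e ∈ C then Complex.normSq (A (g + e)) else 0) = (ec C E : ℝ) * Complex.normSq (A (g + e0)) := by
      rw [← Finset.sum_filter, Finset.sum_congr rfl (g := fun _ => Complex.normSq (A (g + e0)))
        (fun e he => by rw [hval e (mem_filter.1 he).2]), Finset.sum_const, hcount, nsmul_eq_mul]
    rw [hs1, hs2, Complex.normSq_mul, Complex.normSq_natCast]
    ring
  · push Not at hex
    have hs1 : ∑ e : E, (if g + e ∈ C then A (g + e) else 0) = 0 := Finset.sum_eq_zero fun e _ => if_neg (hex e)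
    have hs2 : ∑ e : E, (if g + e ∈ C then Complex.normSq (A (g + e)) else 0) = 0 := Finset.sum_eq_zero fun e _ => if_neg (hex e)
    rw [hs1, hs2]
    simp

/-- averaging over `E` -/
theorem sum_avg (E : AddSubgroup Γ) (G F : Γ → ℝ) (hG : ∀ g, ∀ e ∈ E, G (g + e) = G g) :
    (Fintype.card E : ℝ) * ∑ g, G g * F g = ∑ g, G g * ∑ e : E, F (g + e) := by
  have h1 : ∀ e : E, ∑ g, G g * F (g + e) = ∑ g, G g * F g := by
    intro e
    rw [← Equiv.sum_comp (Equiv.addRight (e : Γ)) (fun g => G g * F g)]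
    refine Finset.sum_congr rfl fun g _ => ?_
    show _ = G (g + e) * F (g + e)
    rw [hG g e e.2]
  have h2 : ∑ g, G g * ∑ e : E, F (g + e) = ∑ e : E, ∑ g, G g * F (g + e) := by
    rw [Finset.sum_comm]
    refine Finset.sum_congr rfl fun g _ => Finset.mul_sum _ _ _
  rw [h2, Finset.sum_congr rfl fun e _ => h1 e, Finset.sum_const, Finset.card_univ, nsmul_eq_mul]

/-- the key identity -/
theorem key_identity (C E : AddSubgroup Γ) (A : Γ → ℂ) (hA : ∀ g, ∀ e ∈ C ⊓ E, A (g + e) = A g)
    (G : Γ → ℝ) (hG : ∀ g, ∀ e ∈ E, G (g + e) = G g) :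
    (C.index : ℝ) * ec C E * ∑ g, (G g * (if g ∈ C then 1 else 1 + (C.index : ℝ))) * Complex.normSq (A g) =
      (Fintype.card E : ℝ) * (∑ l, ∑ g, G g * Complex.normSq (proj C E l A g) +
        (1 / 2) * ∑ q : AddChar (Γ ⧸ C) ℂ × AddChar (Γ ⧸ C) ℂ, ∑ g, G g * Complex.normSq (proj C E q.1 A g - proj C E q.2 A g)) := by
  have hE : (Fintype.card E : ℝ) ≠ 0 := by exact_mod_cast Fintype.card_ne_zero
  have hec : (ec C E : ℝ) ≠ 0 := by exact_mod_cast (ec_pos C E).ne'
  have hidx : (C.index : ℝ) ≠ 0 := by exact_mod_cast AddSubgroup.index_ne_zero_of_finite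
  -- rewrite the right-hand side pointwise
  have hR : ∑ l, ∑ g, G g * Complex.normSq (proj C E l A g) +
        (1 / 2) * ∑ q : AddChar (Γ ⧸ C) ℂ × AddChar (Γ ⧸ C) ℂ, ∑ g, G g * Complex.normSq (proj C E q.1 A g - proj C E q.2 A g) =
      ∑ g, G g * ((1 + (C.index : ℝ)) * ∑ l, Complex.normSq (proj C E l A g) - Complex.normSq (∑ l, proj C E l A g)) := by
    have h1 : ∑ q : AddChar (Γ ⧸ C) ℂ × AddChar (Γ ⧸ C) ℂ, ∑ g, G g * Complex.normSq (proj C E q.1 A g - proj C E q.2 A g) =
        ∑ g, G g * ∑ q : AddChar (Γ ⧸ C) ℂ × AddChar (Γ ⧸ C) ℂ, Complex.normSq (proj C E q.1 A g - proj C E q.2 A g) := by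
      rw [Finset.sum_comm]
      exact Finset.sum_congr rfl fun g _ => (Finset.mul_sum _ _ _).symm
    have h2 : ∑ l, ∑ g, G g * Complex.normSq (proj C E l A g) = ∑ g, G g * ∑ l, Complex.normSq (proj C E l A g) := by
      rw [Finset.sum_comm]
      exact Finset.sum_congr rfl fun g _ => (Finset.mul_sum _ _ _).symm
    rw [h1, h2, Finset.mul_sum, ← Finset.sum_add_distrib]
    refine Finset.sum_congr rfl fun g _ => ?_
    have h3 := sum_sq_identity (fun l => proj C E l A g)
    rw [card_ev] at h3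
    have h4 : (1 / 2 : ℝ) * (G g * ∑ q : AddChar (Γ ⧸ C) ℂ × AddChar (Γ ⧸ C) ℂ, Complex.normSq (proj C E q.1 A g - proj C E q.2 A g)) =
        G g * ((1 / 2) * ∑ q : AddChar (Γ ⧸ C) ℂ × AddChar (Γ ⧸ C) ℂ, Complex.normSq (proj C E q.1 A g - proj C E q.2 A g)) := by ring
    rw [h4, ← h3]
    ring
  rw [hR]
  -- average the left-hand side
  have hL := sum_avg E G (fun g => (if g ∈ C then 1 else 1 + (C.index : ℝ)) * Complex.normSq (A g)) hG
  have hpt : ∀ g, ∑ e : E, (if g + (e : Γ) ∈ C then 1 else 1 + (C.index : ℝ)) * Complex.normSq (A (g + e)) =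
      ((Fintype.card E : ℝ) ^ 2 / ((C.index : ℝ) * ec C E)) *
        ((1 + (C.index : ℝ)) * ∑ l, Complex.normSq (proj C E l A g) - Complex.normSq (∑ l, proj C E l A g)) := by
    intro g
    rw [sum_normSq_proj C E A hA g, normSq_sum_proj C E A hA g]
    have h1 : ∑ e : E, (if g + (e : Γ) ∈ C then 1 else 1 + (C.index : ℝ)) * Complex.normSq (A (g + e)) =
        (1 + (C.index : ℝ)) * ∑ e : E, Complex.normSq (A (g + e)) -
          (C.index : ℝ) * ∑ e : E, (if g + e ∈ C then Complex.normSq (A (g + e)) else 0) := by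
      rw [Finset.mul_sum, Finset.mul_sum, ← Finset.sum_sub_distrib]
      refine Finset.sum_congr rfl fun e _ => ?_
      split_ifs <;> ring
    rw [h1]
    field_simp
  have hL' : ∑ g, (G g * (if g ∈ C then 1 else 1 + (C.index : ℝ))) * Complex.normSq (A g) =
      ∑ g, G g * ((if g ∈ C then 1 else 1 + (C.index : ℝ)) * Complex.normSq (A g)) :=
    Finset.sum_congr rfl fun g _ => by ring
  rw [hL']
  have hL2 : ∑ g, G g * ∑ e : E, (if g + (e : Γ) ∈ C then 1 else 1 + (C.index : ℝ)) * Complex.normSq (A (g + e)) =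
      ((Fintype.card E : ℝ) ^ 2 / ((C.index : ℝ) * ec C E)) *
      ∑ g, G g * ((1 + (C.index : ℝ)) * ∑ l, Complex.normSq (proj C E l A g) - Complex.normSq (∑ l, proj C E l A g)) := by
    rw [Finset.mul_sum]
    refine Finset.sum_congr rfl fun g _ => ?_
    rw [hpt g]
    ring
  rw [hL2] at hL
  have h9 : ∑ g, G g * ((if g ∈ C then 1 else 1 + (C.index : ℝ)) * Complex.normSq (A g)) =
      ((Fintype.card E : ℝ) / ((C.index : ℝ) * ec C E)) *
      ∑ g, G g * ((1 + (C.index : ℝ)) * ∑ l, Complex.normSq (proj C E l A g) - Complex.normSq (∑ l, proj C E l A g)) := by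
    have h10 : (Fintype.card E : ℝ) * ∑ g, G g * ((if g ∈ C then 1 else 1 + (C.index : ℝ)) * Complex.normSq (A g)) =
      (Fintype.card E : ℝ) * (((Fintype.card E : ℝ) / ((C.index : ℝ) * ec C E)) *
      ∑ g, G g * ((1 + (C.index : ℝ)) * ∑ l, Complex.normSq (proj C E l A g) - Complex.normSq (∑ l, proj C E l A g))) := by
      rw [hL]; ring
    exact mul_left_cancel₀ hE h10
  rw [h9]
  field_simp

end Cfsg.Agent.H34.KGV
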