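import Cfsg.Agent.H34.KGV2

/-! A lower bound for weighted norms of generalized characters of finite abelian groups, part 3
(owner: helper34). -/

set_option autoImplicit false
set_option linter.style.haveILetI false

namespace Cfsg.Agent.H34.KGV

open Finset
open scoped ComplexConjugate Classical

variable {Γ : Type*} [AddCommGroup Γ] [Fintype Γ]

/-- the weight attached to a list of subgroups -/
noncomputable def wt (L : List (AddSubgroup Γ)) (g : Γ) : ℝ :=
  (L.map fun C => if g ∈ C then (1 : ℝ) else 1 + (C.index : ℝ)).prod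

/-- the intersection of `H` with a list of subgroups -/
def EL (H : AddSubgroup Γ) : List (AddSubgroup Γ) → AddSubgroup Γ
  | [] => H
  | C :: L => C ⊓ EL H L

/-- the weight vanishing on `H` -/
noncomputable def GG (H : AddSubgroup Γ) (L : List (AddSubgroup Γ)) (g : Γ) : ℝ := if g ∈ H then 0 else wt L g

/-- the weighted norm -/
noncomputable def SS (H : AddSubgroup Γ) (L : List (AddSubgroup Γ)) (A : Γ → ℂ) : ℝ := ∑ g, GG H L g * Complex.normSq (A g)

theorem wt_nonneg (L : List (AddSubgroup Γ)) (g : Γ) : 0 ≤ wt L g := by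
  unfold wt
  apply List.prod_nonneg
  intro a ha
  rw [List.mem_map] at ha
  obtain ⟨C, -, rfl⟩ := ha
  split_ifs <;> positivity

theorem GG_nonneg (H : AddSubgroup Γ) (L : List (AddSubgroup Γ)) (g : Γ) : 0 ≤ GG H L g := by
  unfold GG
  split_ifs
  · exact le_rfl
  · exact wt_nonneg L g

theorem SS_nonneg (H : AddSubgroup Γ) (L : List (AddSubgroup Γ)) (A : Γ → ℂ) : 0 ≤ SS H L A :=
  Finset.sum_nonneg fun g _ => mul_nonneg (GG_nonneg H L g) (Complex.normSq_nonneg _)

theorem EL_le (H : AddSubgroup Γ) (L : List (AddSubgroup Γ)) : EL H L ≤ H := by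
  induction L with
  | nil => exact le_rfl
  | cons C L ih => exact inf_le_right.trans ih

theorem wt_inv (H : AddSubgroup Γ) (L : List (AddSubgroup Γ)) (g e : Γ) (he : e ∈ EL H L) : wt L (g + e) = wt L g := by
  induction L with
  | nil => rfl
  | cons C L ih =>
    have h1 : wt (C :: L) (g + e) = (if g + e ∈ C then (1 : ℝ) else 1 + (C.index : ℝ)) * wt L (g + e) := by
      unfold wt; rw [List.map_cons, List.prod_cons]
    have h2 : wt (C :: L) g = (if g ∈ C then (1 : ℝ) else 1 + (C.index : ℝ)) * wt L g := by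
      unfold wt; rw [List.map_cons, List.prod_cons]
    rw [h1, h2, ih he.2]
    have h3 : g + e ∈ C ↔ g ∈ C := by
      constructor
      · intro h
        have := C.sub_mem h he.1
        rwa [add_sub_cancel_right] at this
      · exact fun h => C.add_mem h he.1
    simp only [h3]

theorem GG_inv (H : AddSubgroup Γ) (L : List (AddSubgroup Γ)) (g e : Γ) (he : e ∈ EL H L) : GG H L (g + e) = GG H L g := by
  unfold GG
  rw [wt_inv H L g e he]
  have h3 : g + e ∈ H ↔ g ∈ H := by
    constructor
    · intro h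
      have := H.sub_mem h (EL_le H L he)
      rwa [add_sub_cancel_right] at this
    · exact fun h => H.add_mem h (EL_le H L he)
  simp only [h3]

/-- the base case -/
theorem base (H : AddSubgroup Γ) (A : Γ → ℂ) (hA : Lat A) (hinv : ∀ g, ∀ e ∈ H, A (g + e) = A g)
    (hne : ∃ g, g ∉ H ∧ A g ≠ 0) : ((H.index : ℝ) - 1) * Fintype.card H ≤ SS H [] A := by
  choose m hm using fun l : AddChar (Γ ⧸ H) ℂ => hA (evChar H l)
  have hΓ : (Fintype.card Γ : ℂ) ≠ 0 := by exact_mod_cast Fintype.card_ne_zero
  have hcard : (H.index : ℂ) * Fintype.card H = Fintype.card Γ := by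
    have h1 := H.card_mul_index
    rw [Nat.card_eq_fintype_card, Nat.card_eq_fintype_card, mul_comm] at h1
    exact_mod_cast h1
  have hcard' : (H.index : ℝ) * Fintype.card H = Fintype.card Γ := by
    have h1 := H.card_mul_index
    rw [Nat.card_eq_fintype_card, Nat.card_eq_fintype_card, mul_comm] at h1
    exact_mod_cast h1
  have hm' : ∀ l, ∑ g, A g * conj (ev H l g) = (Fintype.card Γ : ℂ) * m l := hm
  -- inversion
  have hinvn : ∀ g, A g = ∑ l, (m l : ℂ) * ev H l g := by
    intro g
    apply mul_left_cancel₀ hΓ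
    rw [Finset.mul_sum]
    have h1 : ∀ l, (Fintype.card Γ : ℂ) * ((m l : ℂ) * ev H l g) = ∑ d, A d * ev H l (g - d) := by
      intro l
      rw [← mul_assoc, ← hm' l, Finset.sum_mul]
      refine Finset.sum_congr rfl fun d _ => ?_
      rw [sub_eq_add_neg, ev_add, ev_neg]; ring
    rw [Finset.sum_congr rfl fun l _ => h1 l, Finset.sum_comm]
    have h2 : ∀ d, ∑ l, A d * ev H l (g - d) = if g - d ∈ H then (H.index : ℂ) * A g else 0 := by
      intro d
      rw [← Finset.mul_sum, sum_ev]
      split_ifs with h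
      · have h3 := hinv d (g - d) h
        rw [add_sub_cancel] at h3
        rw [h3]; ring
      · rw [mul_zero]
    rw [Finset.sum_congr rfl fun d _ => h2 d, ← Finset.sum_filter, Finset.sum_const, nsmul_eq_mul]
    have h3 : ((univ : Finset Γ).filter fun d => g - d ∈ H).card = Fintype.card H := by
      rw [← Finset.card_univ]
      symm
      refine Finset.card_bij (fun (e : H) _ => g - e) ?_ ?_ ?_
      · intro a _
        rw [mem_filter]
        refine ⟨mem_univ _, ?_⟩
        rw [sub_sub_cancel]; exact a.2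
      · intro a _ b _ hab
        exact Subtype.ext (sub_right_injective hab)
      · intro b hb
        rw [mem_filter] at hb
        exact ⟨⟨g - b, hb.2⟩, mem_univ _, by simp⟩
    rw [h3, ← mul_assoc, mul_comm (Fintype.card H : ℂ), hcard]
  -- total norm
  have htot : ∑ g, Complex.normSq (A g) = (Fintype.card Γ : ℝ) * ∑ l, ((m l : ℝ)) ^ 2 := by
    have h1 : ((∑ g, Complex.normSq (A g) : ℝ) : ℂ) = (((Fintype.card Γ : ℝ) * ∑ l, ((m l : ℝ)) ^ 2 : ℝ) : ℂ) := by
      push_cast
      rw [Finset.mul_sum]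
      have h2 : ∀ g, ((Complex.normSq (A g) : ℝ) : ℂ) = ∑ l, (m l : ℂ) * (A g * conj (ev H l g)) := by
        intro g
        have h3 : conj (A g) = ∑ l, conj ((m l : ℂ) * ev H l g) := by
          conv_lhs => rw [hinvn g]
          exact map_sum _ _ _
        rw [← Complex.mul_conj, h3, Finset.mul_sum]
        refine Finset.sum_congr rfl fun l _ => ?_
        rw [map_mul, Complex.conj_eq_iff_im.2 (Complex.intCast_im (m l))]
        ring
      rw [Finset.sum_congr rfl fun g _ => h2 g, Finset.sum_comm]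
      refine Finset.sum_congr rfl fun l _ => ?_
      rw [← Finset.mul_sum, hm' l]
      ring
    exact Complex.ofReal_injective h1
  have hA0 : A 0 = ∑ l, (m l : ℂ) := by
    rw [hinvn 0]
    refine Finset.sum_congr rfl fun l _ => ?_
    have : ev H l 0 = 1 := (evChar H l).map_zero_eq_one
    rw [this, mul_one]
  have hHsum : ∑ g, (if g ∈ H then Complex.normSq (A g) else 0) = (Fintype.card H : ℝ) * Complex.normSq (∑ l, (m l : ℂ)) := by
    have h1 : ∀ g, (if g ∈ H then Complex.normSq (A g) else 0) = if g ∈ H then Complex.normSq (∑ l, (m l : ℂ)) else 0 := by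
      intro g
      split_ifs with h
      · have h3 := hinv 0 g h
        rw [zero_add] at h3
        rw [h3, hA0]
      · rfl
    rw [Finset.sum_congr rfl fun g _ => h1 g, ← Finset.sum_filter, Finset.sum_const, nsmul_eq_mul]
    congr 2
    rw [← Fintype.card_subtype]
  have hSS : SS H [] A = (Fintype.card H : ℝ) * ((1 / 2) * ∑ q : AddChar (Γ ⧸ H) ℂ × AddChar (Γ ⧸ H) ℂ, Complex.normSq ((m q.1 : ℂ) - m q.2)) := by
    rw [← sum_sq_identity (fun l : AddChar (Γ ⧸ H) ℂ => (m l : ℂ)), card_ev]
    have h1 : SS H [] A = ∑ g, Complex.normSq (A g) - ∑ g, (if g ∈ H then Complex.normSq (A g) else 0) := by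
      unfold SS
      rw [← Finset.sum_sub_distrib]
      refine Finset.sum_congr rfl fun g _ => ?_
      unfold GG wt
      split_ifs
      · ring
      · simp
    rw [h1, htot, hHsum, ← hcard']
    have h2 : ∑ l, Complex.normSq (m l : ℂ) = ∑ l, (m l : ℝ) ^ 2 := by
      refine Finset.sum_congr rfl fun l _ => ?_
      rw [Complex.normSq_intCast]
      push_cast; ring
    rw [h2]
    ring
  -- not all equal
  have hnc : ∃ l l', m l ≠ m l' := by
    by_contra hcon
    push Not at hcon
    obtain ⟨g, hg, hAg⟩ := hne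
    apply hAg
    rw [hinvn g]
    have h1 : ∀ l, (m l : ℂ) * ev H l g = (m 0 : ℂ) * ev H l g := fun l => by rw [hcon l 0]
    rw [Finset.sum_congr rfl fun l _ => h1 l, ← Finset.mul_sum, sum_ev, if_neg hg, mul_zero]
  have hcount := count_two m hnc
  rw [card_ev] at hcount
  have hsum : (((univ : Finset (AddChar (Γ ⧸ H) ℂ × AddChar (Γ ⧸ H) ℂ)).filter fun q => m q.1 ≠ m q.2).card : ℝ) ≤
      ∑ q : AddChar (Γ ⧸ H) ℂ × AddChar (Γ ⧸ H) ℂ, Complex.normSq ((m q.1 : ℂ) - m q.2) := by
    rw [Finset.card_eq_sum_ones, Nat.cast_sum, Finset.sum_filter]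
    refine Finset.sum_le_sum fun q _ => ?_
    split_ifs with h
    · have h2 : (m q.1 : ℂ) - m q.2 = ((m q.1 - m q.2 : ℤ) : ℂ) := by push_cast; ring
      rw [h2, Complex.normSq_intCast]
      have h3 : (1 : ℤ) ≤ (m q.1 - m q.2) * (m q.1 - m q.2) := by
        have h4 : m q.1 - m q.2 ≠ 0 := sub_ne_zero.2 h
        nlinarith [mul_self_pos.2 h4]
      push_cast
      exact_mod_cast h3
    · exact Complex.normSq_nonneg _
  rw [hSS]
  have hidx : 1 ≤ H.index := Nat.pos_of_ne_zero AddSubgroup.index_ne_zero_of_finite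
  have h5 : 2 * ((H.index : ℝ) - 1) ≤ (((univ : Finset (AddChar (Γ ⧸ H) ℂ × AddChar (Γ ⧸ H) ℂ)).filter fun q => m q.1 ≠ m q.2).card : ℝ) := by
    have h6 : ((2 * (H.index - 1) : ℕ) : ℝ) ≤ (((univ : Finset (AddChar (Γ ⧸ H) ℂ × AddChar (Γ ⧸ H) ℂ)).filter fun q => m q.1 ≠ m q.2).card : ℝ) := by
      exact_mod_cast hcount
    rw [Nat.cast_mul, Nat.cast_sub hidx] at h6
    push_cast at h6
    exact h6
  have h7 : (0 : ℝ) ≤ Fintype.card H := by positivity
  nlinarith [mul_le_mul_of_nonneg_left (h5.trans hsum) h7]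

/-- **the lower bound** -/
theorem lower (H : AddSubgroup Γ) (L : List (AddSubgroup Γ)) : ∀ A : Γ → ℂ, Lat A → (∀ g, ∀ e ∈ EL H L, A (g + e) = A g) →
    (∃ g, g ∉ H ∧ A g ≠ 0) → ((H.index : ℝ) - 1) * (Fintype.card H : ℝ) ^ 2 ≤ Nat.card (EL H L) * SS H L A := by
  induction L with
  | nil =>
    intro A hA hinv hne
    have h1 := base H A hA hinv hne
    have h2 : (Nat.card (EL H []) : ℝ) = Fintype.card H := by
      rw [Nat.card_eq_fintype_card]; rfl
    rw [h2]
    have h3 : (0 : ℝ) ≤ Fintype.card H := by positivity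
    nlinarith [mul_le_mul_of_nonneg_left h1 h3]
  | cons C L ih =>
    intro A hA hinv hne
    set E := EL H L with hE
    set K : ℝ := ((H.index : ℝ) - 1) * (Fintype.card H : ℝ) ^ 2 with hK
    have hidx1 : 1 ≤ H.index := Nat.pos_of_ne_zero AddSubgroup.index_ne_zero_of_finite
    have hK0 : 0 ≤ K := by
      have : (1 : ℝ) ≤ H.index := by exact_mod_cast hidx1
      rw [hK]
      exact mul_nonneg (by linarith) (by positivity)
    have hEc : (0 : ℝ) < Fintype.card E := by exact_mod_cast Fintype.card_pos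
    have hCi : (0 : ℝ) < C.index := by exact_mod_cast Nat.pos_of_ne_zero AddSubgroup.index_ne_zero_of_finite
    have key := key_identity C E A hinv (GG H L) (fun g e he => GG_inv H L g e he)
    -- identify the terms
    have e1 : ∑ g, (GG H L g * (if g ∈ C then 1 else 1 + (C.index : ℝ))) * Complex.normSq (A g) = SS H (C :: L) A := by
      unfold SS
      refine Finset.sum_congr rfl fun g _ => ?_
      congr 1
      unfold GG wt
      rw [List.map_cons, List.prod_cons]
      split_ifs <;> ring
    have e2 : (ec C E : ℝ) = Nat.card (EL H (C :: L)) := by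
      rw [ec_eq]; rfl
    rw [e1, e2] at key
    -- induction hypothesis for the pieces
    let f : AddChar (Γ ⧸ C) ℂ → ({g : Γ // g ∉ H} → ℂ) := fun l g => proj C E l A g
    have ih1 : ∀ B : Γ → ℂ, Lat B → (∀ g, ∀ e ∈ E, B (g + e) = B g) → (∃ g, g ∉ H ∧ B g ≠ 0) → K / Fintype.card E ≤ SS H L B := by
      intro B hB hBi hBn
      have h1 := ih B hB hBi hBn
      rw [Nat.card_eq_fintype_card] at h1
      rw [div_le_iff₀ hEc, mul_comm]
      exact h1
    have hpinv : ∀ l, ∀ g, ∀ e ∈ E, proj C E l A (g + e) = proj C E l A g := fun l g e he => proj_inv C E l A g ⟨e, he⟩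
    have b1 : ∀ l, (if f l ≠ 0 then K / Fintype.card E else 0) ≤ SS H L (proj C E l A) := by
      intro l
      split_ifs with h
      · apply ih1 _ (proj_lat C E l hA) (hpinv l)
        by_contra hcon
        push Not at hcon
        exact h (funext fun g => hcon g g.2)
      · exact SS_nonneg H L _
    have b2 : ∀ q : AddChar (Γ ⧸ C) ℂ × AddChar (Γ ⧸ C) ℂ, (if f q.1 ≠ f q.2 then K / Fintype.card E else 0) ≤
        SS H L (fun g => proj C E q.1 A g - proj C E q.2 A g) := by
      intro q
      split_ifs with h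
      · apply ih1 _ ((proj_lat C E q.1 hA).sub (proj_lat C E q.2 hA)) (fun g e he => by rw [hpinv q.1 g e he, hpinv q.2 g e he])
        by_contra hcon
        push Not at hcon
        exact h (funext fun g => sub_eq_zero.1 (hcon g g.2))
      · exact SS_nonneg H L _
    have hex : ∃ l, f l ≠ 0 := by
      by_contra hcon
      push Not at hcon
      obtain ⟨g, hg, hAg⟩ := hne
      have h1 := sum_normSq_proj C E A hinv g
      have h2 : ∑ l, Complex.normSq (proj C E l A g) = 0 := by
        refine Finset.sum_eq_zero fun l _ => ?_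
        have h3 := congrFun (hcon l) ⟨g, hg⟩
        have h4 : proj C E l A g = 0 := h3
        rw [h4, map_zero]
      rw [h2] at h1
      have h5 : 0 < ((C.index : ℝ) * ec C E / (Fintype.card E : ℝ) ^ 2) * ∑ e : E, Complex.normSq (A (g + e)) := by
        apply mul_pos
        · have := ec_pos C E
          positivity
        · refine Finset.sum_pos' (fun e _ => Complex.normSq_nonneg _) ⟨0, mem_univ _, ?_⟩
          rw [AddSubgroup.coe_zero, add_zero]
          exact Complex.normSq_pos.2 hAg
      linarith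
    have hcount := count_one f 0 hex
    rw [card_ev] at hcount
    have s1 : ((univ.filter fun l => f l ≠ 0).card : ℝ) * (K / Fintype.card E) ≤ ∑ l, SS H L (proj C E l A) := by
      rw [← nsmul_eq_mul, ← Finset.sum_const, Finset.sum_filter]
      exact Finset.sum_le_sum fun l _ => b1 l
    have s2 : (((univ : Finset (AddChar (Γ ⧸ C) ℂ × AddChar (Γ ⧸ C) ℂ)).filter fun q => f q.1 ≠ f q.2).card : ℝ) * (K / Fintype.card E) ≤
        ∑ q : AddChar (Γ ⧸ C) ℂ × AddChar (Γ ⧸ C) ℂ, SS H L (fun g => proj C E q.1 A g - proj C E q.2 A g) := by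
      rw [← nsmul_eq_mul, ← Finset.sum_const, Finset.sum_filter]
      exact Finset.sum_le_sum fun q _ => b2 q
    have hcount' : 2 * (C.index : ℝ) ≤ 2 * ((univ.filter fun l => f l ≠ 0).card : ℝ) +
        (((univ : Finset (AddChar (Γ ⧸ C) ℂ × AddChar (Γ ⧸ C) ℂ)).filter fun q => f q.1 ≠ f q.2).card : ℝ) := by
      exact_mod_cast hcount
    have key2 : (C.index : ℝ) * Nat.card (EL H (C :: L)) * SS H (C :: L) A =
        (Fintype.card E : ℝ) * (∑ l, SS H L (proj C E l A) + (1 / 2) *
          ∑ q : AddChar (Γ ⧸ C) ℂ × AddChar (Γ ⧸ C) ℂ, SS H L (fun g => proj C E q.1 A g - proj C E q.2 A g)) := key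
    have hKE : 0 ≤ K / Fintype.card E := div_nonneg hK0 hEc.le
    have s3 : (C.index : ℝ) * (K / Fintype.card E) ≤ ∑ l, SS H L (proj C E l A) + (1 / 2) *
          ∑ q : AddChar (Γ ⧸ C) ℂ × AddChar (Γ ⧸ C) ℂ, SS H L (fun g => proj C E q.1 A g - proj C E q.2 A g) := by
      have := mul_le_mul_of_nonneg_right hcount' hKE
      nlinarith
    have s4 : (C.index : ℝ) * K ≤ (C.index : ℝ) * (Nat.card (EL H (C :: L)) * SS H (C :: L) A) := by
      have h0 : (C.index : ℝ) * (Nat.card (EL H (C :: L)) * SS H (C :: L) A) =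
        (Fintype.card E : ℝ) * (∑ l, SS H L (proj C E l A) + (1 / 2) *
          ∑ q : AddChar (Γ ⧸ C) ℂ × AddChar (Γ ⧸ C) ℂ, SS H L (fun g => proj C E q.1 A g - proj C E q.2 A g)) := by
        rw [← key2, mul_assoc]
      rw [h0]
      have h1 := mul_le_mul_of_nonneg_left s3 hEc.le
      have h2 : (Fintype.card E : ℝ) * ((C.index : ℝ) * (K / Fintype.card E)) = (C.index : ℝ) * K := by
        field_simp
      rw [h2] at h1
      exact h1
    exact le_of_mul_le_mul_left s4 hCi

end Cfsg.Agent.H34.KGV
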