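import Cfsg.Agent.H34.KGV3
import Cfsg.Agent.Char.RelGlaub

/-! Fixed points of abelian groups acting coprimely on abelian groups
(owner: helper34). -/

set_option autoImplicit false

namespace Cfsg.Agent.H34.KGV

open Cfsg.Agent.Char

universe u v

/-- the fixed points of an element -/
def fixSub {H : Type v} [Group H] {V : Type u} [Group V] (φ : H →* MulAut V) (y : H) : Subgroup V where
  carrier := {w | φ y w = w}
  mul_mem' := by
    intro a b ha hb
    rw [Set.mem_setOf_eq] at *
    rw [map_mul, ha, hb]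
  one_mem' := map_one _
  inv_mem' := by
    intro a ha
    rw [Set.mem_setOf_eq] at *
    rw [map_inv, ha]

theorem mem_fixSub {H : Type v} [Group H] {V : Type u} [Group V] (φ : H →* MulAut V) (y : H) (w : V) :
    w ∈ fixSub φ y ↔ φ y w = w := Iff.rfl

theorem card_fix_le {H : Type v} [Group H] {V : Type u} [CommGroup V] [Finite V] (φ : H →* MulAut V) (V₁ : Subgroup V)
    (hV₁ : ∀ a, ∀ w ∈ V₁, φ a w ∈ V₁) (y : H) :
    Nat.card (fixSub φ y) ≤ Nat.card (fixSub φ y ⊓ V₁ : Subgroup V) * Nat.card (fixSub (RG.quotAct φ V₁ hV₁) y) := by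
  set F := fixSub φ y
  let f : F →* V ⧸ V₁ := (QuotientGroup.mk' V₁).comp F.subtype
  have h1 : Nat.card f.ker * Nat.card f.range = Nat.card F := by
    rw [← Subgroup.index_ker]
    exact f.ker.card_mul_index
  have h2 : Nat.card f.range ≤ Nat.card (fixSub (RG.quotAct φ V₁ hV₁) y) := by
    have h3 : f.range ≤ fixSub (RG.quotAct φ V₁ hV₁) y := by
      rintro _ ⟨w, rfl⟩
      rw [mem_fixSub]
      show RG.quotAct φ V₁ hV₁ y (QuotientGroup.mk (w : V)) = QuotientGroup.mk (w : V)
      rw [RG.quotAct_mk, (mem_fixSub φ y w).1 w.2]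
    exact Nat.card_le_card_of_injective _ (Subgroup.inclusion_injective h3)
  have h3 : Nat.card f.ker ≤ Nat.card (F ⊓ V₁ : Subgroup V) := by
    refine Nat.card_le_card_of_injective (fun x => ⟨(x.1 : V), x.1.2, ?_⟩) ?_
    · have := x.2
      rw [MonoidHom.mem_ker] at this
      exact (QuotientGroup.eq_one_iff _).1 this
    · intro a b hab
      exact Subtype.ext (Subtype.ext (congrArg (fun z : (F ⊓ V₁ : Subgroup V) => (z : V)) hab))
  rw [← h1]
  exact Nat.mul_le_mul h3 h2

open Classical in
/-- existence of a list of subgroups controlling the fixed points -/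
theorem exists_list {H : Type v} [CommGroup H] [Finite H] (n : ℕ) : ∀ (V : Type u) [CommGroup V] [Finite V] (φ : H →* MulAut V),
    Nat.card V = n → (Nat.card V).Coprime (Nat.card H) →
    ∃ L : List (Subgroup H), (∀ y, (∀ C ∈ L, y ∈ C) → ∀ w, φ y w = w) ∧
      ∀ y, (L.map fun C => if y ∈ C then (1 : ℕ) else 1 + C.index).prod * Nat.card (fixSub φ y) ≤ Nat.card V := by
  induction n using Nat.strong_induction_on with
  | _ n ih =>
    intro V _ _ φ hn hco
    by_cases hV : Subsingleton V
    · refine ⟨[], fun y _ w => Subsingleton.elim _ _, fun y => ?_⟩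
      rw [List.map_nil, List.prod_nil, one_mul]
      exact Nat.card_le_card_of_injective _ (Subgroup.subtype_injective _)
    have hnt : Nontrivial V := not_subsingleton_iff_nontrivial.1 hV
    let P : Set (Subgroup V) := {W | W ≠ ⊥ ∧ ∀ a : H, ∀ w ∈ W, φ a w ∈ W}
    obtain ⟨V₁, hV₁, hmin⟩ := (Set.toFinite P).exists_minimal ⟨⊤, top_ne_bot, fun _ _ _ => Subgroup.mem_top _⟩
    obtain ⟨hV₁b, hV₁i⟩ := hV₁
    let C₁ : Subgroup H :=
      { carrier := {y | ∀ w ∈ V₁, φ y w = w}
        mul_mem' := by
          intro a b ha hb w hw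
          rw [map_mul, MulAut.mul_apply, hb w hw, ha w hw]
        one_mem' := by
          intro w _
          rw [map_one, MulAut.one_apply]
        inv_mem' := by
          intro a ha w hw
          have h1 := ha w hw
          rw [map_inv]
          conv_lhs => rw [← h1]
          exact (φ a).symm_apply_apply w }
    have hC₁ : ∀ y, y ∈ C₁ ↔ ∀ w ∈ V₁, φ y w = w := fun y => Iff.rfl
    have hfix : ∀ y, y ∉ C₁ → ∀ w ∈ V₁, φ y w = w → w = 1 := by
      intro y hy w hw hyw
      by_contra hw1
      have h1 : fixSub φ y ⊓ V₁ ∈ P := by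
        refine ⟨fun h => hw1 ?_, fun a x hx => ⟨?_, hV₁i a x hx.2⟩⟩
        · have : w ∈ fixSub φ y ⊓ V₁ := ⟨hyw, hw⟩
          rw [h] at this
          exact Subgroup.mem_bot.1 this
        · show φ y (φ a x) = φ a x
          rw [← MulAut.mul_apply, ← map_mul, mul_comm, map_mul, MulAut.mul_apply, (mem_fixSub φ y x).1 hx.1]
      have h2 := hmin h1 inf_le_right
      exact hy fun x hx => (h2 hx).1
    have hcard1 : 1 + C₁.index ≤ Nat.card V₁ := by
      obtain ⟨w₁, hw₁⟩ := Subgroup.ne_bot_iff_exists_ne_one.1 hV₁b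
      obtain ⟨w₀, hw₀, hw₀1⟩ : ∃ w₀ : V, w₀ ∈ V₁ ∧ w₀ ≠ 1 := ⟨w₁, w₁.2, fun h => hw₁ (Subtype.ext h)⟩
      have h1 : Nat.card (Option (H ⧸ C₁)) ≤ Nat.card V₁ := by
        refine Nat.card_le_card_of_injective (fun o => match o with
          | none => (1 : V₁)
          | some q => ⟨φ q.out w₀, hV₁i _ _ hw₀⟩) ?_
        intro a b hab
        match a, b, hab with
        | none, none, _ => rfl
        | none, some q, hab =>
          exfalso
          have h2 : (1 : V) = φ q.out w₀ := congrArg Subtype.val hab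
          exact hw₀1 ((φ q.out).injective (by rw [← h2, map_one]))
        | some q, none, hab =>
          exfalso
          have h2 : φ q.out w₀ = (1 : V) := congrArg Subtype.val hab
          exact hw₀1 ((φ q.out).injective (by rw [h2, map_one]))
        | some q, some r, hab =>
          have h2 : φ q.out w₀ = φ r.out w₀ := congrArg Subtype.val hab
          have h3 : φ (r.out⁻¹ * q.out) w₀ = w₀ := by
            rw [map_mul, MulAut.mul_apply, h2, map_inv]
            exact (φ r.out).symm_apply_apply w₀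
          have h4 : r.out⁻¹ * q.out ∈ C₁ := by
            by_contra h5
            exact hw₀1 (hfix _ h5 w₀ hw₀ h3)
          have h5 : (QuotientGroup.mk r.out : H ⧸ C₁) = QuotientGroup.mk q.out := QuotientGroup.eq.2 h4
          rw [QuotientGroup.out_eq', QuotientGroup.out_eq'] at h5
          rw [h5]
      rw [Finite.card_option] at h1
      rw [add_comm]
      exact h1
    have hcardV : Nat.card V₁ * Nat.card (V ⧸ V₁) = Nat.card V := V₁.card_mul_index
    have hV₁gt : 1 < Nat.card V₁ := (Subgroup.one_lt_card_iff_ne_bot V₁).2 hV₁b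
    have hlt : Nat.card (V ⧸ V₁) < n := by
      rw [← hn, ← hcardV]
      have : 0 < Nat.card (V ⧸ V₁) := Nat.card_pos
      nlinarith
    have hco' : (Nat.card (V ⧸ V₁)).Coprime (Nat.card H) :=
      Nat.Coprime.coprime_dvd_left ⟨_, by rw [mul_comm]; exact hcardV.symm⟩ hco
    obtain ⟨L, hL1, hL2⟩ := ih _ hlt (V ⧸ V₁) (RG.quotAct φ V₁ hV₁i) rfl hco'
    refine ⟨C₁ :: L, ?_, ?_⟩
    · intro y hy w
      have hy1 : ∀ w ∈ V₁, φ y w = w := hy C₁ List.mem_cons_self
      have hy2 := hL1 y (fun C hC => hy C (List.mem_cons_of_mem _ hC)) (QuotientGroup.mk w)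
      rw [RG.quotAct_mk, eq_comm, QuotientGroup.eq] at hy2
      set u := w⁻¹ * φ y w with hu
      have h1 : φ y w = w * u := by rw [hu]; group
      have h2 : ∀ k : ℕ, φ (y ^ k) w = w * u ^ k := by
        intro k
        induction k with
        | zero => rw [pow_zero, pow_zero, map_one, MulAut.one_apply, mul_one]
        | succ k ihk =>
          rw [pow_succ', map_mul, MulAut.mul_apply, ihk, map_mul, h1, map_pow, hy1 u hy2, pow_succ', mul_assoc]
      have h3 := h2 (Nat.card H)
      rw [pow_card_eq_one', map_one, MulAut.one_apply] at h3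
      have h4 : u ^ Nat.card H = 1 := by
        have := h3.symm
        rwa [mul_eq_left] at this
      have h5 : u ^ Nat.card V = 1 := pow_card_eq_one'
      have h6 : orderOf u ∣ 1 := by
        rw [← hco]
        exact Nat.dvd_gcd (orderOf_dvd_of_pow_eq_one h5) (orderOf_dvd_of_pow_eq_one h4)
      have h7 : u = 1 := orderOf_eq_one_iff.1 (Nat.dvd_one.1 h6)
      rw [h1, h7, mul_one]
    · intro y
      have h1 := hL2 y
      have h2 := card_fix_le φ V₁ hV₁i y
      rw [List.map_cons, List.prod_cons]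
      set Q := (L.map fun C => if y ∈ C then (1 : ℕ) else 1 + C.index).prod
      by_cases hy : y ∈ C₁
      · rw [if_pos hy, one_mul]
        have h3 : Nat.card (fixSub φ y ⊓ V₁ : Subgroup V) ≤ Nat.card V₁ :=
          Nat.card_le_card_of_injective _ (Subgroup.inclusion_injective inf_le_right)
        calc Q * Nat.card (fixSub φ y) ≤ Q * (Nat.card V₁ * Nat.card (fixSub (RG.quotAct φ V₁ hV₁i) y)) :=
              Nat.mul_le_mul_left _ (h2.trans (Nat.mul_le_mul_right _ h3))
          _ = Nat.card V₁ * (Q * Nat.card (fixSub (RG.quotAct φ V₁ hV₁i) y)) := by ring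
          _ ≤ Nat.card V₁ * Nat.card (V ⧸ V₁) := Nat.mul_le_mul_left _ h1
          _ = Nat.card V := hcardV
      · rw [if_neg hy]
        have h3 : Nat.card (fixSub φ y ⊓ V₁ : Subgroup V) = 1 := by
          rw [Subgroup.card_eq_one, eq_bot_iff]
          intro w hw
          exact Subgroup.mem_bot.2 (hfix y hy w hw.2 hw.1)
        rw [h3, one_mul] at h2
        calc (1 + C₁.index) * Q * Nat.card (fixSub φ y) ≤ (1 + C₁.index) * Q * Nat.card (fixSub (RG.quotAct φ V₁ hV₁i) y) :=
              Nat.mul_le_mul_left _ h2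
          _ = (1 + C₁.index) * (Q * Nat.card (fixSub (RG.quotAct φ V₁ hV₁i) y)) := by ring
          _ ≤ Nat.card V₁ * Nat.card (V ⧸ V₁) := Nat.mul_le_mul hcard1 h1
          _ = Nat.card V := hcardV

end Cfsg.Agent.H34.KGV
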