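import Cfsg.Agent.H34.KGV4
import Cfsg.Agent.H75.Ito
import Cfsg.Agent.H75.Tools
import Cfsg.Agent.Char.Linear

/-! Knörr's bound on the number of conjugacy classes
(owner: helper34). -/

set_option autoImplicit false

namespace Cfsg.Agent.H34.KGV

open Cfsg Cfsg.Agent.CharBase Cfsg.Agent.Char Finset
open scoped ComplexConjugate Classical

universe u v w

theorem char_lat {X : Type u} [Group X] [Finite X] {Γ : Type v} [AddCommGroup Γ] [Fintype Γ] (ι : Multiplicative Γ →* X)
    {χ : X → ℂ} (hχ : IsCharacter X χ) : Lat (fun g => χ (ι (Multiplicative.ofAdd g))) := by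
  intro ψ
  have h1 : IsCharacter (Multiplicative Γ) (χ ∘ ι) := isCharacter_comp hχ ι
  have h2 : IsCharacter (Multiplicative Γ) (ψ.toMonoidHom : Multiplicative Γ → ℂ) := isCharacter_of_isIrr (isIrrCharacter_of_hom _)
  obtain ⟨n, hn⟩ := classInner_natCast h1 h2
  unfold classInner at hn
  refine ⟨n, ?_⟩
  have h3 : (Nat.card (Multiplicative Γ) : ℂ) = Fintype.card Γ := by
    rw [Nat.card_congr (Multiplicative.toAdd (α := Γ)), Nat.card_eq_fintype_card]
  have h4 : (Fintype.card Γ : ℂ) ≠ 0 := by exact_mod_cast Fintype.card_ne_zero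
  rw [h3, inv_mul_eq_iff_eq_mul₀ h4] at hn
  have h5 : ∑ g : Γ, χ (ι (Multiplicative.ofAdd g)) * conj (ψ g) =
      ∑ g : Multiplicative Γ, (χ ∘ ι) g * conj ((ψ.toMonoidHom : Multiplicative Γ → ℂ) g) :=
    Fintype.sum_equiv Multiplicative.ofAdd _ _ fun g => rfl
  rw [h5, hn]
  push_cast
  rfl

/-- a character vanishing off the identity of a subgroup of order `p` has degree divisible by `p` -/
theorem dvd_deg {X : Type u} [Group X] [Finite X] {P : Type v} [CommGroup P] [Finite P] (p : ℕ) (hP : Nat.card P = p)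
    (ι : P →* X) (χ : IrrCharacter X) (h0 : ∀ x : P, x ≠ 1 → (χ : X → ℂ) (ι x) = 0) : p ∣ H75.deg χ := by
  have := Fintype.ofFinite P
  have h1 : IsCharacter P ((χ : X → ℂ) ∘ ι) := isCharacter_comp (isCharacter_of_isIrr χ.2) ι
  have h2 : IsCharacter P ((1 : P →* ℂ) : P → ℂ) := isCharacter_of_isIrr (isIrrCharacter_of_hom _)
  obtain ⟨n, hn⟩ := classInner_natCast h1 h2
  unfold classInner at hn
  have h4 : (Nat.card P : ℂ) ≠ 0 := by exact_mod_cast Nat.card_pos.ne'
  rw [inv_mul_eq_iff_eq_mul₀ h4, Finset.sum_eq_single 1] at hn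
  · rw [Function.comp_apply, map_one, map_one, map_one, mul_one, H75.deg_spec] at hn
    exact ⟨n, by rw [← hP]; exact_mod_cast hn⟩
  · intro x _ hx
    rw [Function.comp_apply, h0 x hx, zero_mul]
  · intro h
    exact absurd (Finset.mem_univ _) h

/-- the weight of an element of `H` -/
noncomputable def wtH {H : Type v} [Group H] (L : List (Subgroup H)) (y : H) : ℕ :=
  (L.map fun C => if y ∈ C then (1 : ℕ) else 1 + C.index).prod

section

variable {P : Type v} [CommGroup P] {H : Type v} [CommGroup H]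

/-- the subgroup `P × C` in additive form -/
def upSub (C : Subgroup H) : AddSubgroup (Additive (P × H)) := Subgroup.toAddSubgroup (Subgroup.prod ⊤ C)

theorem mem_upSub (C : Subgroup H) (g : Additive (P × H)) : g ∈ upSub (P := P) C ↔ g.toMul.2 ∈ C := by
  show g.toMul ∈ Subgroup.prod ⊤ C ↔ _
  rw [Subgroup.mem_prod]
  simp

theorem index_upSub (C : Subgroup H) : (upSub (P := P) C).index = C.index := by
  unfold upSub
  rw [Subgroup.index_toAddSubgroup, Subgroup.index_prod, Subgroup.index_top, one_mul]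

variable (P H) in
/-- the subgroup `1 × H` in additive form -/
def botSub : AddSubgroup (Additive (P × H)) := Subgroup.toAddSubgroup (Subgroup.prod ⊥ ⊤)

theorem mem_botSub (g : Additive (P × H)) : g ∈ botSub P H ↔ g.toMul.1 = 1 := by
  show g.toMul ∈ Subgroup.prod ⊥ ⊤ ↔ _
  rw [Subgroup.mem_prod]
  simp

theorem index_botSub : (botSub P H).index = Nat.card P := by
  unfold botSub
  rw [Subgroup.index_toAddSubgroup, Subgroup.index_prod, Subgroup.index_top, mul_one, Subgroup.index_bot]

theorem wt_up (L : List (Subgroup H)) (g : Additive (P × H)) :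
    wt (L.map upSub) g = wtH L g.toMul.2 := by
  unfold wt wtH
  rw [List.map_map]
  induction L with
  | nil => simp
  | cons C L ih =>
    rw [List.map_cons, List.prod_cons, List.map_cons, List.prod_cons, ih, Nat.cast_mul]
    congr 1
    rw [Function.comp_apply, index_upSub]
    by_cases h : g.toMul.2 ∈ C
    · rw [if_pos h, if_pos ((mem_upSub C g).2 h), Nat.cast_one]
    · rw [if_neg h, if_neg (fun h' => h ((mem_upSub C g).1 h'))]
      push_cast; rfl

theorem mem_EL_up (L : List (Subgroup H)) (g : Additive (P × H)) (hg : g ∈ EL (botSub P H) (L.map upSub)) :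
    g.toMul.1 = 1 ∧ ∀ C ∈ L, g.toMul.2 ∈ C := by
  induction L with
  | nil => exact ⟨(mem_botSub g).1 hg, fun C hC => absurd hC List.not_mem_nil⟩
  | cons C L ih =>
    obtain ⟨h1, h2⟩ := ih hg.2
    refine ⟨h1, fun D hD => ?_⟩
    rcases List.mem_cons.1 hD with rfl | hD
    · exact (mem_upSub D g).1 hg.1
    · exact h2 D hD

end

/-- Knörr's bound. -/
theorem main_bound {X : Type u} [Group X] [Finite X] (p : ℕ) [hp : Fact p.Prime] {P : Type v} [CommGroup P] [Finite P] {H : Type v}
    [CommGroup H] [Finite H] (ι : P × H →* X) (hP : Nat.card P = p) (L : List (Subgroup H)) (hL : ∀ y, (∀ C ∈ L, y ∈ C) → y = 1)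
    (F : ℕ) (hF : ∀ u y, u ≠ 1 → wtH L y * Nat.card (Subgroup.centralizer ({ι (u, y)} : Set X)) ≤ F * Nat.card H)
    (hdeg : ∀ χ : IrrCharacter X, ¬ p ∣ H75.deg χ) : Nat.card (ConjClasses X) ≤ F := by
  have := Fintype.ofFinite P
  have := Fintype.ofFinite H
  have : Fintype (Additive (P × H)) := Fintype.ofFinite _
  have := Fintype.ofFinite (IrrCharacter X)
  have hb : Nat.card (EL (botSub P H) (L.map upSub)) = 1 := by
    rw [AddSubgroup.card_eq_one, eq_bot_iff]
    intro g hg
    obtain ⟨h1, h2⟩ := mem_EL_up L g hg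
    have h3 := hL _ h2
    exact AddSubgroup.mem_bot.2 (Prod.ext h1 h3)
  have hHc : Fintype.card (botSub P H) = Nat.card H := by
    have h1 := (botSub P H).card_mul_index
    rw [index_botSub] at h1
    have h2 : Nat.card (Additive (P × H)) = Nat.card H * Nat.card P := by
      rw [mul_comm]; exact Nat.card_prod P H
    rw [h2] at h1
    rw [← Nat.card_eq_fintype_card]
    exact Nat.eq_of_mul_eq_mul_right Nat.card_pos h1
  -- the character inequality
  have key : ∀ χ : IrrCharacter X, ((p : ℝ) - 1) * (Nat.card H : ℝ) ^ 2 ≤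
      ∑ g : Additive (P × H), GG (botSub P H) (L.map upSub) g * Complex.normSq ((χ : X → ℂ) (ι g.toMul)) := by
    intro χ
    have h1 := lower (botSub P H) (L.map upSub) (fun g => (χ : X → ℂ) (ι g.toMul))
      (char_lat (Γ := Additive (P × H)) ι (isCharacter_of_isIrr χ.2)) ?_ ?_
    · rw [index_botSub, hP, hb, Nat.cast_one, one_mul, hHc] at h1
      exact h1
    · intro g e he
      have h2 : e = 0 := by
        have := (AddSubgroup.card_eq_one.1 hb)
        rw [this] at he
        exact AddSubgroup.mem_bot.1 he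
      rw [h2, add_zero]
    · by_contra hcon
      push Not at hcon
      refine hdeg χ (dvd_deg p hP (ι.comp (MonoidHom.inl P H)) χ fun x hx => ?_)
      exact hcon (Additive.ofMul (x, 1)) (fun h => hx ((mem_botSub _).1 h))
  have h1 : ((Nat.card (ConjClasses X) : ℕ) : ℝ) * (((p : ℝ) - 1) * (Nat.card H : ℝ) ^ 2) ≤
      ∑ g : Additive (P × H), GG (botSub P H) (L.map upSub) g *
        Nat.card (Subgroup.centralizer ({ι g.toMul} : Set X)) := by
    have h2 : ∑ _χ : IrrCharacter X, ((p : ℝ) - 1) * (Nat.card H : ℝ) ^ 2 ≤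
      ∑ χ : IrrCharacter X, ∑ g : Additive (P × H), GG (botSub P H) (L.map upSub) g * Complex.normSq ((χ : X → ℂ) (ι g.toMul)) :=
      Finset.sum_le_sum fun χ _ => key χ
    rw [Finset.sum_const, Finset.card_univ, ← Nat.card_eq_fintype_card, card_irr_eq_card_conjClasses, nsmul_eq_mul] at h2
    refine h2.trans (le_of_eq ?_)
    rw [Finset.sum_comm]
    refine Finset.sum_congr rfl fun g _ => ?_
    rw [← Finset.mul_sum]
    congr 1
    have h3 := column_orthogonality (ι g.toMul) (ι g.toMul)
    rw [if_pos (IsConj.refl _)] at h3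
    have h4 : ((∑ χ : IrrCharacter X, Complex.normSq ((χ : X → ℂ) (ι g.toMul)) : ℝ) : ℂ) =
        ((Nat.card (Subgroup.centralizer ({ι g.toMul} : Set X)) : ℝ) : ℂ) := by
      push_cast
      rw [← h3]
      exact Finset.sum_congr rfl fun χ _ => (Complex.mul_conj _).symm
    exact_mod_cast h4
  have h2 : ∑ g : Additive (P × H), GG (botSub P H) (L.map upSub) g *
        Nat.card (Subgroup.centralizer ({ι g.toMul} : Set X)) ≤
      ∑ g : Additive (P × H), (if g.toMul.1 = 1 then 0 else (F : ℝ) * Nat.card H) := by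
    refine Finset.sum_le_sum fun g _ => ?_
    unfold GG
    by_cases hg : g.toMul.1 = 1
    · rw [if_pos hg, if_pos ((mem_botSub g).2 hg), zero_mul]
    · rw [if_neg hg, if_neg (fun h => hg ((mem_botSub g).1 h)), wt_up]
      exact_mod_cast hF g.toMul.1 g.toMul.2 hg
  have h3 : ∑ g : Additive (P × H), (if g.toMul.1 = 1 then 0 else (F : ℝ) * Nat.card H) =
      ((p : ℝ) - 1) * (Nat.card H : ℝ) * ((F : ℝ) * Nat.card H) := by
    have h4 : ∑ g : Additive (P × H), (if g.toMul.1 = 1 then 0 else (F : ℝ) * Nat.card H) =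
        ∑ g : P × H, (if g.1 = 1 then 0 else (F : ℝ) * Nat.card H) :=
      Fintype.sum_equiv Additive.toMul _ _ fun g => rfl
    have h4' : ∑ g : P × H, (if g.1 = 1 then 0 else (F : ℝ) * Nat.card H) =
        ∑ x : P, ∑ _y : H, (if x = 1 then 0 else (F : ℝ) * Nat.card H) := Fintype.sum_prod_type _
    rw [h4, h4']
    simp only [Finset.sum_const, Finset.card_univ, nsmul_eq_mul]
    rw [← Finset.mul_sum]
    have h5 : ∑ x : P, (if x = 1 then 0 else (F : ℝ) * Nat.card H) = ((p : ℝ) - 1) * ((F : ℝ) * Nat.card H) := by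
      have h6 : ∀ x : P, (if x = 1 then 0 else (F : ℝ) * Nat.card H) = (F : ℝ) * Nat.card H - (if x = 1 then (F : ℝ) * Nat.card H else 0) := by
        intro x
        split_ifs <;> ring
      rw [Finset.sum_congr rfl fun x _ => h6 x, Finset.sum_sub_distrib, Finset.sum_const, Finset.sum_ite_eq', if_pos (Finset.mem_univ _),
        Finset.card_univ, ← Nat.card_eq_fintype_card, hP, nsmul_eq_mul]
      ring
    rw [h5, ← Nat.card_eq_fintype_card]
    ring
  have hp1 : (0 : ℝ) < (p : ℝ) - 1 := by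
    have := hp.out.one_lt
    have : (1 : ℝ) < p := by exact_mod_cast this
    linarith
  have hH0 : (0 : ℝ) < (Nat.card H : ℝ) ^ 2 := by
    have : (0 : ℝ) < Nat.card H := by exact_mod_cast Nat.card_pos
    positivity
  have h4 : ((Nat.card (ConjClasses X) : ℕ) : ℝ) * (((p : ℝ) - 1) * (Nat.card H : ℝ) ^ 2) ≤ (F : ℝ) * (((p : ℝ) - 1) * (Nat.card H : ℝ) ^ 2) := by
    refine h1.trans (h2.trans (le_of_eq ?_))
    rw [h3]; ring
  exact_mod_cast le_of_mul_le_mul_right h4 (mul_pos hp1 hH0)

end Cfsg.Agent.H34.KGV
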