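import Cfsg.Agent.Glaub.Cyclic
import Cfsg.Agent.Char.CliffordCorr

/-!
# Rational extensions of an invariant character of a normal Hall subgroup (owner: helper34)
-/

set_option autoImplicit false
set_option linter.unusedSectionVars false
set_option linter.style.haveILetI false

universe u

namespace Cfsg.Agent.H34.PSL

open scoped ComplexConjugate BigOperators
open Cfsg Cfsg.Agent.CharBase Cfsg.Agent.Char Cfsg.Agent.Char.CC

/-- the canonical extension to a subgroup of the inertia group -/
theorem canon_ext {Γ : Type u} [Group Γ] [Finite Γ] (N : Subgroup Γ) [hN : N.Normal]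
    (hcop : (Nat.card N).Coprime N.index) {θ : N → ℂ} (hθ : IsIrrCharacter N θ) (T : Subgroup Γ)
    (hNT : N ≤ T) (hinv : ∀ t ∈ T, cj N t θ = θ) :
    ∃ φ : T → ℂ, IsIrrCharacter T φ ∧ (∀ n : N, φ ⟨n, hNT n.2⟩ = θ n) ∧
      ∀ (k : ℕ) (t : T), k ≡ 1 [MOD Nat.card N] → k.Coprime (Nat.card T) → φ (t ^ k) = φ t := by
  classical
  haveI := Fintype.ofFinite Γ
  set N' := N.subgroupOf T with hN'
  haveI : N'.Normal := by rw [hN']; infer_instance
  have hcard : Nat.card N' = Nat.card N := Nat.card_congr (Subgroup.subgroupOfEquivOfLe hNT).toEquiv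
  have hidx : N'.index ∣ N.index := by
    have : N'.index * T.index = N.index := Subgroup.relIndex_mul_index hNT
    exact ⟨_, this.symm⟩
  have hcop' : (Nat.card N').Coprime N'.index := by
    rw [hcard]; exact hcop.coprime_dvd_right hidx
  set θ' : N' → ℂ := fun n => θ ⟨((n : T) : Γ), n.2⟩ with hθ'
  have hirr : IsIrrCharacter N' θ' :=
    isIrrCharacter_comp_surjective hθ (Subgroup.subgroupOfEquivOfLe hNT).toMonoidHom
      (Subgroup.subgroupOfEquivOfLe hNT).surjective
  have hinv' : ∀ (g : T) (n : N'), θ' ⟨g * n * g⁻¹, (inferInstance : N'.Normal).conj_mem (n : T) n.2 g⟩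
      = θ' n := by
    intro g n
    have h1 := congrFun (hinv g g.2) ⟨((n : T) : Γ), n.2⟩
    rw [cj_apply] at h1
    exact h1
  obtain ⟨d, hd⟩ := exists_nat_degree (isCharacter_of_isIrr hirr)
  have hcop2 : Nat.Coprime N'.index (detOrder θ' * d) := by
    apply Nat.Coprime.mul_right
    · exact (hcop'.coprime_dvd_left (H79.detOrder_dvd_card (⟨θ', hirr⟩ : IrrCharacter N'))).symm
    · exact (hcop'.coprime_dvd_left (degree_dvd_card hirr hd)).symm
  obtain ⟨φ, ⟨hφ1, hφ2, hφ3⟩, -⟩ := S0867.result N' θ' hirr hinv' d hd hcop2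
  refine ⟨φ, hφ1, fun n => hφ2 ⟨⟨n, hNT n.2⟩, n.2⟩, fun k t hk hk2 => ?_⟩
  have hres : (fun g : N' => φ g) = θ' := funext hφ2
  exact Glaub.aut_fix N' hcop' ⟨φ, hφ1⟩ (by
      change IsIrrCharacter N' (fun g : N' => φ g)
      rw [hres]; exact hirr) (by
      change (detOrder φ).Coprime N'.index
      rw [hφ3]
      exact (hcop'.coprime_dvd_left (H79.detOrder_dvd_card (⟨θ', hirr⟩ : IrrCharacter N'))))
    (by rw [hcard]; exact hk) hk2 t

/-- the orbit sum extends to a rational character -/
theorem orbit_ext {Γ : Type u} [Group Γ] [Fintype Γ] (N : Subgroup Γ) [hN : N.Normal]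
    (hcop : (Nat.card N).Coprime N.index) {θ : N → ℂ} (hθ : IsIrrCharacter N θ) :
    ∃ E : Γ → ℂ, IsCharacter Γ E ∧ (∀ n : N, E n = (∑ ψ ∈ orb N θ, ψ) n) ∧
      ∀ (k : ℕ) (x : Γ), k ≡ 1 [MOD Nat.card N] → k.Coprime (Nat.card Γ) → E (x ^ k) = E x := by
  classical
  set T := inertia N θ with hT
  have hNT : N ≤ T := le_inertia N (isClassFunction_of_isCharacter (isCharacter_of_isIrr hθ))
  obtain ⟨φ, hφ1, hφ2, hφ3⟩ := canon_ext N hcop hθ T hNT (fun t ht => (mem_inertia N).mp ht)
  refine ⟨indFun T φ, indFun_isCharacter T φ (isCharacter_of_isIrr hφ1), fun n => ?_,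
    fun k x hk hk2 => ?_⟩
  · rw [indFun_apply']
    have h1 : ∀ x : Γ, extendByZero T φ (x * n * x⁻¹) = cj N x θ n := by
      intro x
      have hm : x * n * x⁻¹ ∈ N := hN.conj_mem (n : Γ) n.2 x
      rw [extendByZero_of_mem T φ (hNT hm), cj_apply]
      exact hφ2 ⟨_, hm⟩
    rw [Finset.sum_congr rfl fun x _ => h1 x]
    have h2 : ∀ ψ ∈ orb N θ, (Finset.univ.filter fun g : Γ => cj N g θ = ψ).card = Nat.card T := by
      intro ψ hψ
      obtain ⟨g, hg⟩ := (mem_orb N).mp hψ
      rw [Nat.card_eq_fintype_card, ← Finset.card_univ]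
      symm
      refine Finset.card_bij (fun t _ => (t : Γ) * g) ?_ ?_ ?_
      · intro t _
        rw [Finset.mem_filter]
        refine ⟨Finset.mem_univ _, ?_⟩
        rw [cj_mul, (mem_inertia N).mp t.2, hg]
      · intro a _ b _ hab
        exact Subtype.ext (mul_right_cancel hab)
      · intro b hb
        have hb' := (Finset.mem_filter.mp hb).2
        refine ⟨⟨b * g⁻¹, ?_⟩, Finset.mem_univ _, ?_⟩
        · exact (cj_eq_cj_iff N).mp (hb'.trans hg.symm)
        · simp
    have h3 : ∑ x : Γ, cj N x θ n = ∑ ψ ∈ orb N θ, (Nat.card T : ℂ) * ψ n := by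
      rw [← Finset.sum_fiberwise_of_maps_to (s := Finset.univ) (t := orb N θ)
        (g := fun x : Γ => cj N x θ) (fun x _ => (mem_orb N).mpr ⟨x, rfl⟩)]
      refine Finset.sum_congr rfl fun ψ hψ => ?_
      rw [Finset.sum_congr rfl (g := fun _ => ψ n) (fun x hx => by
        rw [(Finset.mem_filter.mp hx).2]), Finset.sum_const, h2 ψ hψ, nsmul_eq_mul]
    rw [h3, ← Finset.mul_sum, ← mul_assoc, inv_mul_cancel₀ (card_ne_zero_complex T), one_mul,
      Finset.sum_apply]
  · rw [indFun_apply', indFun_apply']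
    congr 1
    refine Finset.sum_congr rfl fun y _ => ?_
    have h1 : y * x ^ k * y⁻¹ = (y * x * y⁻¹) ^ k := by rw [conj_pow]
    rw [h1]
    generalize y * x * y⁻¹ = z
    by_cases hz : z ∈ T
    · rw [extendByZero_of_mem T φ hz, extendByZero_of_mem T φ (T.pow_mem hz k)]
      exact hφ3 k ⟨z, hz⟩ hk (hk2.coprime_dvd_right T.card_subgroup_dvd_card)
    · rw [extendByZero_of_notMem T φ hz, extendByZero_of_notMem T φ]
      intro hzk
      apply hz
      obtain ⟨m, hm⟩ := exists_pow_eq_self_of_coprime (n := k) (x := z)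
        (hk2.coprime_dvd_right (orderOf_dvd_natCard z))
      rw [← hm]
      exact T.pow_mem hzk m

/-- **rational extension** of an invariant character of a normal Hall subgroup -/
theorem inv_ext {Γ : Type u} [Group Γ] [Fintype Γ] (N : Subgroup Γ) [hN : N.Normal]
    (hcop : (Nat.card N).Coprime N.index) (d : ℕ) : ∀ {ξ : N → ℂ}, IsCharacter N ξ → ξ 1 = d →
    (∀ g : Γ, cj N g ξ = ξ) →
    ∃ E : Γ → ℂ, IsCharacter Γ E ∧ (∀ n : N, E n = ξ n) ∧
      ∀ (k : ℕ) (x : Γ), k ≡ 1 [MOD Nat.card N] → k.Coprime (Nat.card Γ) → E (x ^ k) = E x := by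
  classical
  induction d using Nat.strong_induction_on with
  | _ d ih =>
    intro ξ hξ hd hinv
    haveI := Fintype.ofFinite N
    by_cases h0 : ξ = 0
    · refine ⟨0, isCharacter_zero, fun n => by rw [h0]; rfl, fun k x _ _ => rfl⟩
    obtain ⟨θ, hθ, hne⟩ := exists_constituent hξ h0
    have hclθ := isClassFunction_of_isCharacter (isCharacter_of_isIrr hθ)
    have hirr : ∀ ψ ∈ orb N θ, IsIrrCharacter N ψ := by
      intro ψ hψ
      obtain ⟨g, rfl⟩ := (mem_orb N).mp hψ
      exact isIrrCharacter_cj N g hθ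
    have hmul : ∀ ψ ∈ orb N θ, classInner ξ ψ = classInner ξ θ := by
      intro ψ hψ
      obtain ⟨g, rfl⟩ := (mem_orb N).mp hψ
      conv_lhs => rw [← hinv g]
      exact classInner_cj N g _ _
    set S : N → ℂ := ∑ ψ ∈ orb N θ, ψ with hS
    have hSchar : IsCharacter N S := isCharacter_sum _ _ fun ψ hψ => isCharacter_of_isIrr (hirr ψ hψ)
    have hSinv : ∀ g : Γ, cj N g S = S := by
      intro g
      funext n
      rw [cj_apply, hS, Finset.sum_apply, Finset.sum_apply]
      refine Finset.sum_bij (fun ψ _ => cj N g ψ) ?_ ?_ ?_ ?_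
      · intro ψ hψ
        obtain ⟨h, rfl⟩ := (mem_orb N).mp hψ
        exact (mem_orb N).mpr ⟨h * g, cj_mul N h g θ⟩
      · intro a _ b _ hab
        exact cj_injective N g hab
      · intro ψ hψ
        obtain ⟨h, rfl⟩ := (mem_orb N).mp hψ
        refine ⟨cj N (h * g⁻¹) θ, (mem_orb N).mpr ⟨_, rfl⟩, ?_⟩
        rw [← cj_mul, inv_mul_cancel_right]
      · intro ψ _
        rfl
    have hchar : IsCharacter N (ξ - S) := by
      apply isCharacter_of_classInner_nat
      · exact isClassFunction_sub (isClassFunction_of_isCharacter hξ)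
          (isClassFunction_of_isCharacter hSchar)
      intro ψ
      rw [classInner_sub_left]
      obtain ⟨m, hm⟩ := classInner_natCast hξ (irr_isCharacter ψ)
      by_cases hψ : (ψ : N → ℂ) ∈ orb N θ
      · have h1 : classInner S (ψ : N → ℂ) = 1 := by
          rw [hS, classInner_sum_left, Finset.sum_eq_single (ψ : N → ℂ)]
          · exact classInner_irr_self ψ
          · intro b hb hbne
            exact classInner_irr_of_ne (χ := ⟨b, hirr b hb⟩) (ψ := ψ)
              (fun h => hbne (congrArg Subtype.val h))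
          · intro h; exact absurd hψ h
        have hm0 : m ≠ 0 := by
          rintro rfl
          rw [hmul _ hψ] at hm
          exact hne (by rw [hm]; simp)
        refine ⟨m - 1, ?_⟩
        rw [h1, hm, Nat.cast_sub (Nat.one_le_iff_ne_zero.mpr hm0), Nat.cast_one]
      · have h1 : classInner S (ψ : N → ℂ) = 0 := by
          rw [hS, classInner_sum_left]
          refine Finset.sum_eq_zero fun b hb => ?_
          exact classInner_irr_of_ne (χ := ⟨b, hirr b hb⟩) (ψ := ψ)
              (fun h => hψ (by rw [← h]; exact hb))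
        exact ⟨m, by rw [h1, hm, sub_zero]⟩
    obtain ⟨s, hs⟩ := exists_nat_degree hSchar
    obtain ⟨t, ht⟩ := exists_nat_degree hchar
    obtain ⟨c, hc⟩ := exists_nat_degree (isCharacter_of_isIrr hθ)
    have hc0 : 0 < c := by
      rcases Nat.eq_zero_or_pos c with h | h
      · exfalso
        have := degree_dvd_card hθ hc
        rw [h] at this
        exact Nat.card_pos.ne' (Nat.eq_zero_of_zero_dvd this)
      · exact h
    have hs0 : s = (orb N θ).card * c := by
      have h1 : S 1 = ((orb N θ).card * c : ℕ) := by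
        rw [hS, Finset.sum_apply, Finset.sum_congr rfl (g := fun _ => (c : ℂ)), Finset.sum_const,
          nsmul_eq_mul]
        · push_cast; ring
        · intro ψ hψ
          obtain ⟨g, rfl⟩ := (mem_orb N).mp hψ
          rw [cj_one_apply, hc]
      rw [hs] at h1
      exact_mod_cast h1
    have hspos : 0 < s := by
      rw [hs0]
      exact Nat.mul_pos (Finset.card_pos.mpr ⟨θ, self_mem_orb N θ⟩) hc0
    have hst : t + s = d := by
      have h1 : (ξ - S) 1 = (d : ℂ) - s := by rw [Pi.sub_apply, hd, hs]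
      rw [ht] at h1
      have h2 : ((t + s : ℕ) : ℂ) = d := by push_cast; rw [h1]; ring
      exact_mod_cast h2
    obtain ⟨E1, hE1, hE1N, hE1k⟩ := ih t (by omega) hchar ht (fun g => by
      have h1 : cj N g (ξ - S) = cj N g ξ - cj N g S := rfl
      rw [h1, hinv, hSinv])
    obtain ⟨E2, hE2, hE2N, hE2k⟩ := orbit_ext N hcop hθ
    refine ⟨E1 + E2, isCharacter_add hE1 hE2, fun n => ?_, fun k x hk hk2 => ?_⟩
    · rw [Pi.add_apply, hE1N, hE2N, Pi.sub_apply, sub_add_cancel]
    · rw [Pi.add_apply, Pi.add_apply, hE1k k x hk hk2, hE2k k x hk hk2]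

end Cfsg.Agent.H34.PSL
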