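import Cfsg.Agent.H34.PSL1
import Cfsg.Agent.S4488
import Cfsg.Agent.H75.Tools
import Cfsg.Agent.H79.PSolvDual
import Cfsg.Agent.Cop.Hall
import Cfsg.Agent.Solv.Core
import Cfsg.Agent.H67.Radical

/-!
# The Sylow index of the `p`-core of a `p`-solvable linear group (owner: helper34)
-/

set_option autoImplicit false
set_option linter.unusedSectionVars false
set_option linter.style.haveILetI false

universe u

namespace Cfsg.Agent.H34.PSL

open scoped ComplexConjugate BigOperators
open Cfsg Cfsg.Agent.CharBase Cfsg.Agent.Char Cfsg.Agent.Char.CC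

/-- Schur's bound for a `p`-group acting faithfully on a `p'`-group with an invariant faithful
character -/
theorem card_bound {Γ : Type u} [Group Γ] [Finite Γ] {p : ℕ} (hp : p.Prime) (N : Subgroup Γ)
    [hN : N.Normal] (hNp : (Nat.card N).Coprime p) (P : Subgroup Γ) (hP : IsPGroup p P)
    (hC : ∀ x ∈ P, (∀ n ∈ N, x * n = n * x) → x = 1) {ξ : N → ℂ} (hξ : IsCharacter N ξ)
    (hinv : ∀ g : Γ, cj N g ξ = ξ) (hfaith : ∀ n : N, ξ n = ξ 1 → n = 1) (n : ℕ)
    (hn : charDegree ξ = n) :
    (Nat.card P).factorization p ≤ ∑ i ∈ Finset.range (n + 1), n / ((p - 1) * p ^ i) := by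
  classical
  haveI := Fact.mk hp
  set L := N ⊔ P with hL
  have hNL : N ≤ L := le_sup_left
  have hPL : P ≤ L := le_sup_right
  haveI := Fintype.ofFinite L
  set N' := N.subgroupOf L with hN'
  haveI hN'n : N'.Normal := by rw [hN']; infer_instance
  have hcard : Nat.card N' = Nat.card N := Nat.card_congr (Subgroup.subgroupOfEquivOfLe hNL).toEquiv
  obtain ⟨a, ha⟩ := IsPGroup.iff_card.mp hP
  have hidx : N'.index ∣ p ^ a := by
    have h1 : N'.index = N.relIndex P := by
      change N.relIndex L = N.relIndex P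
      rw [hL, sup_comm, Subgroup.relIndex_sup_right]
    rw [h1, ← ha]
    exact Subgroup.relIndex_dvd_card N P
  have hcopa : (Nat.card N).Coprime (p ^ a) := Nat.Coprime.pow_right a hNp
  have hcop : (Nat.card N').Coprime N'.index := by
    rw [hcard]; exact hcopa.coprime_dvd_right hidx
  set ξ' : N' → ℂ := ξ ∘ (Subgroup.subgroupOfEquivOfLe hNL).toMonoidHom with hξ'
  have hξ'v : ∀ m : N', ξ' m = ξ ⟨((m : L) : Γ), m.2⟩ := fun m => rfl
  have hξ'c : IsCharacter N' ξ' := isCharacter_comp hξ _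
  obtain ⟨d, hd⟩ := exists_nat_degree hξ
  have hd' : ξ' 1 = d := hd
  have hinv' : ∀ g : L, cj N' g ξ' = ξ' := by
    intro g
    funext m
    have h1 := congrFun (hinv g) ⟨((m : L) : Γ), m.2⟩
    rw [cj_apply] at h1
    rw [cj_apply, hξ'v, hξ'v]
    exact h1
  obtain ⟨E, hE, hEN, hEk⟩ := inv_ext N' hcop d hξ'c hd' hinv'
  have hE1 : E 1 = ξ 1 := by
    have := hEN 1
    rw [hξ'v] at this
    exact this
  -- restrict to P
  let i : P →* L := Subgroup.inclusion hPL
  have hψ : IsCharacter P (E ∘ i) := isCharacter_comp hE i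
  have hψ1 : (E ∘ i) 1 = ξ 1 := by
    rw [← hE1, Function.comp_apply, map_one]
  have hdeg : charDegree (E ∘ i) = n := by
    rw [← hn]
    unfold charDegree
    rw [hψ1]
  -- faithful
  have hpf : ∀ x : P, (E ∘ i) x = (E ∘ i) 1 → x = 1 := by
    intro x hx
    rw [hψ1, ← hE1] at hx
    have hK := H75.charKer_normal hE
    have hxK : i x ∈ H75.charKer hE := (H75.mem_charKer hE _).mpr hx
    have h1 := hC x x.2 (fun m hm => by
      set m' : L := ⟨m, hNL hm⟩ with hm'
      have hmN : m' ∈ N' := hm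
      have hcomm : i x * m' * (i x)⁻¹ * m'⁻¹ ∈ H75.charKer hE := by
        have : i x * m' * (i x)⁻¹ * m'⁻¹ = i x * (m' * (i x)⁻¹ * m'⁻¹) := by group
        rw [this]
        exact (H75.charKer hE).mul_mem hxK (hK.conj_mem _ ((H75.charKer hE).inv_mem hxK) m')
      have hcommN : i x * m' * (i x)⁻¹ * m'⁻¹ ∈ N' :=
        N'.mul_mem (hN'n.conj_mem _ hmN _) (N'.inv_mem hmN)
      have h2 := hEN ⟨_, hcommN⟩
      rw [hξ'v] at h2
      have h3 := (H75.mem_charKer hE _).mp hcomm
      have h4 := hfaith ⟨((i x * m' * (i x)⁻¹ * m'⁻¹ : L) : Γ), hcommN⟩ (by rw [← h2, h3, hE1])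
      have h5 : ((i x * m' * (i x)⁻¹ * m'⁻¹ : L) : Γ) = 1 := congrArg Subtype.val h4
      have h6 : (x : Γ) * m * (x : Γ)⁻¹ * m⁻¹ = 1 := h5
      rw [mul_inv_eq_one, mul_inv_eq_iff_eq_mul] at h6
      exact h6)
    exact Subtype.ext h1
  -- rational
  have hrat : ∀ x : P, ∃ z : ℤ, (E ∘ i) x = z := by
    intro x
    refine exists_int_of_fixed (n := Nat.card P) Nat.card_pos.ne' _ (char_mem_closure hψ x dvd_rfl)
      fun k σ hk hσ => ?_
    rw [map_char_eq (k := k) hψ x (n := Nat.card P) (orderOf_dvd_natCard x) σ hσ]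
    obtain ⟨K, hK1, hK2⟩ := Nat.chineseRemainder (ha ▸ hcopa : (Nat.card N).Coprime (Nat.card P)) 1 k
    have h1 : x ^ k = x ^ K := by
      rw [pow_eq_pow_iff_modEq]
      exact (hK2.of_dvd (orderOf_dvd_natCard x)).symm
    rw [h1, Function.comp_apply, Function.comp_apply, map_pow]
    apply hEk K (i x) (by rw [hcard]; exact hK1)
    have h2 : Nat.card L ∣ Nat.card N * Nat.card P := by
      rw [← N'.card_mul_index, hcard, ha]
      exact mul_dvd_mul_left _ hidx
    refine Nat.Coprime.coprime_dvd_right h2 (Nat.Coprime.mul_right ?_ ?_)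
    · have h3 := hK1.gcd_eq
      unfold Nat.Coprime
      rw [h3, Nat.gcd_one_left]
    · have h3 := hK2.gcd_eq
      unfold Nat.Coprime
      rw [h3]
      exact hk
  exact S4488.result p hp (E ∘ i) hψ hpf ⟨1, one_pos, hp.one_lt.ne' ∘ Nat.dvd_one.mp, fun g => by
    obtain ⟨z, hz⟩ := hrat g
    rw [hz]
    exact (IntermediateField.adjoin ℚ _).intCast_mem z⟩ n hdeg

/-- `p`-regular elements congruent modulo a normal `p`-subgroup are conjugate -/
theorem conj_of_congr {G : Type u} [Group G] [Finite G] {p : ℕ} [hp : Fact p.Prime] (O : Subgroup G)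
    [hOn : O.Normal] (hO : IsPGroup p O) {a b : G} (ha : (orderOf a).Coprime p)
    (hb : (orderOf b).Coprime p) (h : (a : G ⧸ O) = b) : ∃ g : G, g * a * g⁻¹ = b := by
  classical
  obtain ⟨s, hs⟩ := IsPGroup.iff_card.mp hO
  have hdis : ∀ c : G, (orderOf c).Coprime p → ∀ k : ℤ, c ^ k ∈ O → c ^ k = 1 := by
    intro c hc k hk
    have h1 : orderOf (c ^ k) ∣ orderOf c := orderOf_dvd_of_mem_zpowers ⟨k, rfl⟩
    have h2 : orderOf (c ^ k) ∣ p ^ s := by
      rw [← hs]
      have := orderOf_dvd_natCard (⟨c ^ k, hk⟩ : O)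
      rwa [Subgroup.orderOf_mk] at this
    rw [← orderOf_eq_one_iff]
    exact Nat.dvd_one.mp ((Nat.Coprime.pow_right s hc) ▸ Nat.dvd_gcd h1 h2)
  have hordq : ∀ c : G, (orderOf c).Coprime p → orderOf (c : G ⧸ O) = orderOf c := by
    intro c hc
    apply orderOf_eq_orderOf_iff.mpr
    intro k
    constructor
    · intro hk
      rw [← QuotientGroup.mk_pow, QuotientGroup.eq_one_iff] at hk
      have := hdis c hc (k : ℤ) (by rwa [zpow_natCast])
      rwa [zpow_natCast] at this
    · intro hk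
      rw [← QuotientGroup.mk_pow, hk, QuotientGroup.mk_one]
  have hord : orderOf a = orderOf b := by rw [← hordq a ha, ← hordq b hb, h]
  set L := O ⊔ Subgroup.zpowers a with hL
  have hbL : b ∈ L := by
    have h1 : a⁻¹ * b ∈ O := QuotientGroup.eq.mp h
    have h2 : b = a * (a⁻¹ * b) := by group
    rw [h2]
    exact L.mul_mem (Subgroup.mem_sup_right (Subgroup.mem_zpowers a)) (Subgroup.mem_sup_left h1)
  have haL : a ∈ L := Subgroup.mem_sup_right (Subgroup.mem_zpowers a)
  have hcop : (orderOf a).Coprime (Nat.card O) := by rw [hs]; exact Nat.Coprime.pow_right s ha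
  have hinf : Subgroup.zpowers a ⊓ O = ⊥ := by
    rw [eq_bot_iff]
    rintro x ⟨⟨k, rfl⟩, hk⟩
    exact Subgroup.mem_bot.mpr (hdis a ha k hk)
  have hcardL : Nat.card L = orderOf a * Nat.card O := by
    have h1 := Subgroup.relIndex_mul_relIndex (⊥ : Subgroup G) O L bot_le le_sup_left
    rw [Subgroup.relIndex_bot_left, Subgroup.relIndex_bot_left] at h1
    have h2 : O.relIndex L = orderOf a := by
      rw [hL, sup_comm, Subgroup.relIndex_sup_right, ← Subgroup.inf_relIndex_right, inf_comm, hinf,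
        Subgroup.relIndex_bot_left, Nat.card_zpowers]
    rw [← h1, h2, mul_comm]
  have hsolv : Group.IsSolvable L := by
    have h1 : Group.IsSolvable O := by
      haveI := hO.isNilpotent
      infer_instance
    have h2 : Group.IsSolvable (Subgroup.zpowers a) :=
      Group.isSolvable_of_comm fun x y => by
        obtain ⟨_, i, rfl⟩ := x
        obtain ⟨_, j, rfl⟩ := y
        exact Subtype.ext (Commute.zpow_zpow_self a i j).eq
    exact H67.isSolvable_sup_of_normal O (Subgroup.zpowers a) h1 h2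
  obtain ⟨g, hgL, hg⟩ := Cop.hall_rel_conj (L := L) hcardL hcop hsolv
    (H := Subgroup.zpowers a) (K := Subgroup.zpowers b) ((Subgroup.zpowers_le).mpr haL)
    ((Subgroup.zpowers_le).mpr hbL) (Nat.card_zpowers a) (by rw [Nat.card_zpowers, hord])
  have hga : g * a * g⁻¹ ∈ Subgroup.zpowers b := by
    rw [← hg]
    exact Subgroup.smul_mem_pointwise_smul a (MulAut.conj g) _ (Subgroup.mem_zpowers a)
  obtain ⟨j, hj⟩ := hga
  have hj' : b ^ j = g * a * g⁻¹ := hj
  refine ⟨g, ?_⟩
  have hcomm : (g : G ⧸ O) * a * (g : G ⧸ O)⁻¹ = a := by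
    have h1 : (g : G ⧸ O) ∈ Subgroup.zpowers (a : G ⧸ O) := by
      have h2 : (QuotientGroup.mk' O) g ∈ L.map (QuotientGroup.mk' O) :=
        Subgroup.mem_map_of_mem _ hgL
      rw [hL, Subgroup.map_sup, QuotientGroup.map_mk'_self, bot_sup_eq,
        MonoidHom.map_zpowers] at h2
      exact h2
    obtain ⟨m, hm⟩ := h1
    have hm' : (a : G ⧸ O) ^ m = g := hm
    rw [← hm', (Commute.zpow_left (Commute.refl (a : G ⧸ O)) m).eq, mul_inv_cancel_right]
  have h1 : b ^ (j - 1) ∈ O := by
    rw [← QuotientGroup.eq_one_iff]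
    have h2 : ((b ^ j : G) : G ⧸ O) = b := by
      rw [hj', QuotientGroup.mk_mul, QuotientGroup.mk_mul, QuotientGroup.mk_inv, hcomm, h]
    rw [zpow_sub_one, QuotientGroup.mk_mul, h2, QuotientGroup.mk_inv, mul_inv_cancel]
  have h2 := hdis b hb _ h1
  rw [← hj', zpow_sub_one, mul_inv_eq_one] at *
  exact h2

/-- **Bound for the `p`-part of the index of `O_p(G)`** in a `p`-solvable linear group. -/
theorem main {G : Type u} [Group G] [Finite G] {χ : G → ℂ} (hχ : IsCharacter G χ)
    (hfaith : ∀ g : G, χ g = χ 1 → g = 1) (n : ℕ) (hn : charDegree χ = n) (p : ℕ) (hp : p.Prime)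
    (hsolv : IsPSolvable p G) :
    ((pCore p G).index).factorization p ≤ ∑ i ∈ Finset.range (n + 1), n / ((p - 1) * p ^ i) := by
  classical
  haveI := Fact.mk hp
  set O := pCore p G with hO
  have hOp : IsPGroup p O := Solv.pCore_isPGroup p
  obtain ⟨s, hs⟩ := IsPGroup.iff_card.mp hOp
  have hcore : pCore p (G ⧸ O) = ⊥ := Solv.pCore_quotient_pCore p
  have hsolvQ : IsPSolvable p (G ⧸ O) := H76.isPSolvable_quotient O hsolv
  set Nb : Subgroup (G ⧸ O) := pPrimeCore p (G ⧸ O) with hNb
  have hNbn : Nb.Normal := (Solv.coprime_card_sSup p _ (fun _ h => h)).1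
  have hNbp : (Nat.card Nb).Coprime p := Solv.pPrimeCore_card_coprime p
  have hcent : Subgroup.centralizer (Nb : Set (G ⧸ O)) ≤ Nb :=
    H79.centralizer_pPrimeCore_le hsolvQ hcore
  set N : Subgroup G := Nb.comap (QuotientGroup.mk' O) with hN
  have hON : O ≤ N := by
    intro x hx
    rw [hN, Subgroup.mem_comap]
    have : QuotientGroup.mk' O x = 1 := (QuotientGroup.eq_one_iff x).mpr hx
    rw [this]; exact Nb.one_mem
  have hcardN : Nat.card N = Nat.card O * Nat.card Nb := by
    have h1 : N.index = Nb.index :=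
      Subgroup.index_comap_of_surjective Nb (QuotientGroup.mk'_surjective O)
    have h2 := N.card_mul_index
    have h3 := Nb.card_mul_index
    have h4 := Subgroup.card_eq_card_quotient_mul_card_subgroup O
    rw [h4, ← h3, h1] at h2
    have h5 : Nat.card N * Nb.index = (Nat.card O * Nat.card Nb) * Nb.index := by
      rw [h2]; ring
    exact Nat.eq_of_mul_eq_mul_right (Nat.pos_of_ne_zero Subgroup.index_ne_zero_of_finite) h5
  set O' := O.subgroupOf N with hO'
  have hcardO' : Nat.card O' = Nat.card O := Nat.card_congr (Subgroup.subgroupOfEquivOfLe hON).toEquiv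
  have hidx : O'.index = Nat.card Nb := by
    have h1 := O'.card_mul_index
    rw [hcardO', hcardN] at h1
    exact Nat.eq_of_mul_eq_mul_left Nat.card_pos h1
  have hcop : (Nat.card O').Coprime O'.index := by
    rw [hcardO', hidx, hs]
    exact Nat.Coprime.pow_left s hNbp.symm
  obtain ⟨H, hH⟩ := Subgroup.exists_right_complement'_of_coprime hcop
  -- the isomorphism from `H` to `Nb`
  let f : H →* Nb :=
    { toFun := fun h => ⟨QuotientGroup.mk' O ((h : N) : G), (h : N).2⟩
      map_one' := Subtype.ext (by simp)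
      map_mul' := fun a b => Subtype.ext (by simp) }
  have hf : Function.Bijective f := by
    constructor
    · rw [injective_iff_map_eq_one]
      intro h hh
      have h1 : QuotientGroup.mk' O ((h : N) : G) = 1 := congrArg Subtype.val hh
      have h2 : ((h : N) : G) ∈ O := (QuotientGroup.eq_one_iff _).mp h1
      have h3 : (h : N) ∈ O' ⊓ H := ⟨h2, h.2⟩
      rw [hH.disjoint.eq_bot, Subgroup.mem_bot] at h3
      exact Subtype.ext h3
    · rintro ⟨y, hy⟩
      obtain ⟨g, rfl⟩ := QuotientGroup.mk'_surjective O y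
      have hg : g ∈ N := hy
      have h1 : (⟨g, hg⟩ : N) ∈ O' ⊔ H := by rw [hH.sup_eq_top]; exact Subgroup.mem_top _
      obtain ⟨o, ho, h, hh, hoh⟩ := Subgroup.mem_sup_of_normal_left.mp h1
      refine ⟨⟨h, hh⟩, Subtype.ext ?_⟩
      change QuotientGroup.mk' O (h : G) = QuotientGroup.mk' O g
      have h2 : (o : G) * h = g := congrArg Subtype.val hoh
      rw [← h2, map_mul]
      have h3 : QuotientGroup.mk' O (o : G) = 1 := (QuotientGroup.eq_one_iff _).mpr ho
      rw [h3, one_mul]
  let e : H ≃* Nb := MulEquiv.ofBijective f hf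
  have he : ∀ y : Nb, QuotientGroup.mk' O ((e.symm y : N) : G) = (y : G ⧸ O) := by
    intro y
    have h1 : e (e.symm y) = y := e.apply_symm_apply y
    exact congrArg Subtype.val h1
  set ξ : Nb → ℂ := (χ ∘ (N.subtype.comp H.subtype)) ∘ e.symm.toMonoidHom with hξ
  have hξv : ∀ y : Nb, ξ y = χ ((e.symm y : N) : G) := fun y => rfl
  have hξc : IsCharacter Nb ξ := isCharacter_comp (isCharacter_comp hχ _) _
  have hξ1 : ξ 1 = χ 1 := by rw [hξv]; simp
  have hξf : ∀ y : Nb, ξ y = ξ 1 → y = 1 := by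
    intro y hy
    rw [hξ1, hξv] at hy
    have h1 := hfaith _ hy
    have h2 : e.symm y = 1 := Subtype.ext (Subtype.ext h1)
    rw [← e.apply_symm_apply y, h2, map_one]
  have hreg : ∀ y : Nb, (orderOf ((e.symm y : N) : G)).Coprime p := by
    intro y
    have h1 : orderOf ((e.symm y : N) : G) = orderOf y :=
      orderOf_injective ((N.subtype.comp H.subtype).comp e.symm.toMonoidHom)
        ((N.subtype_injective.comp H.subtype_injective).comp e.symm.injective) y
    rw [h1]
    exact hNbp.coprime_dvd_left (orderOf_dvd_natCard y)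
  have hξinv : ∀ g : G ⧸ O, cj Nb g ξ = ξ := by
    intro g
    obtain ⟨g, rfl⟩ := QuotientGroup.mk'_surjective O g
    funext y
    rw [cj_apply, hξv, hξv]
    set y' : Nb := ⟨QuotientGroup.mk' O g * y * (QuotientGroup.mk' O g)⁻¹, hNbn.conj_mem (y : G ⧸ O) y.2 _⟩
      with hy'
    have h1 : ((g * ((e.symm y : N) : G) * g⁻¹ : G) : G ⧸ O) = (((e.symm y' : N) : G) : G ⧸ O) := by
      have h2 := he y
      have h3 := he y'
      change QuotientGroup.mk' O (g * ((e.symm y : N) : G) * g⁻¹) = QuotientGroup.mk' O _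
      rw [map_mul, map_mul, map_inv, h2, h3]
    obtain ⟨x, hx⟩ := conj_of_congr O hOp (a := g * ((e.symm y : N) : G) * g⁻¹)
      (b := ((e.symm y' : N) : G)) (by
        have : orderOf (g * ((e.symm y : N) : G) * g⁻¹) = orderOf ((e.symm y : N) : G) :=
          orderOf_injective (MulAut.conj g).toMonoidHom (MulAut.conj g).injective _
        rw [this]; exact hreg y) (hreg y') h1
    rw [← hx]
    have hcl := isClassFunction_of_isCharacter hχ
    rw [hcl, hcl]
  obtain ⟨P⟩ : Nonempty (Sylow p (G ⧸ O)) := inferInstance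
  have hcardP : Nat.card P = p ^ (O.index).factorization p := by
    rw [Sylow.card_eq_multiplicity]
    rfl
  have hb := card_bound hp Nb hNbp (P : Subgroup (G ⧸ O)) P.isPGroup' (fun x hxP hx => by
    have h1 : x ∈ Nb := hcent (Subgroup.mem_centralizer_iff.mpr fun m hm => (hx m hm).symm)
    have h2 : orderOf x ∣ Nat.card Nb := by
      have := orderOf_dvd_natCard (⟨x, h1⟩ : Nb)
      rwa [Subgroup.orderOf_mk] at this
    have h3 : orderOf x ∣ Nat.card P := by
      have := orderOf_dvd_natCard (⟨x, hxP⟩ : (P : Subgroup (G ⧸ O)))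
      rwa [Subgroup.orderOf_mk] at this
    rw [hcardP] at h3
    rw [← orderOf_eq_one_iff]
    exact Nat.dvd_one.mp ((Nat.Coprime.pow_right _ hNbp) ▸ Nat.dvd_gcd h2 h3)) hξc hξinv hξf n (by
      rw [← hn]
      unfold charDegree
      rw [hξ1])
  have h4 : (Nat.card (P : Subgroup (G ⧸ O))).factorization p = (O.index).factorization p := by
    have h5 : Nat.card (P : Subgroup (G ⧸ O)) = p ^ (O.index).factorization p := hcardP
    rw [h5, hp.factorization_pow, Finsupp.single_eq_same]
  rw [← h4]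
  exact hb

end Cfsg.Agent.H34.PSL
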