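import Mathlib
import Cfsg.Agent.H92.RtDef

/-!
# S2755, piece C3: the centralizer of an element of order 3
-/

set_option autoImplicit false
set_option linter.unusedSectionVars false

namespace Cfsg.Agent.H34.Rt

open Cfsg.Agent.H92.Rt

/-- a group with a Sylow 2-subgroup of order 2 -/
theorem two_compl {H : Type*} [Group H] [Finite H] (t : H) (t1 : t ≠ 1) (t2 : t * t = 1)
    (hC : ∀ (S : Sylow 2 H), t ∈ S → ∀ g ∈ S, g = 1 ∨ g = t) :
    (∀ v : H, v ≠ 1 → v * v = 1 → ∃ g : H, g * v * g⁻¹ = t) ∧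
    ∃ N : Subgroup H, N.Normal ∧ Odd (Nat.card N) ∧ N.index = 2 := by
  classical
  have hp2 : Fact (Nat.Prime 2) := ⟨Nat.prime_two⟩
  have key : ∀ v : H, v ≠ 1 → v * v = 1 → IsPGroup 2 (Subgroup.zpowers v) := by
    intro v hv hvv
    apply IsPGroup.of_card (n := 1)
    rw [Nat.card_zpowers, pow_one]
    exact orderOf_eq_prime (by rw [sq]; exact hvv) hv
  obtain ⟨S, hS⟩ := (key t t1 t2).exists_le_sylow
  have htS : t ∈ S := hS (Subgroup.mem_zpowers t)
  have hS2 := hC S htS
  have hcS : Nat.card S = 2 := by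
    have h1 : (S : Subgroup H) = Subgroup.zpowers t := by
      apply le_antisymm _ hS
      intro g hg
      rcases hS2 g hg with h | h
      · rw [h]; exact Subgroup.one_mem _
      · rw [h]; exact Subgroup.mem_zpowers t
    have h2 : Nat.card (S : Subgroup H) = 2 := by
      rw [h1, Nat.card_zpowers]
      exact orderOf_eq_prime (by rw [sq]; exact t2) t1
    exact h2
  refine ⟨?_, ?_⟩
  · intro v hv hvv
    obtain ⟨T, hT⟩ := (key v hv hvv).exists_le_sylow
    obtain ⟨g, hg⟩ := MulAction.exists_smul_eq H T S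
    refine ⟨g, ?_⟩
    have h1 : g * v * g⁻¹ ∈ S := by
      rw [← hg]
      exact ⟨v, hT (Subgroup.mem_zpowers v), rfl⟩
    rcases hS2 _ h1 with h | h
    · exfalso
      apply hv
      calc v = g⁻¹ * (g * v * g⁻¹) * g := by group
        _ = 1 := by rw [h]; group
    · exact h
  · have hP : Subgroup.normalizer ((S : Subgroup H) : Set H) ≤ Subgroup.centralizer ((S : Subgroup H) : Set H) := by
      intro n hn
      rw [Subgroup.mem_centralizer_iff]
      intro y hy
      rcases hS2 y hy with h | h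
      · rw [h, one_mul, mul_one]
      · subst h
        have h3 : n * y * n⁻¹ ∈ S := (Subgroup.mem_normalizer_iff.1 hn y).1 hy
        rcases hS2 _ h3 with h4 | h4
        · exfalso
          apply t1
          calc y = n⁻¹ * (n * y * n⁻¹) * n := by group
            _ = 1 := by rw [h4]; group
        · calc y * n = (n * y * n⁻¹) * n := by rw [h4]
            _ = n * y := by group
    have hc := MonoidHom.ker_transferSylow_isComplement' S hP
    refine ⟨(MonoidHom.transferSylow S hP).ker, inferInstance, ?_, ?_⟩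
    · have h6 := hc.card_mul
      have h7 : ¬ 2 ∣ (S : Subgroup H).index := S.not_dvd_index
      rw [← Nat.not_even_iff_odd, even_iff_two_dvd]
      intro h8
      apply h7
      have h9 := (S : Subgroup H).index_mul_card
      rw [← h6] at h9
      rw [Nat.eq_of_mul_eq_mul_right Nat.card_pos h9]
      exact h8
    · rw [hc.symm.index_eq_card]
      exact hcS

section

variable {H : Type*} [Group H] [Finite H] {N : Subgroup H} (hN : Odd (Nat.card N)) (hi : N.index = 2)

include hN in
theorem notMem_of_inv {v : H} (hv : v ≠ 1) (hvv : v * v = 1) : v ∉ N := by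
  intro h
  have h1 : orderOf v = 2 := orderOf_eq_prime (by rw [sq]; exact hvv) hv
  have h2 : orderOf v ∣ Nat.card N := N.orderOf_dvd_natCard h
  rw [h1] at h2
  exact (Nat.not_even_iff_odd.2 hN) (even_iff_two_dvd.2 h2)

include hi in
theorem mem_of_odd {g : H} {n : ℕ} (hn : Odd n) (hg : g ^ n = 1) : g ∈ N := by
  obtain ⟨k, hk⟩ := hn
  have h1 : g * g ∈ N := (Subgroup.mul_mem_iff_of_index_two hi).2 Iff.rfl
  have h2 : g = ((g * g) ^ k)⁻¹ := by
    rw [eq_inv_iff_mul_eq_one, ← hg, hk, ← sq, ← pow_mul, pow_succ, pow_mul]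
    have : Commute g (g ^ 2 ) := (Commute.refl g).pow_right 2
    rw [← pow_mul]
    exact (((Commute.refl g).pow_right (2 * k)).eq)
  rw [h2]
  exact N.inv_mem (N.pow_mem h1 k)

include hN in
theorem odd_orderOf {g : H} (hg : g ∈ N) : Odd (orderOf g) :=
  Odd.of_dvd_nat hN (N.orderOf_dvd_natCard hg)

end

theorem c3 {G : Type*} [Group G] [Finite G] {t : G} {K : Subgroup G} {q m : ℕ} {U A : Subgroup K} {k s r : K}
    (D : RD t K q m U A k s r) (x : K) (hx : x ∈ U) (hx1 : x ≠ 1) :
    (∃ c : ℕ, Nat.card (Subgroup.centralizer ({(x : G)} : Set G)) = 2 * q * c ∧ Odd c ∧ ¬ 3 ∣ c) ∧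
    (∀ v : G, v ≠ 1 → v * v = 1 → v * (x : G) = (x : G) * v → ∃ g : G, g * (x : G) = (x : G) * g ∧ g * v * g⁻¹ = t) ∧
    (∀ v : G, v ≠ 1 → v * v = 1 → v * (x : G) = (x : G) * v → Odd (orderOf (v * t)) ∧ Odd (orderOf (v * t * (x : G)))) := by
  classical
  have hp2 : Fact (Nat.Prime 2) := ⟨Nat.prime_two⟩
  have hp3 : Fact (Nat.Prime 3) := ⟨Nat.prime_three⟩
  have hKt : ∀ y : K, (y : G) * t = t * (y : G) := fun y => (D.cent (y : G)).2 ⟨y, Or.inl rfl⟩
  have hcc : ∀ g : G, g * t = t * g → g * (x : G) = (x : G) * g → ∃ y ∈ U, g = (y : G) ∨ g = t * (y : G) := by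
    intro g hgt hgx
    obtain ⟨y, hy⟩ := (D.cent g).1 hgt
    refine ⟨y, ?_, hy⟩
    apply D.kd.Ucent x hx hx1
    apply Subtype.ext
    show (y : G) * (x : G) = (x : G) * (y : G)
    rcases hy with hy | hy
    · rw [← hy]; exact hgx
    · have h1 : t * ((y : G) * (x : G)) = t * ((x : G) * (y : G)) := by
        calc t * ((y : G) * (x : G)) = g * x := by rw [hy]; group
          _ = x * g := hgx
          _ = (x * t) * y := by rw [hy]; group
          _ = (t * x) * y := by rw [hKt]
          _ = _ := by group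
      exact mul_left_cancel h1
  set C : Subgroup G := Subgroup.centralizer ({(x : G)} : Set G) with hCdef
  have hmC : ∀ g : G, g ∈ C ↔ g * (x : G) = (x : G) * g := fun g => by
    rw [hCdef, Subgroup.mem_centralizer_singleton_iff]
  have htC : t ∈ C := (hmC t).2 (hKt x).symm
  have hxC : (x : G) ∈ C := (hmC _).2 rfl
  let t' : C := ⟨t, htC⟩
  have ht1' : t' ≠ 1 := fun h => D.t1 (congrArg Subtype.val h)
  have ht2' : t' * t' = 1 := Subtype.ext D.t2
  have hU3 : ∀ y ∈ U, y * y = 1 → y = 1 := by
    intro y hy hyy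
    have h1 := D.kd.Uexp y hy
    rw [pow_succ, sq, hyy, one_mul] at h1
    exact h1
  obtain ⟨hconj, N, hNn, hNodd, hNi⟩ := two_compl t' ht1' ht2' (by
    intro S htS g hg
    have hSG : IsPGroup 2 ((S : Subgroup C).map C.subtype) := S.isPGroup'.map _
    obtain ⟨T, hT⟩ := hSG.exists_le_sylow
    obtain ⟨-, hT2⟩ := D.syl T
    have h1 : (g : G) ∈ T := hT ⟨g, hg, rfl⟩
    have h2 : t ∈ T := hT ⟨t', htS, rfl⟩
    obtain ⟨h3, h4⟩ := hT2 _ h1 _ h2
    obtain ⟨y, hyU, hy⟩ := hcc g h3 ((hmC g).1 g.2)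
    rcases hy with hy | hy
    · left
      have h5 : y = 1 := hU3 y hyU (Subtype.ext (by
        show (y : G) * (y : G) = 1
        rw [← hy]; exact h4))
      apply Subtype.ext
      rw [hy, h5]; rfl
    · right
      have h5 : y = 1 := hU3 y hyU (Subtype.ext (by
        show (y : G) * (y : G) = 1
        rw [hy] at h4
        calc (y : G) * (y : G) = (t * t) * (y * y) := by rw [D.t2, one_mul]
          _ = t * (t * y) * y := by group
          _ = t * (y * t) * y := by rw [hKt]
          _ = (t * y) * (t * y) := by group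
          _ = 1 := h4))
      apply Subtype.ext
      rw [hy, h5]
      show t * ((1 : K) : G) = t
      rw [Subgroup.coe_one, mul_one])
  have htN : t' ∉ N := notMem_of_inv hNodd ht1' ht2'
  refine ⟨?_, ?_, ?_⟩
  · -- the order
    let P : Sylow 3 N := default
    have hfr := Sylow.normalizer_sup_eq_top (N := N) P
    set Q : Subgroup C := (P : Subgroup N).map N.subtype with hQ
    obtain ⟨v, hvM, hv1, hvv⟩ : ∃ v : C, v ∈ Subgroup.normalizer (Q : Set C) ∧ v ≠ 1 ∧ v * v = 1 := by
      have h2M : 2 ∣ Nat.card (Subgroup.normalizer (Q : Set C)) := by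
        by_contra hcon
        have hodd : Odd (Nat.card (Subgroup.normalizer (Q : Set C))) := by
          rw [← Nat.not_even_iff_odd, even_iff_two_dvd]; exact hcon
        have h1 : Subgroup.normalizer (Q : Set C) ≤ N := by
          intro g hg
          refine mem_of_odd hNi hodd ?_
          have h2 : orderOf g ∣ Nat.card (Subgroup.normalizer (Q : Set C)) :=
            (Subgroup.normalizer (Q : Set C)).orderOf_dvd_natCard hg
          exact orderOf_dvd_iff_pow_eq_one.1 h2
        have h3 : N = ⊤ := by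
          rw [← hfr]
          exact (sup_eq_right.2 h1).symm
        rw [h3] at htN
        exact htN trivial
      obtain ⟨v, hv⟩ := exists_prime_orderOf_dvd_card' 2 h2M
      obtain ⟨h1, h2⟩ := orderOf_eq_prime_iff.1 hv
      refine ⟨v, v.2, fun h3 => h2 (Subtype.ext h3), ?_⟩
      rw [sq] at h1
      exact congrArg Subtype.val h1
    obtain ⟨g, hg⟩ := hconj v hv1 hvv
    -- elements of `Q^g` are in `U`
    have hQU : ∀ p ∈ Q, ∃ y ∈ U, ((g * p * g⁻¹ : C) : G) = (y : G) := by
      intro p hp
      set p' : C := g * p * g⁻¹ with hp'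
      -- a power of `z` of order 3
      set z : C := p' * (t' * p'⁻¹ * t'⁻¹) with hz
      have hzQ : g⁻¹ * z * g ∈ Q := by
        have h1 : g⁻¹ * z * g = p * (v * p⁻¹ * v⁻¹) := by
          rw [hz, hp', ← hg]; group
        rw [h1]
        exact Q.mul_mem hp ((Subgroup.mem_normalizer_iff.1 hvM p⁻¹).1 (Q.inv_mem hp))
      have hQ3 : IsPGroup 3 Q := P.isPGroup'.map _
      have hz3 : ∃ n : ℕ, z ^ 3 ^ n = 1 := by
        obtain ⟨n, hn⟩ := hQ3 ⟨_, hzQ⟩
        refine ⟨n, ?_⟩
        have h1 : (g⁻¹ * z * g) ^ 3 ^ n = 1 := congrArg Subtype.val hn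
        have h2 : z = g * (g⁻¹ * z * g) * g⁻¹ := by group
        rw [h2, conj_pow, h1]; group
      have htinv : t'⁻¹ = t' := inv_eq_of_mul_eq_one_left ht2'
      have hzinv : t' * z * t'⁻¹ = z⁻¹ := by
        rw [hz, htinv]
        calc t' * (p' * (t' * p'⁻¹ * t')) * t' = t' * p' * t' * p'⁻¹ * (t' * t') := by group
          _ = t' * p' * t' * p'⁻¹ := by rw [ht2', mul_one]
          _ = (t'⁻¹ * p' * t'⁻¹) * p'⁻¹ := by rw [htinv]
          _ = (p' * (t' * p'⁻¹ * t'))⁻¹ := by group
      have hz1 : z = 1 := by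
        by_contra hzne
        obtain ⟨n, hn⟩ := hz3
        -- minimal
        have hex : ∃ j : ℕ, z ^ 3 ^ j ≠ 1 ∧ z ^ 3 ^ (j + 1) = 1 := by
          by_contra hcon
          push Not at hcon
          have : ∀ j : ℕ, z ^ 3 ^ j ≠ 1 := by
            intro j
            induction j with
            | zero => rw [pow_zero, pow_one]; exact hzne
            | succ j ih => exact hcon j ih
          exact this n hn
        obtain ⟨j, hj1, hj2⟩ := hex
        apply hj1
        have h1 := D.no3 t ((z ^ 3 ^ j : C) : G) D.t1 D.t2 (by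
          have : (z ^ 3 ^ j) ^ 3 = 1 := by rw [← pow_mul, ← pow_succ]; exact hj2
          exact congrArg Subtype.val this) (by
          have h2 : t' * (z ^ 3 ^ j) * t'⁻¹ = (z ^ 3 ^ j)⁻¹ := by
            rw [← conj_pow, hzinv, inv_pow]
          exact congrArg Subtype.val h2)
        exact Subtype.ext h1
      have hcomm : (p' : G) * t = t * (p' : G) := by
        have h1 : p' * t' = t' * p' := by
          calc p' * t' = (p' * (t' * p'⁻¹ * t'⁻¹)) * (t' * p') := by group
            _ = t' * p' := by rw [← hz, hz1, one_mul]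
        exact congrArg Subtype.val h1
      obtain ⟨y, hyU, hy⟩ := hcc p' hcomm ((hmC _).1 p'.2)
      rcases hy with hy | hy
      · exact ⟨y, hyU, hy⟩
      · exfalso
        obtain ⟨n, hn⟩ := hQ3 ⟨p, hp⟩
        have h1 : p ^ 3 ^ n = 1 := congrArg Subtype.val hn
        have h2 : p' ^ 3 ^ n = 1 := by rw [hp', conj_pow, h1]; group
        have h3 : (t * (y : G)) ^ 3 ^ n = 1 := by
          rw [← hy]; exact congrArg Subtype.val h2
        have h4 : Commute t (y : G) := (hKt y).symm
        rw [h4.mul_pow] at h3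
        have h5 : Odd (3 ^ n) := Odd.pow (by decide)
        obtain ⟨l, hl⟩ := h5
        have h6 : t ^ 3 ^ n = t := by
          rw [hl, pow_succ, pow_mul, sq, D.t2, one_pow, one_mul]
        rw [h6] at h3
        apply D.tK
        rw [eq_inv_of_mul_eq_one_left h3]
        exact K.inv_mem (K.pow_mem y.2 _)
    have hcP1 : Nat.card P ≤ q := by
      rw [← D.kd.cardU]
      have hex : ∀ p : P, ∃ y ∈ U, ((g * ((p : N) : C) * g⁻¹ : C) : G) = (y : G) := fun p => hQU _ ⟨p, p.2, rfl⟩
      choose f hf1 hf2 using hex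
      refine Nat.card_le_card_of_injective (fun p : P => (⟨f p, hf1 p⟩ : U)) ?_
      intro p p' hpp
      have h1 : f p = f p' := congrArg Subtype.val hpp
      have h2 : ((g * ((p : N) : C) * g⁻¹ : C) : G) = ((g * ((p' : N) : C) * g⁻¹ : C) : G) := by
        rw [hf2, hf2, h1]
      have h3 : g * ((p : N) : C) * g⁻¹ = g * ((p' : N) : C) * g⁻¹ := Subtype.ext h2
      have h4 : ((p : N) : C) = ((p' : N) : C) := mul_left_cancel (mul_right_cancel h3)
      exact Subtype.ext (Subtype.ext h4)
    have hUC : ∀ y ∈ U, ((y : K) : G) ∈ C := by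
      intro y hy
      rw [hmC]
      exact congrArg Subtype.val (D.kd.Ucomm y hy x hx)
    have hUN : ∀ y (hy : y ∈ U), (⟨(y : G), hUC y hy⟩ : C) ∈ N := by
      intro y hy
      refine mem_of_odd hNi (n := 3) (by decide) ?_
      apply Subtype.ext
      show (y : G) ^ 3 = 1
      exact congrArg (fun z : K => (z : G)) (D.kd.Uexp y hy)
    have hcP2 : q ≤ Nat.card P := by
      let U' : Subgroup N := ((U.map K.subtype).comap C.subtype).comap N.subtype
      have hU'3 : IsPGroup 3 U' := by
        intro u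
        obtain ⟨y, hyU, hy⟩ : ∃ y ∈ U, (y : G) = (((u : N) : C) : G) := u.2
        refine ⟨1, ?_⟩
        apply Subtype.ext
        apply Subtype.ext
        apply Subtype.ext
        rw [pow_one]
        show (((u : N) : C) : G) ^ 3 = 1
        rw [← hy]
        exact congrArg Subtype.val (D.kd.Uexp y hyU)
      obtain ⟨T, hT⟩ := hU'3.exists_le_sylow
      have hTP : Nat.card P = Nat.card T := by
        rw [P.card_eq_multiplicity, T.card_eq_multiplicity]
      rw [hTP, ← D.kd.cardU]
      refine Nat.card_le_card_of_injective (fun y : U => (⟨⟨⟨(y : G), hUC y y.2⟩, hUN y y.2⟩, hT ⟨y, y.2, rfl⟩⟩ : T)) ?_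
      intro y y' hyy
      have h1 : ((y : K) : G) = ((y' : K) : G) := congrArg (fun z : T => (((z : N) : C) : G)) hyy
      exact Subtype.ext (Subtype.ext h1)
    have hcP : Nat.card P = q := le_antisymm hcP1 hcP2
    refine ⟨(P : Subgroup N).index, ?_, ?_, P.not_dvd_index⟩
    · have h1 := N.index_mul_card
      have h2 := (P : Subgroup N).index_mul_card
      have h3 : Nat.card (P : Subgroup N) = q := hcP
      rw [hNi] at h1
      rw [h3] at h2
      rw [← h1, ← h2]
      ring
    · refine Odd.of_dvd_nat hNodd ?_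
      exact Subgroup.index_dvd_card _
  · intro v hv1 hvv hvx
    have hvC : v ∈ C := (hmC v).2 hvx
    obtain ⟨g, hg⟩ := hconj ⟨v, hvC⟩ (fun h => hv1 (congrArg Subtype.val h)) (Subtype.ext hvv)
    exact ⟨g, (hmC g).1 g.2, congrArg Subtype.val hg⟩
  · intro v hv1 hvv hvx
    have hvC : v ∈ C := (hmC v).2 hvx
    have hvN : (⟨v, hvC⟩ : C) ∉ N :=
      notMem_of_inv hNodd (fun h => hv1 (congrArg Subtype.val h)) (Subtype.ext hvv)
    have h1 : (⟨v, hvC⟩ : C) * t' ∈ N :=
      (Subgroup.mul_mem_iff_of_index_two hNi).2 ⟨fun h => absurd h hvN, fun h => absurd h htN⟩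
    have hxN : (⟨(x : G), hxC⟩ : C) ∈ N := by
      refine mem_of_odd hNi (n := 3) (by decide) ?_
      apply Subtype.ext
      show (x : G) ^ 3 = 1
      exact congrArg (fun z : K => (z : G)) (D.kd.Uexp x hx)
    constructor
    · have h2 := odd_orderOf hNodd h1
      rwa [← Subgroup.orderOf_coe] at h2
    · have h2 := odd_orderOf hNodd (N.mul_mem h1 hxN)
      rwa [← Subgroup.orderOf_coe] at h2

end Cfsg.Agent.H34.Rt
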