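import Mathlib

/-!
Orders of groups generated by explicit elements: enumeration by words, checked by the kernel on natural number codes.
-/

set_option autoImplicit false

namespace Cfsg.Agent.H34

universe u v

/-- code of the product along a word -/
def wcode {k : ℕ} (mulc : ℕ → ℕ → ℕ) (gc : Fin k → ℕ) (onec : ℕ) (w : List (Fin k)) : ℕ :=
  w.foldl (fun x i => mulc x (gc i)) onec

section

variable {Γ : Type u} {M : Type v} [Group Γ] [Monoid M] (ι : Γ →* M) {k : ℕ} (g : Fin k → Γ)
  (dec : ℕ → M) (mulc : ℕ → ℕ → ℕ) (gc : Fin k → ℕ) (onec : ℕ)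

theorem wcode_mem (hmul : ∀ x y, dec (mulc x y) = dec x * dec y) (hg : ∀ i, ι (g i) = dec (gc i))
    (hone : dec onec = 1) (w : List (Fin k)) :
    ∃ h ∈ Subgroup.closure (Set.range g), ι h = dec (wcode mulc gc onec w) := by
  induction w using List.reverseRecOn with
  | nil => exact ⟨1, one_mem _, by rw [map_one]; exact hone.symm⟩
  | append_singleton w i ih =>
    obtain ⟨h, hh, he⟩ := ih
    refine ⟨h * g i, mul_mem hh (Subgroup.subset_closure ⟨i, rfl⟩), ?_⟩
    rw [map_mul, he, hg]
    unfold wcode
    rw [List.foldl_append, List.foldl_cons, List.foldl_nil, hmul]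

theorem card_closure_of_words (hι : Function.Injective ι)
    (hmul : ∀ x y, dec (mulc x y) = dec x * dec y) (hg : ∀ i, ι (g i) = dec (gc i))
    (hone : dec onec = 1) (B : ℕ) (hinj : ∀ x y, x < B → y < B → dec x = dec y → x = y)
    (W : List (List (Fin k))) (hB : ∀ x ∈ W.map (wcode mulc gc onec), x < B)
    (hnd : (W.map (wcode mulc gc onec)).Nodup) (h1 : onec ∈ W.map (wcode mulc gc onec))
    (hcl : ∀ x ∈ W.map (wcode mulc gc onec), ∀ i, mulc x (gc i) ∈ W.map (wcode mulc gc onec)) :
    Nat.card (Subgroup.closure (Set.range g)) = W.length := by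
  classical
  set L := W.map (wcode mulc gc onec) with hL
  set H := Subgroup.closure (Set.range g) with hH
  let T : Set M := dec '' {x | x ∈ L}
  have hTfin : T.Finite := (List.finite_toSet L).image _
  have hTcard : T.ncard = W.length := by
    have h2 : Set.InjOn dec {x | x ∈ L} := by
      intro x hx y hy hxy
      exact hinj x y (hB x hx) (hB y hy) hxy
    rw [h2.ncard_image]
    have h3 : {x | x ∈ L} = (L.toFinset : Set ℕ) := by ext x; simp
    rw [h3, Set.ncard_coe_finset, List.toFinset_card_of_nodup hnd, hL, List.length_map]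
  have hT : ∀ m : M, m ∈ T ↔ ∃ h ∈ H, ι h = m := by
    have hr : ∀ i, ∀ m ∈ T, m * ι (g i) ∈ T := by
      rintro i _ ⟨x, hx, rfl⟩
      refine ⟨mulc x (gc i), hcl x hx i, ?_⟩
      rw [hmul, hg]
    have hr' : ∀ i, ∀ m, m ∈ T → m * ι (g i)⁻¹ ∈ T := by
      intro i m hm
      have hinjr : Set.InjOn (fun m : M => m * ι (g i)) T := by
        intro a _ b _ hab
        have hab' : a * ι (g i) = b * ι (g i) := hab
        calc a = a * ι (g i) * ι (g i)⁻¹ := by rw [mul_assoc, ← map_mul, mul_inv_cancel, map_one, mul_one]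
          _ = b * ι (g i) * ι (g i)⁻¹ := by rw [hab']
          _ = b := by rw [mul_assoc, ← map_mul, mul_inv_cancel, map_one, mul_one]
      have himg : (fun m : M => m * ι (g i)) '' T = T := by
        apply Set.eq_of_subset_of_ncard_le _ _ hTfin
        · rintro _ ⟨m, hm, rfl⟩
          exact hr i m hm
        · rw [hinjr.ncard_image]
      obtain ⟨b, hb, hbm⟩ : m ∈ (fun m : M => m * ι (g i)) '' T := by rw [himg]; exact hm
      have hbm' : b * ι (g i) = m := hbm
      rw [← hbm', mul_assoc, ← map_mul, mul_inv_cancel, map_one, mul_one]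
      exact hb
    intro m
    constructor
    · rintro ⟨x, hx, rfl⟩
      obtain ⟨w, hw, rfl⟩ := List.mem_map.mp hx
      exact wcode_mem ι g dec mulc gc onec hmul hg hone w
    · rintro ⟨h, hh, rfl⟩
      rw [hH] at hh
      induction hh using Subgroup.closure_induction_right with
      | one => rw [map_one, ← hone]; exact ⟨onec, h1, rfl⟩
      | mul_right x y hx hy ih =>
        obtain ⟨i, rfl⟩ := hy
        rw [map_mul]; exact hr i _ ih
      | mul_inv_cancel x y hx hy ih =>
        obtain ⟨i, rfl⟩ := hy
        rw [map_mul]; exact hr' i _ ih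
  have heq : ι '' (H : Set Γ) = T := by
    ext m
    rw [hT]
    rfl
  have : Nat.card H = (ι '' (H : Set Γ)).ncard := by
    rw [Set.ncard_image_of_injective _ hι]
    rfl
  rw [this, heq, hTcard]

end

end Cfsg.Agent.H34
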